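import Mathlib
import Cfsg.Agent.H8.Feit2

set_option autoImplicit false
set_option maxSynthPendingDepth 3

open Cfsg H7 H3
open scoped ComplexConjugate commutatorElement

namespace H8

theorem cube_arith {q x a E : ℤ} (hq : 4 ≤ q) (hx : 0 < x) (ha : Odd a) (ha2 : a ^ 2 ≤ q)
    (hE : 0 < E) (h : E * (x * (q ^ 2 + q + 1) + a * q) = q ^ 3 + 1) : False := by
  obtain ⟨l, hl⟩ : q ∣ E * x - 1 := ⟨q ^ 2 - E * (x * (q + 1) + a), by linear_combination h⟩
  have h1 : q ^ 2 = q + 1 + l * (q ^ 2 + q + 1) + E * a :=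
    mul_left_cancel₀ (show q ≠ 0 by omega) (by linear_combination -h + (q ^ 2 + q + 1) * hl)
  have h2 : 2 * |a| ≤ q := by
    rw [← sq_abs] at ha2
    nlinarith [abs_nonneg a]
  have h3 : E ≤ E * x := le_mul_of_one_le_right hE.le hx
  have h4 : 0 ≤ l := by nlinarith
  rcases (show l = 0 ∨ l = 1 ∨ 2 ≤ l by omega) with rfl | rfl | h5
  · obtain rfl : E = 1 := by omega
    have := le_abs_self a
    nlinarith
  · have h6 : a = -2 * x := mul_left_cancel₀ hE.ne' (by linear_combination -h1 + 2 * hl)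
    obtain ⟨k, hk⟩ := ha
    omega
  · have h6 := neg_abs_le a
    have h7 : E * (2 * |a|) ≤ (1 + q * l) * q :=
      mul_le_mul (by omega) h2 (by positivity) (by positivity)
    nlinarith [mul_nonneg (sub_nonneg.2 h5) (sq_nonneg q), mul_nonneg h4 (show 0 ≤ q by omega)]

variable {G : Type*} [Group G] [Fintype G] {L : Subgroup G} [Fintype L] {K : Subgroup L}

theorem exists_odd_odd {f g : G → ℂ} (hf : IsGeneralizedCharacter G f)
    (hg : IsGeneralizedCharacter G g) {n : ℤ} (hn : Odd n) (h : ip f g = n) :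
    ∃ χ, IsIrrCharacter G χ ∧ ∃ a b : ℤ, Odd a ∧ Odd b ∧ ip f χ = a ∧ ip g χ = b := by
  choose a ha using fun χ : IrrCharacter G => hf.ip_int χ.2.isGen
  choose b hb using fun χ : IrrCharacter G => hg.ip_int χ.2.isGen
  have h1 := hf.isClassFunction.inner_eq_sum g
  rw [hf.inner_eq_ip hg, h, Finset.sum_congr rfl fun χ _ => by
    rw [hf.inner_eq_ip χ.2.isGen, hg.inner_eq_ip χ.2.isGen, ha, hb, Complex.conj_ofReal]] at h1
  have h2 : n = ∑ χ, a χ * b χ := by exact_mod_cast h1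
  by_contra hc
  push Not at hc
  refine Int.not_even_iff_odd.2 hn (h2 ▸ Finset.even_sum _ fun χ _ => ?_)
  rw [← Int.not_odd_iff_even, Int.odd_mul]
  exact fun h => hc χ χ.2 _ _ h.1 h.2 (ha χ) (hb χ)

theorem TIk.res_ind (h : TIk K) {φ : L → ℂ} (hφ : IsClassFunction L φ) {x : L} (hx : x ∈ K)
    (h0 : φ 1 = 0 ∨ x ≠ 1) (hoff : ∀ y, y ∉ K → φ y = 0) : indFun L φ x = φ x := by
  by_cases h1 : x = 1
  · rw [h1, OneMemClass.coe_one, indFun_one, h0.resolve_right (not_not.2 h1), mul_zero]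
  refine indFun_eq_of_TI L hφ x fun g hg hne => h g x hx h1 ⟨⟨_, hg⟩, ?_, rfl⟩
  by_contra hc
  exact hne (hoff _ hc)

theorem TIk.ip_ind [K.Normal] (h : TIk K) {S : Set (L → ℂ)} (hS : S ⊆ indSet K) {β : L → ℂ}
    (hβ : β ∈ zspanOn S {1}ᶜ) {φ : L → ℂ} (hφ : φ ∈ indSet K) :
    ip (indFun L β) (indFun L φ) = ip β φ := by
  rw [ip_indFun_left _ _ (isClassFunction_indFun _ _), ip_def, ip_def,
    inner_congr_support (η' := φ) fun x hx => ?_]
  have h1 : x ∈ K ∧ x ≠ 1 := by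
    by_contra hc
    exact hx (supp_zspanOn hS hβ x hc)
  exact h.res_ind (isClassFunction_of_indSet hφ) h1.1 (Or.inr h1.2) fun y hy => off_of_indSet hφ hy

theorem TIk.cube [K.Normal] (h : TIk K) (hf : FrobMod K ⊥) {Y : Subgroup L} [Y.Normal]
    (hY : ⁅K, K⁆ ≤ Y) (hYK : Y ≤ K) {n q : ℕ} (hn : 2 ≤ n) (hqn : q = 2 ^ n) (hq : K.index + 1 = q)
    (hYi : Y.relIndex K = q ^ 2) (hK : Nat.card K = q ^ 3) (hL : L.index = q ^ 3 + 1)
    (hund : ∀ θ, IsIrrCharacter G θ → ∀ μ, IsIrrCharacter L μ → InKer K μ →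
      classInner (fun g : L => θ g) μ ≠ 0 → ∃ c, ∀ z : L, z ∈ K → z ≠ 1 → θ z = c) :
    IsCoherent (seqInd K K ⊥) {1}ᶜ (indFun L) := by
  classical
  have hq4 : 4 ≤ q := hqn ▸ Nat.pow_le_pow_right (n := 2) two_pos hn
  have hq2 : 2 ∣ q := hqn ▸ dvd_pow_self 2 (by omega)
  set e := K.index with he
  have hqe : (q : ℝ) = e + 1 := by exact_mod_cast hq.symm
  have e0 : (0 : ℝ) < e := by exact_mod_cast (show 0 < e by omega)
  have hirr : ∀ χ ∈ seqInd K K ⊥, IsIrrCharacter L χ := fun χ hχ => hf.irr bot_le hχ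
  have hdeg : ∀ χ ∈ seqInd K K Y, χ 1 = e := fun χ hχ => deg_eq_of_commutator hY hχ.1 hχ.2.2
  have hc0 := h.coh_lin hf hY hYK (by rw [hYi, hq]; nlinarith)
  have w0 : wsum (seqInd K K Y) = e ^ 2 * (q + 1) := by
    rw [wsum_seqInd_self hYK, hYi, ← he]; push_cast; rw [hqe]; ring
  have w1 : wsum (seqInd K K ⊥ \ seqInd K K Y) = e ^ 2 * q ^ 2 := by
    have := wsum_union (finite_seqInd K K Y) ((finite_seqInd K K ⊥).sdiff (t := seqInd K K Y))
      Set.disjoint_sdiff_right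
    rw [Set.union_sdiff_cancel seqInd_subset_bot, wsum_seqInd_self bot_le, w0,
      Subgroup.relIndex_bot_left, hK, ← he] at this
    push_cast at this
    rw [hqe] at this ⊢
    linear_combination -this
  obtain ⟨η₀, h₀⟩ : (seqInd K K Y).Nonempty := by
    rw [Set.nonempty_iff_ne_empty]
    intro e
    rw [e, ← Finset.coe_empty, wsum_coe, Finset.sum_empty] at w0
    exact absurd w0.symm (by positivity)
  have h₀' := seqInd_subset_bot h₀
  by_cases hall : ∀ χ ∈ seqInd K K ⊥, χ ∉ seqInd K K Y → ∀ d : ℕ, χ 1 = (d * e : ℕ) → 2 * d ≤ q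
  · refine (h.extP hf).chain seqInd_subset_bot le_rfl cc_seqInd cc_seqInd hc0
      fun S₁ a1 a2 _ _ ⟨χ, hχ, hχ'⟩ => ?_
    obtain ⟨d, -, hd⟩ := exists_deg_of_indSet hχ.1
    refine ⟨χ, hχ, hχ', η₀, a1 h₀, d, by rw [hd, hdeg _ h₀]; push_cast; rfl, ?_⟩
    refine lt_of_lt_of_le ?_ (wsum_mono ((finite_seqInd K K ⊥).subset a2) a1)
    have : (2 * d : ℝ) ≤ q := by exact_mod_cast hall χ hχ (fun h => hχ' (a1 h)) d hd
    rw [w0, hd, hdeg _ h₀]
    simp only [Complex.natCast_re]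
    push_cast
    nlinarith [mul_pos e0 e0]
  push Not at hall
  obtain ⟨η, hη, hη', d, hd, hdq⟩ := hall
  have hw : ∀ χ ∈ seqInd K K ⊥, 0 < wt χ := fun χ hχ => by
    obtain ⟨d, d0, hd⟩ := exists_deg_of_indSet hχ.1
    rw [(hirr χ hχ).wt_eq, hd, Complex.natCast_re]
    have : 0 < d * K.index := Nat.mul_pos d0 (by omega)
    positivity
  have wη : wt η = (d * e : ℝ) ^ 2 := by rw [(hirr η hη).wt_eq, hd, Complex.natCast_re]; push_cast; rfl
  obtain rfl : q = d := by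
    have h1 := wsum_mono ((finite_seqInd K K ⊥).sdiff (t := seqInd K K Y)) (S := {η})
      (Set.singleton_subset_iff.2 ⟨hη, hη'⟩)
    rw [w1, wsum_singleton, wη, mul_pow, mul_comm] at h1
    have h2 : d ≤ q := by
      have := le_of_mul_le_mul_left h1 (by positivity)
      exact_mod_cast (pow_le_pow_iff_left₀ (by positivity) (by positivity) two_ne_zero).1 this
    obtain ⟨θ, hθ, rfl⟩ := hη.1
    obtain ⟨m, hm⟩ := hθ.isCharacter.exists_deg
    rw [indFun_one, hm] at hd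
    obtain rfl : m = d := Nat.eq_of_mul_eq_mul_left (show 0 < e by omega) (by
      rw [mul_comm e d]; exact_mod_cast hd)
    have h3 := hθ.deg_dvd_card hm
    rw [hK, hqn, ← pow_mul] at h3
    obtain ⟨i, -, rfl⟩ := (Nat.dvd_prime_pow Nat.prime_two).1 h3
    rw [hqn, ← pow_succ'] at hdq
    rw [hqn] at h2 ⊢
    rw [Nat.pow_lt_pow_iff_right one_lt_two] at hdq
    rw [Nat.pow_le_pow_iff_right one_lt_two] at h2
    congr 1; omega
  have hS : ∀ χ ∈ seqInd K K ⊥, χ ∉ seqInd K K Y → χ = η := fun χ hχ hχ' => by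
    by_contra hne
    have h1 := wsum_mono ((finite_seqInd K K ⊥).sdiff (t := seqInd K K Y)) (S := {η} ∪ {χ})
      (Set.union_subset (Set.singleton_subset_iff.2 ⟨hη, hη'⟩) (Set.singleton_subset_iff.2 ⟨hχ, hχ'⟩))
    rw [wsum_union (Set.finite_singleton _) (Set.finite_singleton _) (by simpa using Ne.symm hne),
      w1, wsum_singleton, wsum_singleton, wη] at h1
    nlinarith [hw χ hχ]
  set s := (finite_seqInd K K Y).toFinset with hs
  have ms : ∀ {φ}, φ ∈ s ↔ φ ∈ seqInd K K Y := fun {φ} => Set.Finite.mem_toFinset _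
  have cs : (s.card : ℝ) = q + 1 := by
    rw [wsum_eq (finite_seqInd K K Y), Finset.sum_congr rfl fun φ hφ => by
      rw [(hirr φ (seqInd_subset_bot (ms.1 hφ))).wt_eq, hdeg φ (ms.1 hφ), Complex.natCast_re],
      Finset.sum_const, nsmul_eq_mul, mul_comm] at w0
    exact mul_left_cancel₀ (by positivity) w0
  have sum2 : ∀ (f : (L → ℂ) → ℝ) (c : ℝ), (∀ φ ∈ seqInd K K Y, φ ≠ η₀ → f φ = c) →
      ∑ φ ∈ s, f φ = f η₀ + q * c := fun f c hf => by
    rw [← Finset.add_sum_erase s f (ms.2 h₀), Finset.sum_congr rfl fun φ hφ =>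
      hf φ (ms.1 (Finset.mem_of_mem_erase hφ)) (Finset.ne_of_mem_erase hφ), Finset.sum_const,
      nsmul_eq_mul, Finset.cast_card_erase_of_mem (ms.2 h₀), cs, add_sub_cancel_right]
  obtain ⟨-, ζ, hζ, hζe⟩ := hc0
  have z1 : ∀ φ ∈ seqInd K K Y, SIrr G (ζ φ) := fun φ hφ =>
    hζ.sirr (mem_zspan hφ) (hirr φ (seqInd_subset_bot hφ)).sirr
  have z2 : ∀ φ ∈ seqInd K K Y, ∀ ψ ∈ seqInd K K Y, ip (ζ φ) (ζ ψ) = ip φ ψ := fun φ hφ ψ hψ =>
    hζ.ip (mem_zspan hφ) (mem_zspan hψ)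
  have z3 : ∀ φ ∈ s, ∀ ψ ∈ s, φ ≠ ψ → ip (ζ φ) (ζ ψ) = 0 := fun φ hφ ψ hψ hne => by
    rw [z2 _ (ms.1 hφ) _ (ms.1 hψ), ip_of_indSet (ms.1 hφ).1 (ms.1 hψ).1 hne]
  have z4 : ∀ φ ∈ s, ip (ζ φ) (ζ φ) = 1 := fun φ hφ => (z1 φ (ms.1 hφ)).ip_self
  have m1 : ∀ φ ∈ seqInd K K Y, φ - η₀ ∈ zspanOn (seqInd K K Y) {1}ᶜ := fun φ hφ => by
    simpa using sub_nsmul_mem_zspanOn hφ h₀ (n := 1) (by rw [hdeg _ hφ, hdeg _ h₀]; simp)
  have z5 : ∀ φ ∈ seqInd K K Y, ζ φ - ζ η₀ = indFun L φ - indFun L η₀ := fun φ hφ => by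
    rw [← hζ.map_sub (mem_zspan hφ) (mem_zspan h₀), hζe _ (m1 φ hφ), indFun_sub]
  have m2 : η - q • η₀ ∈ zspanOn (seqInd K K ⊥) {1}ᶜ :=
    sub_nsmul_mem_zspanOn hη h₀' (by rw [hd, hdeg _ h₀]; push_cast; rfl)
  have o1 : ∀ φ ∈ seqInd K K Y, ip η φ = 0 := fun φ hφ =>
    ip_of_indSet hη.1 hφ.1 fun e => hη' (e ▸ hφ)
  have o0 := (hirr _ h₀').ip_self
  set α := indFun L (η - q • η₀) with hα
  set π := indFun L η₀ with hπ
  have gα : IsGeneralizedCharacter G α := (h.iso seqInd_subset).isGen m2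
  have cπ : IsCharacter G π := (isCharacter_of_indSet h₀.1).ind
  have αi : ∀ φ ∈ indSet K, ip α (indFun L φ) = ip η φ - q * ip η₀ φ := fun φ hφ => by
    rw [h.ip_ind seqInd_subset m2 hφ, ip_sub_left, ip_nsmul_left]
  have αα : ip α α = 1 + q ^ 2 := by
    nth_rewrite 2 [hα]
    rw [indFun_sub, indFun_nsmul, ip_sub_right, ip_nsmul_right, αi _ hη.1, αi _ h₀.1,
      (hirr _ hη).ip_self, ip_comm η₀, o1 _ h₀, o0]
    ring
  have απ : ip α π = -q := by rw [αi _ h₀.1, o1 _ h₀, o0]; ring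
  have ππ : ip π π = q := by
    rw [ip_indFun_left _ _ cπ.isClassFunction]
    have e1 : (fun x : L => π x) = η₀ + Pi.single 1 (((q ^ 3 * e : ℕ) : ℂ)) +
        fun x : L => if x ∈ K then 0 else π x := by
      funext x
      by_cases hx : x ∈ K
      · by_cases h1 : x = 1
        · subst h1
          simp only [Pi.add_apply, if_pos hx, Pi.single_eq_same, OneMemClass.coe_one]
          rw [hπ, indFun_one, hL, hdeg _ h₀]; push_cast; ring
        · simp only [Pi.add_apply, if_pos hx, Pi.single_eq_of_ne h1, add_zero]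
          exact h.res_ind (isClassFunction_of_indSet h₀.1) hx (Or.inr h1)
            fun y hy => off_of_indSet h₀.1 hy
      · have : x ≠ 1 := fun e => hx (e ▸ one_mem _)
        simp [hx, this, off_of_indSet h₀.1 hx]
    have e2 : classInner η₀ (Pi.single 1 (((q ^ 3 * e : ℕ) : ℂ))) = (e : ℝ) := by
      apply mul_left_cancel₀ (H3.card_ne_zero L)
      rw [card_mul_inner, Finset.sum_eq_single 1 (fun x _ hx => by simp [hx]) (by simp),
        ← K.card_mul_index, hK, hdeg _ h₀]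
      simp [he]; ring
    have e3 : classInner η₀ (fun x : L => if x ∈ K then 0 else π x) = classInner η₀ 0 :=
      inner_congr_support fun x hx => if_pos (by by_contra hc; exact hx (off_of_indSet h₀.1 hc))
    rw [e1, ip_add_right, ip_add_right, o0, ip_of_inner e2, ip_def, e3, hqe]
    simp [classInner]; ring
  obtain ⟨c₀, hc₀⟩ := gα.ip_int (z1 _ h₀).isGen
  obtain ⟨c', hc'⟩ := cπ.isGen.ip_int (z1 _ h₀).isGen
  have a1 : ∀ φ ∈ seqInd K K Y, φ ≠ η₀ → ip α (ζ φ) = c₀ + q := fun φ hφ hne => by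
    have := congrArg (ip α) (z5 φ hφ)
    rw [ip_sub_right, ip_sub_right, αi _ hφ.1, απ, o1 _ hφ, ip_of_indSet h₀.1 hφ.1 hne.symm,
      hc₀] at this
    linarith
  have a2 : ∀ φ ∈ seqInd K K Y, φ ≠ η₀ → ip π (ζ φ) = c' - 1 := fun φ hφ hne => by
    have := congrArg (ip · π) (z5 φ hφ)
    rw [← indFun_sub, h.ip_ind seqInd_subset (m1 φ hφ) h₀.1, ip_sub_left, ip_sub_left, o0,
      ip_of_indSet hφ.1 h₀.1 hne, ip_comm _ π, ip_comm _ π, hc'] at this
    linarith
  have b1 := bessel_one s ζ z3 z4 α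
  rw [sum2 _ ((c₀ + q) ^ 2) fun φ hφ hne => by rw [a1 φ hφ hne], hc₀, αα] at b1
  have b2 := bessel_one s ζ z3 z4 π
  rw [sum2 _ ((c' - 1) ^ 2) fun φ hφ hne => by rw [a2 φ hφ hne], hc', ππ] at b2
  have hq4' : (4 : ℤ) ≤ q := by exact_mod_cast hq4
  have b1' : c₀ ^ 2 + q * (c₀ + q) ^ 2 ≤ 1 + q ^ 2 := by exact_mod_cast b1
  have b2' : c' ^ 2 + q * (c' - 1) ^ 2 ≤ q := by exact_mod_cast b2
  obtain rfl : c' = 1 := by
    rcases (show c' = 0 ∨ c' = 1 by
      by_contra hc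
      rcases (show c' ≤ -1 ∨ 2 ≤ c' by omega) with h | h
      · nlinarith
      · have : 1 ≤ (c' - 1) ^ 2 := by nlinarith
        nlinarith) with rfl | e
    · exfalso
      have h1 := congrFun (eq_sum_of_bessel_one s ζ z3 z4 π (by
        rw [sum2 _ ((((0 : ℤ) : ℝ) - 1) ^ 2) fun φ hφ hne => by rw [a2 φ hφ hne], hc', ππ]; simp)) 1
      obtain ⟨D, -, hD⟩ := (z1 _ h₀).exists_deg
      have h2 := congrArg Complex.re h1
      rw [Finset.sum_apply, Complex.re_sum, sum2 _ (-D) fun φ hφ hne => by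
        have := congrFun (z5 φ hφ) 1
        simp only [Pi.sub_apply, hπ, indFun_one, hdeg _ hφ, hdeg _ h₀, sub_self, sub_eq_zero] at this
        simp [a2 φ hφ hne, this, hD], hc', hπ, indFun_one, hL, hdeg _ h₀] at h2
      simp only [Int.cast_zero, zero_smul, Pi.zero_apply, Complex.zero_re, zero_add,
        ← Nat.cast_mul, Complex.natCast_re] at h2
      have h3 : (((q ^ 3 + 1) * e : ℕ) : ℤ) = q * -D := by exact_mod_cast h2
      have h4 : Even ((q ^ 3 + 1) * e) := by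
        rw [← Int.even_coe_nat, h3]
        exact ((Int.even_coe_nat q).2 (even_iff_two_dvd.2 hq2)).mul_right _
      rw [Nat.even_mul, Nat.even_add_one, Nat.even_pow, even_iff_two_dvd, even_iff_two_dvd] at h4
      omega
    · exact e
  set R := α - ∑ φ ∈ s, ip α (ζ φ) • ζ φ with hR
  have gR : IsGeneralizedCharacter G R := by
    refine gα.sub (isGen_sum _ _ fun φ hφ => ?_)
    obtain ⟨m, hm⟩ := gα.ip_int (z1 _ (ms.1 hφ)).isGen
    rw [hm, Int.cast_smul_eq_zsmul]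
    exact (z1 _ (ms.1 hφ)).isGen.zsmul m
  have r1 : ∀ φ ∈ seqInd K K Y, ip R (ζ φ) = 0 := fun φ hφ =>
    ip_sub_proj_one_right s ζ z3 z4 α (ms.2 hφ)
  have r2 := ip_sub_proj_one s ζ z3 z4 α
  rw [← hR, sum2 _ ((c₀ + q) ^ 2) fun φ hφ hne => by rw [a1 φ hφ hne], hc₀, αα] at r2
  rcases (show c₀ = -q ∨ c₀ = 1 - q by
    by_contra hc
    obtain ⟨y, rfl⟩ : ∃ y, c₀ = y - q := ⟨c₀ + q, by ring⟩
    have h1 : y * (y * (q + 1) - 2 * q) ≤ 1 := by nlinarith
    rcases (show y ≤ -1 ∨ 2 ≤ y by omega) with h | h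
    · nlinarith
    · have : 2 ≤ y * (q + 1) - 2 * q := by nlinarith
      nlinarith) with rfl | rfl
  · have r3 : α = R - q • ζ η₀ := by
      rw [hR, Finset.sum_eq_single η₀ (fun φ hφ hne => by rw [a1 φ (ms.1 hφ) hne]; simp)
        (fun h => absurd (ms.2 h₀) h), hc₀]
      simp [Nat.cast_smul_eq_nsmul]
    have n0 : η₀ ≠ η := fun e => hη' (e ▸ h₀)
    have hY' : ∀ χ ∈ seqInd K K ⊥, χ ≠ η → χ ∈ seqInd K K Y := fun χ hχ hne => by
      by_contra hc; exact hne (hS χ hχ hc)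
    refine isCoherent_of_family (fun χ hχ => (hirr χ hχ).isGen) (fun χ hχ => (hirr χ hχ).ne_zero)
      (fun χ hχ φ hφ hne => ip_of_indSet hχ.1 hφ.1 hne) (h.iso seqInd_subset)
      (fun χ => if χ = η then R else ζ χ) (fun χ hχ => ?_) (fun χ hχ φ hφ => ?_) h₀'
      (hirr _ h₀').deg_ne_zero ⟨η, hη, n0.symm⟩ fun χ hχ => ?_
    · split_ifs with e
      exacts [gR, (z1 _ (hY' χ hχ e)).isGen]
    · split_ifs with e e' e'
      · rw [r2, e, e', (hirr _ hη).ip_self]; simp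
      · rw [r1 _ (hY' φ hφ e'), e, o1 _ (hY' φ hφ e')]
      · rw [ip_comm, r1 _ (hY' χ hχ e), e', ip_comm, o1 _ (hY' χ hχ e)]
      · exact z2 _ (hY' χ hχ e) _ (hY' φ hφ e')
    · by_cases e : χ = η
      · refine ⟨1, q, one_ne_zero, by rw [e, hd, hdeg _ h₀]; simp, ?_⟩
        simp only [e, if_true, if_neg n0, one_smul, natCast_zsmul]
        exact r3
      · refine ⟨1, 1, one_ne_zero, by rw [hdeg _ (hY' χ hχ e), hdeg _ h₀], ?_⟩
        simp only [if_neg e, if_neg n0, one_smul]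
        rw [z5 _ (hY' χ hχ e), indFun_sub]
  exfalso
  have r3 : ip R π = (-1 : ℤ) := by
    rw [hR, ip_sub_left, ip_sum_left, sum2 _ 0 fun φ hφ hne => by
      rw [ip_rsmul_left, ip_comm _ π, a2 φ hφ hne]; simp, ip_rsmul_left, ip_comm (ζ η₀) π, hc₀, hc', απ]
    push_cast; ring
  obtain ⟨χ, hχ, a, x, ha, hx, e1, e2⟩ := exists_odd_odd gR cπ.isGen (by decide) r3
  have a0 : (a : ℝ) ≠ 0 := by
    rintro e
    rw [Int.cast_eq_zero.1 e] at ha
    exact absurd ha (by decide)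
  have χζ : ∀ φ ∈ seqInd K K Y, ip χ (ζ φ) = 0 := fun φ hφ => by
    rcases SIrr.cases hχ.sirr (z1 φ hφ) with e | e | e
    · exact absurd (by rw [← e1, e, r1 φ hφ]) a0
    · exact absurd (by rw [← e1, e, ip_neg_right, r1 φ hφ, neg_zero]) a0
    · exact e
  have e3 : ip α χ = a := by
    rw [← e1, hR, ip_sub_left, ip_sum_left, Finset.sum_eq_zero fun φ hφ => by
      rw [ip_rsmul_left, ip_comm _ χ, χζ φ (ms.1 hφ), mul_zero], sub_zero]
  have ha2 : a ^ 2 ≤ q := by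
    have := hχ.sirr.sq_ip_le (f := R)
    rw [e1, r2] at this
    have h2 : (a : ℝ) ^ 2 ≤ q := by push_cast at this; nlinarith
    exact_mod_cast h2
  have cχ := hχ.isCharacter.res L
  have i1 : ∀ φ ∈ seqInd K K Y, ip (fun g : L => χ g) φ = x := fun φ hφ => by
    have := congrArg (ip χ) (z5 φ hφ)
    rw [ip_sub_right, ip_sub_right, χζ _ hφ, χζ _ h₀, ip_comm χ π, e2,
      ip_indFun_right _ _ hχ.isClassFunction] at this
    linarith
  have i2 : ip (fun g : L => χ g) η = a + q * x := by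
    rw [hα, ip_indFun_left _ _ hχ.isClassFunction, ip_comm, ip_sub_right, ip_nsmul_right,
      i1 _ h₀] at e3
    linarith
  have gψ := cχ.isGen.sub ((hirr _ hη).isGen.zsmul a)
  have k1 := fun z hz h1 => sub_eq_of_ip_seqInd (K := K) (Z := K) le_rfl gψ (c := x / e)
    (fun φ hφ => by
      rw [ip_sub_left, ip_zsmul_left]
      by_cases e : φ ∈ seqInd K K Y
      · rw [i1 _ e, o1 _ e, hdeg _ e, Complex.natCast_re]; field_simp; ring
      · rw [hS φ hφ e, i2, (hirr _ hη).ip_self, hd, Complex.natCast_re]; push_cast; field_simp; ring)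
    (z := z) hz h1
  have k2 := ip_reg_sub (Z := K) gψ.isClassFunction (t := x / e * Nat.card L)
    (fun z hz h1 => by rw [k1 z hz h1]; push_cast; ring)
  have k3 : classInner (indFun K fun _ => 1) (fun g : L => χ g) = 0 := by
    rw [(isClassFunction_indFun _ _).inner_eq_sum]
    refine Finset.sum_eq_zero fun μ _ => ?_
    by_cases hk : InKer K (μ : L → ℂ)
    swap
    · rw [μ.2.inner_ind_one hk]; simp
    by_contra hne
    obtain ⟨c, hc⟩ := hund χ hχ μ μ.2 hk fun e => hne (by rw [e]; simp)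
    apply a0
    have k4 : ∀ φ ∈ seqInd K K ⊥, classInner φ (c • fun _ => 1) = 0 := fun φ hφ => by
      rw [H3.inner_smul_right, (hirr φ hφ).inner_of_ne isIrrCharacter_one fun e =>
        hφ.2.1 (by rw [e]; exact fun _ _ => rfl), mul_zero]
    rw [← e3, hα, ip_indFun_left _ _ hχ.isClassFunction, ip_def,
      inner_congr_support (η' := c • fun _ => 1) fun z hz => by
        have h1 : z ∈ K ∧ z ≠ 1 := by
          by_contra hc
          exact hz (supp_zspanOn seqInd_subset m2 z hc)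
        simp [hc z h1.1 h1.2], ← ip_def, ip_sub_left, ip_nsmul_left, ip_of_inner_zero (k4 _ hη),
      ip_of_inner_zero (k4 _ h₀')]
    simp
  obtain ⟨f, hf1⟩ := hχ.isCharacter.exists_deg
  rw [ip_sub_left, ip_sub_right (indFun K _), ip_of_inner_zero k3, ip_zsmul_right,
    ip_of_inner_zero ((hirr _ hη).inner_ind_one hη.2.1), indFun_bot, one_smul, ip_def,
    inner_regChar, ← K.card_mul_index, hK, ← he] at k2
  simp only [Pi.sub_apply, OneMemClass.coe_one, hf1, Pi.smul_apply, hd] at k2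
  simp only [zsmul_eq_mul, mul_zero, Complex.conj_re, Complex.sub_re, Complex.natCast_re, Complex.mul_re, Complex.intCast_re,
    Complex.intCast_im, zero_mul, sub_zero] at k2
  have k5 : (f : ℤ) = e * (x * (q ^ 2 + q + 1) + a * q) := by
    have : (f : ℝ) = e * (x * (q ^ 2 + q + 1) + a * q) := by
      push_cast at k2
      have q0 : (q : ℝ) ≠ 0 := by positivity
      field_simp at k2
      rw [show (e : ℝ) = q - 1 by linarith] at k2 ⊢
      linear_combination k2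
    exact_mod_cast this
  have k6 := Int.natCast_dvd_natCast.2 (hχ.deg_dvd_card hf1)
  rw [k5, ← L.card_mul_index, ← K.card_mul_index, hK, hL, ← he] at k6
  push_cast at k6
  rw [mul_right_comm, mul_comm (e : ℤ)] at k6
  have k7 := Int.dvd_of_mul_dvd_mul_right (by omega) k6
  have q2 : Even (q : ℤ) := (Int.even_coe_nat q).2 (even_iff_two_dvd.2 hq2)
  have k8 : Odd (x * (q ^ 2 + q + 1) + a * q : ℤ) :=
    (hx.mul ((q2.pow_of_ne_zero two_ne_zero).add q2).add_one).add_even (q2.mul_left _)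
  obtain ⟨E, hE⟩ := IsCoprime.dvd_of_dvd_mul_left (by
    have := (Int.isCoprime_two_right.2 k8).pow_right (n := n)
    rw [show (2 : ℤ) ^ n = q by rw [hqn]; simp] at this
    exact this.pow_right) k7
  have f0 : (0 : ℤ) < f := by
    have : f ≠ 0 := by rintro rfl; exact hχ.deg_ne_zero (by simpa using hf1)
    omega
  have D0 : 0 < x * (q ^ 2 + q + 1) + a * q := (mul_pos_iff_of_pos_left (by omega)).1 (k5 ▸ f0)
  have x0 : 0 ≤ x := by
    have := cπ.ip_nonneg hχ.isCharacter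
    rw [e2] at this
    exact_mod_cast this
  exact cube_arith (x := x) (E := E) hq4' (by obtain ⟨k, hk⟩ := hx; omega) ha ha2
    ((mul_pos_iff_of_pos_left D0).1 (by rw [← hE]; positivity)) (by rw [hE, mul_comm])

end H8
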