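import Mathlib
import Cfsg.Agent.H1.Action2
import Cfsg.Agent.H1.PG1
import Cfsg.Agent.H1.Fitting
import Cfsg.Agent.H1.SylowIn

set_option autoImplicit false

namespace H8
open Cfsg Subgroup MulAction
open scoped IsMulCommutative commutatorElement

theorem exists_fix_of_noncyc {P E : Type*} [Group P] [Finite P] [AddCommGroup E] [Finite E]
    [Nontrivial E] [DistribMulAction P E] (A : Subgroup P) [IsMulCommutative A]
    (hnc : ¬ IsCyclic A) (hc : (Nat.card A).Coprime (Nat.card E)) :
    ∃ x ∈ A, x ≠ 1 ∧ ∃ e : E, e ≠ 0 ∧ x • e = e := by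
  let φ : P →* MulAut (Multiplicative E) :=
    { toFun := fun h => AddEquiv.toMultiplicative (DistribMulAction.toAddEquiv E h)
      map_one' := by ext v; simp
      map_mul' := fun a b => by ext v; simp [mul_smul] }
  haveI : Finite (Multiplicative E ⋊[φ] P) := Finite.of_equiv _ SemidirectProduct.equivProd.symm
  let A' := A.map (SemidirectProduct.inr : P →* Multiplicative E ⋊[φ] P)
  let N := (SemidirectProduct.inl : Multiplicative E →* Multiplicative E ⋊[φ] P).range
  haveI : N.Normal := by
    simp only [N]; rw [SemidirectProduct.range_inl_eq_ker_rightHom]; infer_instance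
  let e := A.equivMapOfInjective _ (SemidirectProduct.inr_injective (φ := φ))
  haveI : IsMulCommutative A' := Subgroup.map_isMulCommutative _ _
  obtain ⟨_, ⟨x, hx, rfl⟩, x1, h⟩ := H1.coprime_exists_centralizer_ne_bot (A := A') (K := N)
    (fun h => hnc (isCyclic_of_surjective e.symm e.symm.surjective)) le_normalizer_of_normal
    (by rwa [← Nat.card_congr e.toEquiv,
      ← Nat.card_congr (MonoidHom.ofInjective (SemidirectProduct.inl_injective (φ := φ))).toEquiv])
    (fun h => by
      obtain ⟨v, hv⟩ := exists_ne (1 : Multiplicative E)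
      have : SemidirectProduct.inl v ∈ N := ⟨v, rfl⟩
      rw [h, mem_bot] at this
      exact hv (SemidirectProduct.inl_injective (this.trans (map_one _).symm)))
  obtain ⟨_, ⟨⟨v, rfl⟩, h2⟩, v1⟩ := (bot_or_exists_ne_one _).resolve_left h
  refine ⟨x, hx, fun e => x1 (by simp [e]), v.toAdd, fun e => v1 (by
    rw [show v = 1 from e]; simp), ?_⟩
  have := congrArg SemidirectProduct.left (h2 _ rfl)
  simp at this
  simpa [φ] using congrArg Multiplicative.toAdd this

theorem card_coprime_of_nsmul {E : Type*} [AddCommGroup E] [Finite E] {q n : ℕ} (hq : q.Prime)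
    (hE : ∀ e : E, q • e = 0) (hn : n.Coprime q) : n.Coprime (Nat.card E) := by
  haveI := Fact.mk hq
  obtain ⟨k, hk⟩ := IsPGroup.iff_card.1 (show IsPGroup q (Multiplicative E) from
    fun e => ⟨1, by rw [pow_one]; exact hE e.toAdd⟩)
  rw [show Nat.card E = q ^ k from hk]
  exact hn.pow_right _

theorem half_trans {P E : Type*} [Group P] [Finite P] [AddCommGroup E] [Finite E]
    [DistribMulAction P E] [FaithfulSMul P E] {p q : ℕ} [hp : Fact p.Prime] (hp2 : p ≠ 2)
    (hP : IsPGroup p P) (hq : q.Prime) (hE : ∀ e : E, q • e = 0)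
    (hconst : ∀ a b : E, a ≠ 0 → b ≠ 0 → Nat.card (stabilizer P a) = Nat.card (stabilizer P b)) :
    IsCyclic P ∧ ∀ g : P, g ≠ 1 → ∀ a : E, g • a = a → a = 0 := by
  classical
  by_cases hnt : Nontrivial P
  swap
  · haveI := not_nontrivial_iff_subsingleton.1 hnt
    exact ⟨isCyclic_of_subsingleton, fun g hg => absurd (Subsingleton.elim _ _) hg⟩
  have hmove : ∀ z : P, z ≠ 1 → ∃ e : E, z • e - e ≠ 0 := fun z hz => by
    by_contra hc
    push Not at hc
    exact hz (eq_of_smul_eq_smul (α := E) fun e => by rw [one_smul]; exact sub_eq_zero.1 (hc e))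
  haveI : Nontrivial E := by
    obtain ⟨z, hz⟩ := exists_ne (1 : P)
    obtain ⟨e, he⟩ := hmove z hz
    exact ⟨_, _, he⟩
  have hsub : ∀ a b : E, a ≠ 0 → b ≠ 0 → stabilizer P a ≤ stabilizer P b →
      stabilizer P a = stabilizer P b := fun a b ha hb h =>
    eq_of_le_of_card_ge h (hconst b a hb ha).le
  have hpq : p.Coprime q := by
    rw [Nat.coprime_primes hp.out hq]
    rintro rfl
    obtain ⟨k, hk⟩ := IsPGroup.iff_card.1 (show IsPGroup p (Multiplicative E) from
      fun e => ⟨1, by rw [pow_one]; exact hE e.toAdd⟩)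
    have hk' : Nat.card E = p ^ k := hk
    obtain ⟨b, hb, hb0⟩ := hP.exists_fixed_point_of_prime_dvd_card_of_fixed_point (α := E) (by
      rw [hk']
      refine dvd_pow_self p ?_
      rintro rfl
      exact (Finite.one_lt_card (α := E)).ne' hk') (a := 0) (fun g => smul_zero g)
    obtain ⟨z, hz⟩ := exists_ne (1 : P)
    obtain ⟨e, he⟩ := hmove z hz
    have h1 : e ≠ 0 := by rintro rfl; simp at he
    have h2 := hsub e b h1 hb0.symm fun g _ => hb g
    have h3 : z ∈ stabilizer P e := h2 ▸ hb z
    exact he (sub_eq_zero.2 h3)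
  have hinj : ∀ e : E, p • e = 0 → e = 0 := fun e he => by
    have h1 := addOrderOf_dvd_of_nsmul_eq_zero he
    have h2 := addOrderOf_dvd_of_nsmul_eq_zero (hE e)
    exact AddMonoid.addOrderOf_eq_one_iff.1 (Nat.eq_one_of_dvd_coprimes hpq h1 h2)
  have hcP : ∀ A : Subgroup P, (Nat.card A).Coprime (Nat.card E) := fun A => by
    obtain ⟨k, hk⟩ := IsPGroup.iff_card.1 (hP.to_subgroup A)
    exact card_coprime_of_nsmul hq hE (hk ▸ hpq.pow_left _)
  have hcent : ∀ z : P, z ∈ center P → z ^ p = 1 → z ≠ 1 → ∀ a : E, z • a = a → a = 0 := by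
    intro z hz hzp z1 a ha
    by_contra a0
    obtain ⟨e, he⟩ := hmove z z1
    set b := z • e - e with hb
    let N : E → E := fun x => ∑ i ∈ Finset.range p, z ^ i • x
    have hN1 : ∀ x, z • x = x → N x = p • x := fun x hx => by
      have : ∀ i : ℕ, z ^ i • x = x := fun i => (stabilizer P x).pow_mem hx i
      simp [N, this]
    have hN2 : N b = 0 := by
      simp only [N, hb, smul_sub, ← mul_smul, ← pow_succ]
      rw [Finset.sum_range_sub (fun i => z ^ i • e), hzp]; simp
    have hN3 : ∀ x y, N (x + y) = N x + N y := fun x y => by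
      simp [N, Finset.sum_add_distrib]
    have hN4 : ∀ (g : P) x, N (g • x) = g • N x := fun g x => by
      simp only [N, Finset.smul_sum, ← mul_smul]
      exact Finset.sum_congr rfl fun i _ => by rw [mem_center_iff.1 (pow_mem hz i) g]
    have hab : a + b ≠ 0 := fun e => a0 (hinj a (by
      have h0 := hN3 a b
      rw [hN2, add_zero, hN1 a ha, e] at h0
      rw [← h0]; simp [N]))
    have h1 : stabilizer P (a + b) ≤ stabilizer P a := fun g hg => by
      have h2 := congrArg N (mem_stabilizer_iff.1 hg)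
      rw [hN4, hN3, hN2, add_zero, hN1 a ha, smul_comm] at h2
      exact sub_eq_zero.1 (hinj _ (by rw [smul_sub, h2, sub_self]))
    have h2 : stabilizer P (a + b) ≤ stabilizer P b := fun g hg => by
      have h3 := mem_stabilizer_iff.1 hg
      rw [smul_add, show g • a = a from h1 hg] at h3
      exact add_left_cancel h3
    have h3 : z ∈ stabilizer P b := by rw [← hsub _ _ hab he h2, hsub _ _ hab a0 h1]; exact ha
    exact he (hinj b (by rw [← hN1 b h3, hN2]))
  have hcyc : IsCyclic P := by
    by_contra hnc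
    obtain ⟨A, -, hA, hcA, hn⟩ := H1B.exists_EA2 (R := (⊤ : Subgroup P)) hp2
      (hP.to_subgroup _) (fun h => hnc (isCyclic_of_surjective topEquiv topEquiv.surjective))
    haveI := hA.1
    haveI : A.Normal := normalizer_eq_top_iff.1 (top_le_iff.1 hn)
    haveI := hP.isNilpotent
    obtain ⟨x, hx, x1, a, a0, ha⟩ := exists_fix_of_noncyc (E := E) A (hA.not_cyc hcA.ge) (hcP A)
    have hxc : x ∉ center P := fun h => a0 (hcent x h (hA.2 x hx) x1 a ha)
    have hlt : ⁅A, ⊤⁆ < A := H7.nilp_comm_lt (A := ⊤) inferInstance le_top hn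
      (fun h => x1 (by rwa [h] at hx))
    have hne : ⁅A, (⊤ : Subgroup P)⁆ ≠ ⊥ := fun h => hxc (by
      rw [commutator_eq_bot_iff_le_centralizer] at h
      exact mem_center_iff.2 fun g => h hx g trivial)
    have hcen : ⁅A, (⊤ : Subgroup P)⁆ ≤ center P := by
      obtain ⟨z, hz, z1⟩ := (bot_or_exists_ne_one _).resolve_left (H1.inf_center_ne_bot _ hne)
      have h1 : Nat.card (⁅A, (⊤ : Subgroup P)⁆ : Subgroup P) = p := by
        have h2 := card_dvd_of_le hlt.le
        rw [hcA] at h2
        obtain ⟨i, hi, h3⟩ := (Nat.dvd_prime_pow hp.out).1 h2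
        interval_cases i
        · exact absurd (card_eq_one.1 h3) hne
        · simpa using h3
        · exact absurd (eq_of_le_of_card_ge hlt.le (by rw [h3, hcA])) hlt.ne
      intro y hy
      obtain ⟨k, hk⟩ := mem_zpowers_of_prime_card h1 (g := ⟨z, hz.1⟩)
        (fun h => z1 (congrArg Subtype.val h)) (g' := ⟨y, hy⟩)
      rw [← show z ^ k = y from congrArg Subtype.val hk]
      exact zpow_mem (show z ∈ center P from hz.2) k
    have hy : ∀ g : P, ∃ y ∈ center P, y ∈ A ∧ g * x * g⁻¹ = y * x := fun g => by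
      have h1 : ⁅g, x⁆ ∈ ⁅A, (⊤ : Subgroup P)⁆ := by
        rw [commutator_comm]; exact commutator_mem_commutator trivial hx
      exact ⟨_, hcen h1, hlt.le h1, by rw [commutatorElement_def]; group⟩
    have hf : ∀ y ∈ center P, y ∈ A → ∀ e : E, y • e - e = 0 → y = 1 ∨ e = 0 := fun y h1 h2 e h3 =>
      or_iff_not_imp_left.2 fun y1 => hcent y h1 (hA.2 y h2) y1 e (sub_eq_zero.1 h3)
    obtain ⟨g₀, hg₀⟩ : ∃ g₀ : P, g₀ * x ≠ x * g₀ := by
      by_contra hc
      push Not at hc
      exact hxc (mem_center_iff.2 hc)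
    obtain ⟨w, hw, hwA, ew⟩ := hy g₀
    have w1 : w ≠ 1 := by
      rintro rfl
      exact hg₀ (by rw [one_mul, mul_inv_eq_iff_eq_mul] at ew; exact ew)
    have hb : x • g₀ • a = w⁻¹ • g₀ • a := by
      rw [eq_inv_smul_iff, ← mul_smul, ← ew, mul_smul, mul_smul, inv_smul_smul, ha]
    have b0 : g₀ • a ≠ 0 := fun h => a0 ((smul_eq_zero_iff_eq g₀).1 h)
    generalize g₀ • a = b at hb b0
    have hcm : ∀ y ∈ center P, ∀ (g : P) (e : E), g • y • e = y • g • e := fun y hy g e => by
      rw [← mul_smul, mem_center_iff.1 hy g, mul_smul]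
    have h12 : ∀ e : E, x • e = e → x • e = w⁻¹ • e → e = 0 := fun e h1 h2 =>
      (hf _ (inv_mem hw) (inv_mem hwA) e (by rw [← h2, h1, sub_self])).resolve_left
        (by simpa using w1)
    have hab : a + b ≠ 0 := fun e => by
      rw [eq_neg_of_add_eq_zero_right e] at hb b0
      exact b0 (h12 _ (by rw [smul_neg, ha]) hb)
    have key : ∀ g : P, g • (a + b) = a + b → g • a = a ∧ g • b = b := by
      intro g hg
      obtain ⟨y, hy1, hy2, e⟩ := hy g
      have e1 : ∀ v : E, y • x • g • v = g • x • v := fun v => by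
        rw [← mul_smul y, ← e, mul_smul, mul_smul, inv_smul_smul]
      have hy : y = 1 := by
        let D : E →+ E := DistribSMul.toAddMonoidHom E (y * x) - AddMonoidHom.id E
        let D' : E →+ E := DistribSMul.toAddMonoidHom E (y * w * x) - AddMonoidHom.id E
        have hD : ∀ v, D v = y • x • v - v := fun v => by simp [D, mul_smul]
        have hD' : ∀ v, D' v = y • w • x • v - v := fun v => by simp [D', mul_smul]
        have h1 : D' (D (a + b)) = 0 := by
          have h0 : x • (w⁻¹ • b - b) = w⁻¹ • (w⁻¹ • b - b) := by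
            rw [smul_sub, hcm _ (inv_mem hw), hb, smul_sub]
          rw [← hg, smul_add, map_add, hD (g • a), e1, ha, sub_self, zero_add, hD, e1, hb,
            ← smul_sub, hD', hcm w hw y, e1, h0, hcm _ (inv_mem hw) g, smul_inv_smul, sub_self]
        have h2 : D' (D a) = (y * w) • (y • a - a) - (y • a - a) := by
          rw [hD, ha, hD', smul_sub x, hcm y hy1, ha, mul_smul]
        have h3 : D' (D b) = y • ((y * w⁻¹) • b - b) - ((y * w⁻¹) • b - b) := by
          rw [hD, hb, hD', smul_sub x, hcm y hy1, hcm _ (inv_mem hw), hb, mul_smul,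
            ← hcm y hy1 w⁻¹, ← smul_sub w⁻¹, smul_inv_smul]
        rw [map_add, map_add] at h1
        have h4 : x • D' (D a) = D' (D a) := by
          rw [h2, smul_sub, hcm _ (mul_mem hy1 hw), smul_sub x, hcm y hy1, ha]
        have h5 : x • D' (D b) = w⁻¹ • D' (D b) := by
          have : x • ((y * w⁻¹) • b - b) = w⁻¹ • ((y * w⁻¹) • b - b) := by
            rw [smul_sub, hcm _ (mul_mem hy1 (inv_mem hw)), hb, smul_sub,
              hcm _ (mul_mem hy1 (inv_mem hw))]
          rw [h3, smul_sub, hcm y hy1, this, smul_sub w⁻¹ (y • _), hcm y hy1]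
        have h6 : D' (D b) = 0 := h12 _ (by rw [eq_neg_of_add_eq_zero_right h1, smul_neg, h4]) h5
        rw [h6, add_zero, h2] at h1
        rw [h3] at h6
        by_contra y1
        have h7 := (hf _ (mul_mem hy1 hw) (mul_mem hy2 hwA) _ h1).resolve_right fun h =>
          a0 ((hf y hy1 hy2 a h).resolve_left y1)
        have h8 := (hf _ (mul_mem hy1 (inv_mem hw)) (mul_mem hy2 (inv_mem hwA)) _
          ((hf y hy1 hy2 _ h6).resolve_left y1)).resolve_right b0
        rw [mul_inv_eq_one] at h8
        rw [h8, ← sq] at h7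
        have h9 := Nat.eq_one_of_dvd_coprimes ((Nat.coprime_primes hp.out Nat.prime_two).2 hp2)
          (orderOf_dvd_of_pow_eq_one (hA.2 w hwA)) (orderOf_dvd_of_pow_eq_one h7)
        exact w1 (orderOf_eq_one_iff.1 h9)
      subst hy
      simp only [one_smul] at e1
      have h1 : g • a - a = b - g • b := by
        rw [smul_add] at hg
        rw [sub_eq_sub_iff_add_eq_add, hg, add_comm]
      have h2 : g • a - a = 0 := h12 _ (by rw [smul_sub, e1, ha])
        (by rw [h1, smul_sub, e1, hb, smul_sub, hcm _ (inv_mem hw)])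
      exact ⟨sub_eq_zero.1 h2, (sub_eq_zero.1 (h1.symm.trans h2)).symm⟩
    have h3 : x ∈ stabilizer P b := by
      rw [← hsub _ _ hab b0 fun g hg => (key g hg).2, hsub _ _ hab a0 fun g hg => (key g hg).1]
      exact ha
    exact b0 (h12 b h3 hb)
  refine ⟨hcyc, fun g hg a ha => ?_⟩
  obtain ⟨k, hk⟩ := IsPGroup.iff_orderOf.1 hP g
  rcases k with _ | k
  · exact absurd (orderOf_eq_one_iff.1 hk) hg
  refine hcent (g ^ p ^ k) (mem_center_iff.2 fun y => mul_comm _ _)
    (by rw [← pow_mul, ← pow_succ, ← hk, pow_orderOf_eq_one]) (fun e => ?_) a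
    ((stabilizer P a).pow_mem ha _)
  have := Nat.le_of_dvd (pow_pos hp.out.pos _) (orderOf_dvd_of_pow_eq_one e)
  rw [hk] at this
  exact absurd this (Nat.pow_lt_pow_right hp.out.one_lt (Nat.lt_succ_self k)).not_ge

theorem commutator_le_centralizer_of_cyclic {D : Type*} [Group D] (F : Subgroup D) [F.Normal]
    [IsCyclic F] : commutator D ≤ centralizer (F : Set D) := by
  rw [_root_.commutator_def, commutator_le]
  intro a _ b _ x hx
  have h1 : (MulAut.conjNormal ⁅a, b⁆ : MulAut F) = 1 := by
    rw [map_commutatorElement, commutatorElement_eq_one_iff_mul_comm]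
    exact (IsCyclic.mulAutMulEquiv F).injective (by rw [map_mul, map_mul, mul_comm])
  have h2 := congrArg (fun f : MulAut F => (f ⟨x, hx⟩ : D)) h1
  simp only [MulAut.conjNormal_apply, MulAut.one_apply] at h2
  rw [mul_inv_eq_iff_eq_mul] at h2
  exact h2.symm

theorem appI {D E : Type*} [Group D] [Finite D] [AddCommGroup E] [Finite E]
    [DistribMulAction D E] [FaithfulSMul D E] (hodd : Odd (Nat.card D)) {q : ℕ} (hq : q.Prime)
    (hE : ∀ e : E, q • e = 0) (htrans : ∀ a b : E, a ≠ 0 → b ≠ 0 → ∃ d : D, d • a = b) :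
    IsCyclic (fittingSubgroup D) ∧
      (∀ g ∈ fittingSubgroup D, g ≠ 1 → ∀ a : E, g • a = a → a = 0) := by
  have key : ∀ (p : ℕ) [Fact p.Prime], IsCyclic (pCore p D) ∧
      ∀ g : pCore p D, g ≠ 1 → ∀ a : E, g • a = a → a = 0 := by
    intro p hp
    by_cases h2 : p = 2
    · subst h2
      haveI : Subsingleton (pCore 2 D) := by
        obtain ⟨k, hk⟩ := IsPGroup.iff_card.1 (H7.pCore_eq 2 (G := D) ▸ H7.isPGroup_Op 2 ⊤)
        have h1 := hodd.of_dvd_nat (card_subgroup_dvd_card (pCore 2 D))
        rw [hk] at h1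
        rcases k with _ | k
        · exact (Nat.card_eq_one_iff_unique.1 hk).1
        · rw [pow_succ, Nat.odd_mul] at h1; exact absurd h1.2 (by decide)
      exact ⟨isCyclic_of_subsingleton, fun g hg => absurd (Subsingleton.elim _ _) hg⟩
    refine half_trans h2 (H7.pCore_eq p (G := D) ▸ H7.isPGroup_Op p ⊤) hq hE fun a b ha hb => ?_
    obtain ⟨d, rfl⟩ := htrans a b ha hb
    have hn : (pCore p D).Normal := inferInstance
    refine Nat.card_congr ⟨fun x => ⟨⟨d * x * d⁻¹, hn.conj_mem _ x.1.2 d⟩, ?_⟩,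
      fun x => ⟨⟨d⁻¹ * x * d, hn.conj_mem' _ x.1.2 d⟩, ?_⟩, fun x => ?_, fun x => ?_⟩
    · have : ((x : pCore p D) : D) • a = a := x.2
      change (d * x * d⁻¹) • d • a = d • a
      rw [mul_smul, mul_smul, inv_smul_smul, this]
    · have : ((x : pCore p D) : D) • d • a = d • a := x.2
      change (d⁻¹ * x * d) • a = a
      rw [mul_smul, mul_smul, this, inv_smul_smul]
    · ext; simp [mul_assoc]
    · ext; simp [mul_assoc]
  constructor
  · haveI : IsZGroup (fittingSubgroup D) := by
      refine ⟨fun p hp P => ?_⟩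
      haveI := Fact.mk hp
      haveI := (key p).1
      have h1 : (P : Subgroup _).map (fittingSubgroup D).subtype ≤ pCore p D :=
        H1.le_pCore_of_le_fitting (P.isPGroup'.map _) (map_subtype_le _)
      haveI := Subgroup.isCyclic_of_le h1
      let e := (P : Subgroup _).equivMapOfInjective _ (subtype_injective (fittingSubgroup D))
      exact isCyclic_of_surjective e.symm e.symm.surjective
    infer_instance
  · intro g hg g1 a ha
    obtain ⟨p, hp, k, hk⟩ := Nat.exists_prime_and_dvd (n := orderOf g) (by simpa using g1)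
    haveI := Fact.mk hp
    have h0 := orderOf_pos g
    have h1 : g ^ k ∈ pCore p D := H1.le_pCore_of_le_fitting (Q := zpowers (g ^ k))
      (IsPGroup.of_card (n := 1) (by
        rw [Nat.card_zpowers, orderOf_pow_of_dvd (by rintro rfl; omega) (Dvd.intro_left _ hk.symm),
          hk, Nat.mul_div_cancel _ (Nat.pos_of_ne_zero (by rintro rfl; omega)), pow_one]))
      (zpowers_le.2 (pow_mem hg k)) (mem_zpowers _)
    refine (key p).2 ⟨_, h1⟩ (fun e => ?_) a ((stabilizer D a).pow_mem ha k)
    have h2 := Nat.le_of_dvd (Nat.pos_of_ne_zero (by rintro rfl; omega))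
      (orderOf_dvd_of_pow_eq_one (congrArg Subtype.val e))
    have := hp.two_le
    nlinarith

end H8
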