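import Mathlib
import Cfsg.Agent.H8.ClassCount
import Cfsg.Agent.H1.Misc

open Subgroup
open scoped Pointwise

namespace H8

theorem span_eq_top_iff_closure {E : Type*} [CommGroup E] {p : ℕ} [Module (ZMod p) (Additive E)]
    (S : Set E) : Submodule.span (ZMod p) (Additive.ofMul '' S) = ⊤ ↔ closure S = ⊤ := by
  constructor
  · intro h
    have : Submodule.span (ZMod p) (Additive.ofMul '' S) ≤
        AddSubgroup.toZModSubmodule p (Subgroup.toAddSubgroup (closure S)) := by
      rw [Submodule.span_le]
      rintro _ ⟨x, hx, rfl⟩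
      exact Subgroup.subset_closure (G := E) hx
    rw [eq_top_iff]
    intro x _
    exact this (show Additive.ofMul x ∈ _ from h ▸ Submodule.mem_top)
  · intro h
    have : closure S ≤ AddSubgroup.toSubgroup'
        (Submodule.span (ZMod p) (Additive.ofMul '' S)).toAddSubgroup := by
      rw [Subgroup.closure_le]
      intro x hx
      exact Submodule.subset_span (M := Additive E) ⟨x, hx, rfl⟩
    rw [eq_top_iff]
    intro x _
    exact this (show Additive.toMul x ∈ _ from h ▸ mem_top _)

theorem card_gen_tuples_elementary {E : Type*} [CommGroup E] [Finite E] {p r : ℕ} [hp : Fact p.Prime]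
    (he : ∀ x : E, x ^ p = 1) (hc : Nat.card E = p ^ r) :
    Nat.card {s : Fin r → E // closure (Set.range s) = ⊤} = ∏ i ∈ Finset.range r, (p ^ r - p ^ i) := by
  obtain ⟨inst⟩ : Nonempty (Module (ZMod p) (Additive E)) :=
    ⟨AddCommGroup.zmodModule (fun x => he x.toMul)⟩
  haveI : Module.Finite (ZMod p) (Additive E) := Module.Finite.of_finite
  have hr : Module.finrank (ZMod p) (Additive E) = r := by
    have := Module.natCard_eq_pow_finrank (K := ZMod p) (V := Additive E)
    rw [Nat.card_zmod, show Nat.card (Additive E) = Nat.card E from rfl, hc] at this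
    exact (Nat.pow_right_injective hp.out.two_le this).symm
  have h1 := card_linearIndependent (K := ZMod p) (V := Additive E) (k := r) hr.ge
  rw [hr, ZMod.card, ← Finset.prod_range (fun i => p ^ r - p ^ i)] at h1
  rw [← h1]
  refine Nat.card_congr (Equiv.subtypeEquiv (Equiv.piCongrRight fun _ => Additive.ofMul) fun s => ?_)
  rw [← span_eq_top_iff_closure (p := p), ← Set.range_comp]
  exact ⟨fun h => linearIndependent_of_top_le_span_of_card_eq_finrank h.ge (by simp [hr]),
    fun h => h.span_eq_top_of_card_eq_finrank' (by simp [hr])⟩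

theorem prod_pow_sub_pow_pos {p r : ℕ} (hp : 1 < p) : 0 < ∏ i ∈ Finset.range r, (p ^ r - p ^ i) :=
  Finset.prod_pos fun _ hi => Nat.sub_pos_of_lt (Nat.pow_lt_pow_right hp (Finset.mem_range.1 hi))

variable {G : Type*} [Group G]

theorem ncard_tuples_fiber (N : Subgroup G) [N.Normal] {ι : Type*} [Fintype ι] (t : ι → G ⧸ N) :
    {s : ι → G | ∀ i, (s i : G ⧸ N) = t i}.ncard = Nat.card N ^ Fintype.card ι := by
  rw [← Nat.card_coe_set_eq, ← Nat.card_eq_fintype_card, ← Nat.card_fun]
  refine Nat.card_congr ⟨fun s i => ⟨(t i).out⁻¹ * s.1 i, QuotientGroup.eq.1 ?_⟩,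
    fun f => ⟨fun i => (t i).out * f i, fun i => ?_⟩, fun s => ?_, fun f => ?_⟩
  · rw [s.2 i]; exact Quotient.out_eq _
  · rw [QuotientGroup.mk_mul_of_mem _ (f i).2]; exact Quotient.out_eq _
  · ext i; simp
  · ext i; simp

theorem closure_eq_top_iff_frattini [Finite G] (S : Set G) :
    closure (QuotientGroup.mk' (frattini G) '' S) = ⊤ ↔ closure S = ⊤ := by
  rw [← MonoidHom.map_closure]
  constructor
  · intro h
    apply frattini_nongenerating
    rw [← QuotientGroup.ker_mk' (frattini G), ← comap_map_eq, h, comap_top]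
  · intro h
    rw [h]; exact map_top_of_surjective _ (QuotientGroup.mk'_surjective _)

/-- the Frattini quotient of a `p`-group as a commutative group -/
theorem isMulCommutative_frattini_quotient [Finite G] {p : ℕ} [Fact p.Prime] (hG : IsPGroup p G) :
    IsMulCommutative (G ⧸ frattini G) := by
  haveI := hG.isNilpotent
  exact Subgroup.Normal.quotient_commutative_iff_commutator_le.2
    H1.commutator_le_frattini_of_isNilpotent

theorem card_gen_tuples [Finite G] {p r : ℕ} [hp : Fact p.Prime] (hG : IsPGroup p G)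
    (hr : (frattini G).index = p ^ r) :
    Nat.card {s : Fin r → G // closure (Set.range s) = ⊤} =
      (∏ i ∈ Finset.range r, (p ^ r - p ^ i)) * Nat.card (frattini G) ^ r := by
  haveI := isMulCommutative_frattini_quotient hG
  open scoped IsMulCommutative in
  have h1 := card_gen_tuples_elementary (E := G ⧸ frattini G) (p := p) (r := r) (fun x => by
    obtain ⟨x, rfl⟩ := QuotientGroup.mk_surjective x
    rw [← QuotientGroup.mk_pow, QuotientGroup.eq_one_iff]
    exact H1.pow_mem_frattini_of_isPGroup hG x) hr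
  have key : ∀ s : Fin r → G, closure (Set.range s) = ⊤ ↔
      closure (Set.range fun i => (s i : G ⧸ frattini G)) = ⊤ := by
    intro s
    rw [← closure_eq_top_iff_frattini, ← Set.range_comp]; rfl
  show {s : Fin r → G | closure (Set.range s) = ⊤}.ncard = _
  rw [ncard_eq_mul_of_fibers (Set.toFinite _) (fun s i => (s i : G ⧸ frattini G))
    (d := Nat.card (frattini G) ^ r), ← h1]
  · congr 1
    show _ = {s : Fin r → G ⧸ frattini G | closure (Set.range s) = ⊤}.ncard
    congr 1
    ext t
    constructor
    · rintro ⟨s, hs, rfl⟩; exact (key s).1 hs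
    · intro ht
      refine ⟨fun i => (t i).out, (key _).2 ?_, ?_⟩
      · simpa using ht
      · ext i; simp
  · rintro _ ⟨s, hs, rfl⟩
    have := ncard_tuples_fiber (frattini G) (fun i => (s i : G ⧸ frattini G))
    rw [Fintype.card_fin] at this
    rw [← this]
    congr 1
    ext t
    refine ⟨fun h i => congrFun h.2 i, fun h => ?_⟩
    have e : (fun i => (t i : G ⧸ frattini G)) = fun i => (s i : G ⧸ frattini G) := funext h
    exact ⟨(key t).2 (e ▸ (key s).1 hs), e⟩

theorem exists_gen_tuple [Finite G] {p r : ℕ} [hp : Fact p.Prime] (hG : IsPGroup p G)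
    (hr : (frattini G).index = p ^ r) : ∃ s : Fin r → G, closure (Set.range s) = ⊤ := by
  have := card_gen_tuples hG hr
  have h2 : 0 < Nat.card {s : Fin r → G // closure (Set.range s) = ⊤} := by
    rw [this]; exact Nat.mul_pos (prod_pow_sub_pow_pos hp.out.one_lt) (pow_pos Nat.card_pos _)
  obtain ⟨s, hs⟩ := (Nat.card_pos_iff.1 h2).1
  exact ⟨s, hs⟩

theorem mulAut_eq_one_of_closure {S : Set G} (hS : closure S = ⊤) {α : MulAut G}
    (h : ∀ x ∈ S, α x = x) : α = 1 := by
  ext x
  exact DFunLike.congr_fun (MonoidHom.eq_of_eqOn_dense hS (f := α.toMonoidHom)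
    (g := MonoidHom.id G) h) x

theorem card_dvd_of_invariant_tuples {ι : Type*} (A : Subgroup (MulAut G)) (X : Set (ι → G))
    (h1 : ∀ α ∈ A, ∀ s ∈ X, (fun i => α (s i)) ∈ X)
    (h2 : ∀ s ∈ X, closure (Set.range s) = ⊤) : Nat.card A ∣ Nat.card X := by
  letI : MulAction A X :=
    { smul := fun α s => ⟨fun i => (α : MulAut G) (s.1 i), h1 α α.2 s s.2⟩
      one_smul := fun s => rfl
      mul_smul := fun a b s => rfl }
  refine H1.card_dvd_of_free fun s => ?_
  rw [eq_bot_iff]
  intro α hα
  refine Subtype.ext (mulAut_eq_one_of_closure (h2 s s.2) ?_)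
  rintro _ ⟨i, rfl⟩
  exact congrFun (congrArg Subtype.val hα) i

end H8
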