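import Cfsg.Agent.H3.Lift
import Cfsg.Agent.H3.Integral
import Cfsg.Prelude.Def_Perm

/-! The commutant of a representation. -/

set_option autoImplicit false
set_option linter.style.haveILetI false
set_option linter.unusedSectionVars false

namespace H8
open Cfsg H3 Module
open scoped ComplexConjugate

variable {G : Type*} [Group G] [Fintype G] {V : Type*} [AddCommGroup V] [Module ℂ V]
  [FiniteDimensional ℂ V] {ρ : Representation ℂ G V}

def IsCm (ρ : Representation ℂ G V) (S : End ℂ V) : Prop := ∀ g, S * ρ g = ρ g * S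

noncomputable def tf (ρ : Representation ℂ G V) : End ℂ V →ₗ[ℂ] G → ℂ :=
  LinearMap.pi fun g => LinearMap.trace ℂ V ∘ₗ LinearMap.mulLeft ℂ (ρ g)

theorem tf_apply (S : End ℂ V) (g : G) : tf ρ S g = LinearMap.trace ℂ V (ρ g * S) := rfl

theorem IsCm.cls {S : End ℂ V} (h : IsCm ρ S) : IsClassFunction G (tf ρ S) := fun g x => by
  rw [tf_apply, tf_apply, map_mul ρ, map_mul ρ, mul_assoc, mul_assoc, LinearMap.trace_mul_comm,
    mul_assoc, mul_assoc, h, ← mul_assoc (ρ _) (ρ _) S, ← map_mul ρ, inv_mul_cancel, map_one, one_mul]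

noncomputable def EE (ρ : Representation ℂ G V) (χ : G → ℂ) : End ℂ V := ∑ g, conj (χ g) • ρ g

theorem IsCm.ee {S : End ℂ V} (h : IsCm ρ S) (χ : G → ℂ) : S * EE ρ χ = EE ρ χ * S := by
  simp [EE, Finset.mul_sum, Finset.sum_mul, h _]

theorem ee_cm {χ : G → ℂ} (h : IsClassFunction G χ) : IsCm ρ (EE ρ χ) := fun x => by
  simp only [EE, Finset.mul_sum, Finset.sum_mul, smul_mul_assoc, mul_smul_comm, ← map_mul]
  refine Fintype.sum_equiv (MulAut.conj x⁻¹).toEquiv _ _ fun g => ?_
  simp [h.conj_inv, mul_assoc, show χ (x⁻¹ * (g * x)) = χ g by rw [← mul_assoc, h.conj_inv]]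

theorem tf_ee (χ : IrrCharacter G) : tf ρ (EE ρ χ) =
    (Nat.card G * classInner ρ.character χ / χ.1 1) • χ.1 := funext fun x => by
  have c := (isCharacter_character ρ).isClassFunction
  have k : ∀ ψ : IrrCharacter G, ∑ g, conj (χ.1 g) * ψ.1 (g * x) =
      if ψ = χ then Nat.card G / χ.1 1 * χ.1 x else 0 := fun ψ => by
    have := ψ.2.central_formula χ.2.isClassFunction.conj x
    rw [show ∑ g, conj (χ.1 g) * ψ.1 g = _ from (Finset.sum_congr rfl fun _ _ => mul_comm _ _).trans
      (card_mul_inner ..).symm, inner_irr] at this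
    refine mul_left_cancel₀ ψ.2.deg_ne_zero (this.trans ?_)
    have := χ.2.deg_ne_zero
    split_ifs with e
    · subst e; field_simp
    · simp
  have : tf ρ (EE ρ χ) x = ∑ g, conj (χ.1 g) * ρ.character (g * x) := by
    simp only [tf_apply, EE, Finset.mul_sum, mul_smul_comm, map_sum, map_smul, ← map_mul, smul_eq_mul]
    exact Finset.sum_congr rfl fun g _ => congrArg _ (c.mul_comm x g)
  rw [this]
  simp_rw [c.apply_eq_sum (_ * x), Finset.mul_sum, mul_left_comm (conj _)]
  rw [Finset.sum_comm]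
  simp_rw [← Finset.mul_sum, k]
  simp
  ring

theorem IsCm.span (h : ∀ χ : G → ℂ, IsIrrCharacter G χ →
      classInner ρ.character χ = 0 ∨ classInner ρ.character χ = 1) {S : End ℂ V} (hS : IsCm ρ S) :
    ∃ c : {χ : IrrCharacter G // classInner ρ.character χ = 1} → ℂ, S = ∑ χ, c χ • EE ρ χ.1 := by
  classical
  let v : {χ : IrrCharacter G // classInner ρ.character χ = 1} → ρ.IntertwiningMap ρ :=
    fun χ => ⟨EE ρ χ.1, ee_cm χ.1.2.isClassFunction⟩
  let L : ρ.IntertwiningMap ρ →ₗ[ℂ] End ℂ V := ⟨⟨fun f => f.toLinearMap, fun _ _ => rfl⟩, fun _ _ => rfl⟩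
  have li : LinearIndependent ℂ v := by
    refine .of_comp (tf ρ ∘ₗ L) ?_
    convert (linearIndependent_irr.comp _ Subtype.val_injective).units_smul
      fun χ : {χ : IrrCharacter G // classInner ρ.character χ = 1} =>
        Units.mk0 _ (div_ne_zero (card_ne_zero G) χ.1.2.deg_ne_zero) using 1
    ext1 χ
    exact (tf_ee χ.1).trans (by rw [χ.2, mul_one]; rfl)
  have cd : Fintype.card {χ : IrrCharacter G // classInner ρ.character χ = 1} =
      finrank ℂ (ρ.IntertwiningMap ρ) := by
    apply Nat.cast_injective (R := ℂ)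
    rw [← inner_character, (isCharacter_character ρ).isClassFunction.inner_eq_sum,
      Fintype.card_subtype, Finset.card_filter]
    push_cast
    exact Finset.sum_congr rfl fun χ _ => by rcases h χ χ.2 with e | e <;> simp [e]
  obtain ⟨c, hc⟩ := (Submodule.mem_span_range_iff_exists_fun ℂ).1
    ((li.span_eq_top_of_card_eq_finrank' cd).ge (Submodule.mem_top (x := ⟨S, hS⟩)))
  exact ⟨c, (congrArg L hc).symm.trans (by simp only [map_sum, map_smul]; rfl)⟩

theorem mult_le_one (h : ∀ S T, IsCm ρ S → IsCm ρ T → S * T = T * S) {χ : G → ℂ}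
    (hχ : IsIrrCharacter G χ) : classInner ρ.character χ = 0 ∨ classInner ρ.character χ = 1 := by
  obtain ⟨n, σ, hσ, rfl⟩ := hχ
  rw [inner_character]
  suffices finrank ℂ (σ.IntertwiningMap ρ) ≤ 1 by
    rcases Nat.le_one_iff_eq_zero_or_eq_one.1 this with e | e <;> simp [e]
  by_cases! e : ∀ i : σ.IntertwiningMap ρ, i = 0
  · exact finrank_le_one 0 fun w => ⟨0, by simp [e w]⟩
  obtain ⟨i, hi⟩ := e
  obtain ⟨q, hq⟩ := i.toLinearMap.exists_leftInverse_of_injective (LinearMap.ker_eq_bot.2
    ((Representation.IsIrreducible.injective_or_eq_zero i).resolve_right hi))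
  let p : V →ₗ[ℂ] (Fin n → ℂ) := ∑ g, σ g ∘ₗ q ∘ₗ ρ g⁻¹
  have p1 : ∀ x v, p (ρ x v) = σ x (p v) := fun x v => by
    simp only [p, LinearMap.sum_apply, map_sum, LinearMap.comp_apply]
    refine Fintype.sum_equiv (Equiv.mulLeft x⁻¹) _ _ fun g => ?_
    simp [← End.mul_apply, ← map_mul]
  have p2 : ∀ w, p (i w) = (Nat.card G : ℂ) • w := fun w => by
    have : ∀ w, q (i w) = w := fun w => congr($hq w)
    simp [p, ← i.isIntertwining, this, ← End.mul_apply, ← map_mul, ← Nat.cast_smul_eq_nsmul ℂ]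
  have cm : ∀ j : σ.IntertwiningMap ρ, IsCm ρ (j.toLinearMap ∘ₗ p) := fun j g => by
    ext v
    simp [p1, j.isIntertwining]
  refine finrank_le_one i fun j => ?_
  obtain ⟨d, hd⟩ := schur_scalar σ (p ∘ₗ j.toLinearMap) fun g => by
    refine LinearMap.ext fun v => ?_
    simp [p1, j.isIntertwining]
  refine ⟨d / Nat.card G, Representation.IntertwiningMap.ext (LinearMap.ext fun w => ?_)⟩
  have a := congr($(h _ _ (cm i) (cm j)) (i w))
  have b : ∀ w, p (j w) = d • w := fun w => congr($hd w)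
  have c := card_ne_zero G
  simp only [End.mul_apply, LinearMap.comp_apply, Representation.IntertwiningMap.coe_toLinearMap,
    p2, b, map_smul, smul_smul] at a
  change (d / Nat.card G) • i w = j w
  rw [← smul_right_inj (mul_ne_zero c c), ← a, smul_smul]
  congr 1
  field_simp

theorem IsCm.integral {T : End ℂ V} (h : IsCm ρ T) (hT : IsIntegral ℤ T) {χ : G → ℂ} :
    IsCharacter G χ → IsIntegral ℤ (classInner (tf ρ T) χ) ∧
      (classInner ρ.character χ = 0 → classInner (tf ρ T) χ = 0) := fun hχ => by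
  classical
  have hds := DirectSum.isInternal_submodule_of_iSupIndep_of_iSup_eq_top
    T.independent_maxGenEigenspace T.iSup_maxGenEigenspace_eq_top
  have fin : {μ | T.maxGenEigenspace μ ≠ ⊥}.Finite :=
    WellFoundedGT.finite_ne_bot_of_iSupIndep T.independent_maxGenEigenspace
  have m1 := fun g μ => T.mapsTo_maxGenEigenspace_of_comm (h g) μ
  have m2 := fun μ => T.mapsTo_maxGenEigenspace_of_comm (Commute.refl T) μ
  let π := fun μ => (ρ.subrepresentation (T.maxGenEigenspace μ) fun g => m1 g μ).character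
  have e1 : ρ.character = ∑ μ ∈ fin.toFinset, π μ := funext fun g => by
    rw [Finset.sum_apply]
    exact LinearMap.trace_eq_sum_trace_restrict' hds fin (m1 g)
  have e2 : tf ρ T = ∑ μ ∈ fin.toFinset, μ • π μ := funext fun g => by
    rw [Finset.sum_apply]
    refine (LinearMap.trace_eq_sum_trace_restrict' hds fin (f := ρ g ∘ₗ T)
      fun μ => (m1 g μ).comp (m2 μ)).trans
      (Finset.sum_congr rfl fun μ _ => ?_)
    exact LinearMap.trace_comp_eq_mul_of_commute_of_isNilpotent μ
      (LinearMap.restrict_commute (h g).symm (m1 g μ) (m2 μ))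
      (T.isNilpotent_restrict_maxGenEigenspace_sub_algebraMap μ)
  choose k hk using fun μ => (isCharacter_character
    (ρ.subrepresentation (T.maxGenEigenspace μ) fun g => m1 g μ)).inner_nat hχ
  rw [e1, e2, inner_sum_left, inner_sum_left]
  simp only [H3.inner_smul_left, π, hk]
  refine ⟨IsIntegral.sum _ fun μ hμ => .mul ?_ (H3.isIntegral_natCast _), fun e => ?_⟩
  · obtain ⟨v, hv⟩ := End.HasEigenvalue.exists_hasEigenvector
      ((End.hasUnifEigenvalue_iff_hasUnifEigenvalue_one (by simp)).1 (fin.mem_toFinset.1 hμ))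
    obtain ⟨p, p1, p2⟩ := hT
    have := End.aeval_apply_of_hasEigenvector (p := p.map (algebraMap ℤ ℂ)) hv
    rw [Polynomial.aeval_map_algebraMap, Polynomial.aeval_def, p2, Polynomial.eval_map] at this
    exact ⟨p, p1, (smul_eq_zero.1 this.symm).resolve_right hv.2⟩
  · rw [← Nat.cast_sum, Nat.cast_eq_zero, Finset.sum_eq_zero_iff] at e
    exact Finset.sum_eq_zero fun μ hμ => by simp [e μ hμ]

end H8
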