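import Cfsg.Agent.H8.Cm

/-! The centraliser ring of a permutation representation. -/

set_option autoImplicit false
set_option linter.style.haveILetI false
set_option linter.unusedSectionVars false

namespace H8
open Cfsg H3 Module MulAction Matrix
open scoped ComplexConjugate

section
variable {G : Type*} [Group G] [Fintype G] {V : Type*} [AddCommGroup V] [Module ℂ V]
  [FiniteDimensional ℂ V] {ρ : Representation ℂ G V}

theorem tr_ee_mul (χ : G → ℂ) (S : End ℂ V) :
    LinearMap.trace ℂ V (EE ρ χ * S) = Nat.card G * classInner (tf ρ S) χ := by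
  simp only [card_mul_inner, EE, Finset.sum_mul, smul_mul_assoc, map_sum, map_smul, smul_eq_mul,
    tf_apply, mul_comm]

theorem IsCm.tr_mul (h : ∀ χ : G → ℂ, IsIrrCharacter G χ →
      classInner ρ.character χ = 0 ∨ classInner ρ.character χ = 1) {S : End ℂ V} (hS : IsCm ρ S)
    (T : End ℂ V) : LinearMap.trace ℂ V (S * T) =
      ∑ χ : IrrCharacter G, χ.1 1 * classInner (tf ρ S) χ * classInner (tf ρ T) χ := by
  classical
  obtain ⟨c, rfl⟩ := hS.span h
  simp only [Finset.sum_mul, smul_mul_assoc, map_sum, map_smul, tr_ee_mul, tf_ee, inner_sum_left,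
    H3.inner_smul_left, inner_irr, Finset.mul_sum, smul_eq_mul]
  rw [Finset.sum_comm]
  refine Finset.sum_congr rfl fun χ _ => ?_
  have := χ.1.2.deg_ne_zero
  rw [Finset.sum_eq_single χ.1 (fun ψ _ e => by simp [e.symm]) (by simp), χ.2, if_pos rfl]
  field_simp
end

variable {G : Type*} [Group G] [Fintype G] {Ω : Type*} [Fintype Ω] [DecidableEq Ω] [MulAction G Ω]

def MInv (G : Type*) [Group G] [MulAction G Ω] (M : Matrix Ω Ω ℂ) : Prop :=
  ∀ (g : G) x y, M (g • x) (g • y) = M x y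

theorem MInv.cm {M : Matrix Ω Ω ℂ} (h : MInv G M) : IsCm (permRep ℂ G Ω) (toLin' M) := fun g => by
  refine LinearMap.ext fun f => funext fun x => ?_
  change ∑ y, M x y * f (g⁻¹ • y) = ∑ y, M (g⁻¹ • x) y * f y
  exact Fintype.sum_equiv (MulAction.toPerm g⁻¹) _ _ fun y => by simp [h _]

theorem IsCm.inv {S : End ℂ (Ω → ℂ)} (h : IsCm (permRep ℂ G Ω) S) :
    MInv G (LinearMap.toMatrix' S) := fun g x y => by
  have := congr($(h g) (Pi.single y 1) (g • x))
  change S _ _ = S _ (g⁻¹ • g • x) at this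
  rw [inv_smul_smul] at this
  rw [LinearMap.toMatrix'_apply, LinearMap.toMatrix'_apply, ← this]
  refine congrFun (congrArg S (funext fun z => ?_)) _
  change _ = (Pi.single y 1 : Ω → ℂ) (g⁻¹ • z)
  simp [Pi.single_apply, inv_smul_eq_iff]

theorem tf_toLin' (M : Matrix Ω Ω ℂ) (g : G) :
    tf (permRep ℂ G Ω) (toLin' M) g = ∑ x, M (g⁻¹ • x) x := by
  rw [tf_apply, LinearMap.trace_eq_matrix_trace ℂ (Pi.basisFun ℂ Ω), LinearMap.toMatrix_eq_toMatrix']
  refine Finset.sum_congr rfl fun x _ => ?_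
  change (M *ᵥ Pi.single x 1) (g⁻¹ • x) = _
  simp

theorem char_perm : (permRep ℂ G Ω).character = fun g => (Nat.card (fixedBy Ω g) : ℂ) :=
  funext fun g => by
    have := tf_toLin' (1 : Matrix Ω Ω ℂ) g
    rw [toLin'_one, tf_apply] at this
    refine this.trans ?_
    simp [one_apply, inv_smul_eq_iff, Fintype.card_subtype, @eq_comm _ _ (g • _)]

theorem ee_apply (χ : G → ℂ) (x y : Ω) : LinearMap.toMatrix' (EE (permRep ℂ G Ω) χ) x y =
    ∑ g, if g • y = x then conj (χ g) else 0 := by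
  simp only [EE, LinearMap.toMatrix'_apply, LinearMap.sum_apply, Finset.sum_apply,
    LinearMap.smul_apply, Pi.smul_apply, smul_eq_mul]
  refine Finset.sum_congr rfl fun g _ => ?_
  change _ * (Pi.single y 1 : Ω → ℂ) (g⁻¹ • x) = _
  simp [Pi.single_apply, inv_smul_eq_iff, @eq_comm _ x]

theorem ee_transpose {χ : G → ℂ} (h : IsCharacter G χ) :
    (LinearMap.toMatrix' (EE (permRep ℂ G Ω) χ))ᵀ =
      LinearMap.toMatrix' (EE (permRep ℂ G Ω) fun g => conj (χ g)) := by
  ext x y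
  rw [transpose_apply, ee_apply, ee_apply]
  exact Fintype.sum_equiv (Equiv.inv G) _ _ fun g => by simp [h.map_inv, inv_smul_eq_iff, @eq_comm _ y]

open Classical in
noncomputable def adj (G : Type*) [Group G] [MulAction G Ω] (a b : Ω) : Matrix Ω Ω ℂ :=
  of fun x y => if ∃ g : G, g • a = x ∧ g • b = y then 1 else 0

theorem adj_inv (a b : Ω) : MInv G (adj G a b) := fun g x y => by
  have : (∃ k : G, k • a = g • x ∧ k • b = g • y) ↔ ∃ k : G, k • a = x ∧ k • b = y := by
    refine ⟨fun ⟨k, h1, h2⟩ => ⟨g⁻¹ * k, ?_, ?_⟩, fun ⟨k, h1, h2⟩ => ⟨g * k, ?_, ?_⟩⟩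
      <;> simp [mul_smul, *]
  simp only [adj, of_apply, this]
  congr

theorem adj_integral (a b : Ω) : IsIntegral ℤ (toLin' (adj G a b)) := by
  classical
  have := (Matrix.isIntegral (of fun x y => if ∃ g : G, g • a = x ∧ g • b = y then (1 : ℤ) else 0)).map
    ((toLinAlgEquiv' (R := ℂ)).toAlgHom.toRingHom.comp (Int.castRingHom ℂ).mapMatrix).toIntAlgHom
  convert this using 1
  change _ = toLin' _
  congr 1
  ext x y
  simp [adj]

theorem adj_row [IsPretransitive G Ω] (a b x : Ω) :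
    ∑ y, adj G a b x y = Nat.card (orbit (stabilizer G a) b) := by
  classical
  obtain ⟨k, rfl⟩ := exists_smul_eq G a x
  rw [← Fintype.sum_equiv (MulAction.toPerm k) _ _ fun y => (adj_inv a b k a y).symm]
  rw [Nat.card_eq_fintype_card, Fintype.card_subtype, Finset.card_filter]
  push_cast
  refine Finset.sum_congr rfl fun y _ => ?_
  have : (∃ g : G, g • a = a ∧ g • b = y) ↔ y ∈ orbit (stabilizer G a) b :=
    ⟨fun ⟨g, h1, h2⟩ => ⟨⟨g, h1⟩, h2⟩, fun ⟨g, h⟩ => ⟨g, g.2, h⟩⟩
  simp only [adj, of_apply, this]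

theorem adj_diag {a b : Ω} (h : b ≠ a) (x : Ω) : adj G a b x x = 0 :=
  if_neg fun ⟨g, h1, h2⟩ => h (smul_left_cancel g (h2.trans h1.symm))

theorem sum_smul_eq [IsPretransitive G Ω] (F : Ω → ℂ) (x : Ω) :
    Fintype.card Ω * ∑ g : G, F (g • x) = Nat.card G * ∑ y, F y := by
  have : ∀ y, ∑ g : G, F (g • y) = ∑ g : G, F (g • x) := fun y => by
    obtain ⟨k, rfl⟩ := exists_smul_eq G x y
    exact Fintype.sum_equiv (Equiv.mulRight k) _ _ fun g => by simp [mul_smul]
  rw [← nsmul_eq_mul, ← Finset.card_univ, ← Finset.sum_const, ← Finset.sum_congr rfl fun y _ => this y,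
    Finset.sum_comm, Finset.sum_congr rfl fun g _ =>
      Fintype.sum_equiv (MulAction.toPerm g) (fun y => F (g • y)) F fun _ => rfl]
  simp

theorem MInv.inner_one [IsPretransitive G Ω] [Nonempty Ω] {M : Matrix Ω Ω ℂ} (h : MInv G M) {k : ℂ}
    (hk : ∀ x, ∑ y, M x y = k) : classInner (tf (permRep ℂ G Ω) (toLin' M)) (fun _ => 1) = k := by
  have n : (Fintype.card Ω : ℂ) ≠ 0 := Nat.cast_ne_zero.2 Fintype.card_ne_zero
  have : ∀ (g : G) x, M (g⁻¹ • x) x = M x (g • x) := fun g x => by rw [← h g, smul_inv_smul]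
  rw [inner_one_right, inv_mul_eq_iff_eq_mul₀ (card_ne_zero G), ← mul_right_inj' n]
  simp_rw [tf_toLin', this]
  rw [Finset.sum_comm, Finset.mul_sum]
  simp_rw [fun x => sum_smul_eq (G := G) (M x) x, hk]
  simp

theorem inner_perm_self [IsPretransitive G Ω] (a : Ω) :
    classInner (fun g : G => (Nat.card (fixedBy Ω g) : ℂ)) (fun g => Nat.card (fixedBy Ω g)) =
      Nat.card (orbitRel.Quotient (stabilizer G a) Ω) := by
  classical
  nth_rw 2 [card_fixedBy_eq_indFun Ω a]
  rw [inner_indFun_right _ _ (isCharacter_fixedBy Ω).isClassFunction]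
  exact inner_fixedBy_one Ω

theorem inner_perm_one [IsPretransitive G Ω] [Nonempty Ω] :
    classInner (fun g : G => (Nat.card (fixedBy Ω g) : ℂ)) (fun _ => 1) = 1 := by
  have := MInv.inner_one (G := G) (M := (1 : Matrix Ω Ω ℂ)) (k := 1)
    (fun g x y => by simp [one_apply]) (fun x => by simp [one_apply])
  rwa [toLin'_one, ← char_perm] at *

theorem dvd_subdeg [IsPretransitive G Ω] {f : ℕ} (hf : ∀ χ : G → ℂ, IsIrrCharacter G χ →
      χ ≠ (fun _ => 1) → classInner (fun g : G => (Nat.card (fixedBy Ω g) : ℂ)) χ ≠ 0 →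
      ∃ m : ℕ, χ 1 = (f : ℂ) * m) {a b : Ω} (hab : b ≠ a) :
    f ∣ Nat.card (orbit (stabilizer G a) b) := by
  classical
  haveI : Nonempty Ω := ⟨a⟩
  have c := (adj_inv (G := G) a b).cm
  have e := c.cls.apply_eq_sum 1
  have k : ∀ χ : IrrCharacter G, χ ≠ ⟨_, isIrrCharacter_one⟩ → ∃ z, IsIntegral ℤ z ∧
      classInner (tf (permRep ℂ G Ω) (toLin' (adj G a b))) χ * χ.1 1 = f * z := fun χ h => by
    obtain ⟨h1, h2⟩ := c.integral (adj_integral a b) χ.2.isCharacter
    by_cases h3 : classInner (permRep ℂ G Ω).character χ = 0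
    · exact ⟨0, isIntegral_zero, by simp [h2 h3]⟩
    obtain ⟨m, hm⟩ := hf χ χ.2 (fun e => h (Subtype.ext e)) (char_perm (G := G) (Ω := Ω) ▸ h3)
    exact ⟨_, h1.mul (H3.isIntegral_natCast m), by rw [hm]; ring⟩
  choose! z z1 z2 using k
  rw [tf_toLin', ← Finset.add_sum_erase _ _
    (Finset.mem_univ (⟨_, isIrrCharacter_one⟩ : IrrCharacter G)),
    Finset.sum_congr rfl fun χ h => z2 χ (Finset.ne_of_mem_erase h), ← Finset.mul_sum,
    (adj_inv a b).inner_one (adj_row a b)] at e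
  refine Int.natCast_dvd_natCast.1 (int_dvd_of_eq_mul_isIntegral (IsIntegral.sum z (s := Finset.univ.erase _)
    (fun χ h => z1 χ (Finset.ne_of_mem_erase h))).neg ?_)
  simp only [inv_one, one_smul, adj_diag hab, Finset.sum_const_zero, mul_one] at e
  push_cast
  linear_combination -e

end H8
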