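import Mathlib

set_option autoImplicit false

namespace H8
open Finset

section gen
variable {F : Type*} [Field F]

theorem aut_li : LinearIndependent F (fun σ : F ≃+* F => ((σ : F →+* F) : F → F)) :=
  (linearIndependent_monoidHom F F).comp (fun σ : F ≃+* F => (σ : F →* F)) fun σ τ h =>
    RingEquiv.ext fun x => DFunLike.congr_fun h x

theorem aut_mem3 {σ a b c : F ≃+* F} {u v w : F} (h : ∀ x, σ x = u * a x + v * b x + w * c x) :
    σ = a ∨ σ = b ∨ σ = c := by
  by_contra hc
  refine aut_li.notMem_span_image (s := {a, b, c}) (x := σ) (by simpa using hc) ?_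
  have e : ((σ : F →+* F) : F → F) = u • ((a : F →+* F) : F → F) + v • ((b : F →+* F) : F → F) +
      w • ((c : F →+* F) : F → F) := funext fun x => by simpa using h x
  rw [e]
  refine Submodule.add_mem _ (Submodule.add_mem _ ?_ ?_) ?_ <;>
    exact Submodule.smul_mem _ _ (Submodule.subset_span ⟨_, by simp, rfl⟩)

theorem aut_cancel {σ τ τ' : F ≃+* F} (h : ∀ x, σ x * τ x = σ x * τ' x) : τ = τ' := by
  ext x
  by_cases hx : x = 0
  · simp [hx]
  · exact mul_left_cancel₀ (by simpa using hx) (h x)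

theorem aut_comm [Finite F] (σ τ : F ≃+* F) : σ * τ = τ * σ := by
  obtain ⟨g, hg⟩ := IsCyclic.exists_monoid_generator (α := Fˣ)
  have key : ∀ ρ : F ≃+* F, ∃ a : ℕ, ρ g = (g : F) ^ a := fun ρ => by
    obtain ⟨a, ha⟩ := hg (Units.mk0 (ρ g) (by simp))
    exact ⟨a, by simpa using (congrArg Units.val ha).symm⟩
  obtain ⟨a, ha⟩ := key σ
  obtain ⟨b, hb⟩ := key τ
  ext x
  by_cases hx : x = 0
  · simp [hx]
  obtain ⟨i, hi⟩ := hg (Units.mk0 x hx)
  have : x = (g : F) ^ i := by simpa using (congrArg Units.val hi).symm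
  simp only [RingAut.mul_apply, this, map_pow, ha, hb, ← pow_mul, mul_comm a b]

variable [CharP F 2]

theorem aut_prod2 {σ τ σ' τ' : F ≃+* F} (h : ∀ x, σ x * τ x = σ' x * τ' x) :
    (σ = σ' ∧ τ = τ') ∨ (σ = τ' ∧ τ = σ') := by
  have h1 : ∀ x, σ x + τ x = σ' x + τ' x := fun x => by
    have h2 := h (x + 1)
    simp only [map_add, map_one] at h2
    linear_combination h2 - h x
  have h3 : σ = σ' ∨ σ = τ' := by
    by_cases e : σ = τ
    · subst e
      have h4 : σ' = τ' := RingEquiv.ext fun x => by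
        have := h1 x
        rw [CharTwo.add_self_eq_zero] at this
        exact (CharTwo.add_eq_zero.1 this.symm)
      subst h4
      left
      ext x
      rcases mul_self_eq_mul_self_iff.1 (h x) with e | e
      · exact e
      · rw [e, CharTwo.neg_eq]
    · rcases aut_mem3 (σ := σ) (a := τ) (b := σ') (c := τ') (u := -1) (v := 1) (w := 1)
        (fun x => by linear_combination h1 x) with e' | e' | e'
      · exact absurd e' e
      · exact Or.inl e'
      · exact Or.inr e'
  rcases h3 with rfl | rfl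
  · exact Or.inl ⟨rfl, aut_cancel h⟩
  · exact Or.inr ⟨rfl, aut_cancel fun x => by rw [h x, mul_comm]⟩

theorem aut_prod3 {α β γ σ τ : F ≃+* F} (h : ∀ x, α x * β x * γ x = σ x * τ x) :
    α = β ∨ α = γ ∨ β = γ := by
  by_cases e : β = γ
  · exact Or.inr (Or.inr e)
  obtain ⟨y, hy⟩ : ∃ y, β y + γ y ≠ 0 := by
    by_contra hc
    push Not at hc
    exact e (RingEquiv.ext fun x => CharTwo.add_eq_zero.1 (hc x))
  have h1 : ∀ x, α x * (β y + γ y) + β x * (α y + γ y) + γ x * (α y + β y) = 0 := fun x => by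
    have a1 := h (x + y + 1)
    have a2 := h (x + y)
    have a3 := h (x + 1)
    have a4 := h (y + 1)
    simp only [map_add, map_one] at a1 a2 a3 a4
    linear_combination a1 - a2 - a3 - a4 + h x + h y
  rcases aut_mem3 (σ := α) (a := β) (b := γ) (c := γ) (u := -(α y + γ y) / (β y + γ y))
    (v := -(α y + β y) / (β y + γ y)) (w := 0) (fun x => by
      field_simp; linear_combination h1 x) with e' | e' | e'
  · exact Or.inl e'
  · exact Or.inr (Or.inl e')
  · exact Or.inr (Or.inl e')

end gen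

section fin
variable {F : Type*} [Field F] [Fintype F] [CharP F 2]

noncomputable instance autFintype : Fintype (F ≃+* F) :=
  haveI : Finite (F ≃+* F) := Finite.of_injective (fun σ => (σ : F → F)) DFunLike.coe_injective
  Fintype.ofFinite _

theorem add_eq_sum (f : F →+ F) : ∃ c : (F ≃+* F) → F, ∀ x, f x = ∑ σ, c σ * σ x := by
  letI := ZMod.algebra F 2
  let e : (F ≃ₐ[ZMod 2] F) → F →ₗ[ZMod 2] F := fun σ => σ.toLinearMap
  have hli : LinearIndependent F e := (linearIndependent_toLinearMap (ZMod 2) F F).comp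
    (fun σ : F ≃ₐ[ZMod 2] F => (σ : F →ₐ[ZMod 2] F)) AlgEquiv.coe_toAlgHom_injective
  have hsp := hli.span_eq_top_of_card_eq_finrank' (by
    rw [Module.finrank_linearMap_self, Fintype.card_eq_nat_card, IsGalois.card_aut_eq_finrank])
  obtain ⟨c, hc⟩ := (Submodule.mem_span_range_iff_exists_fun F).1
    (hsp.ge (Submodule.mem_top (x := f.toZModLinearMap 2)))
  let i : (F ≃ₐ[ZMod 2] F) ≃ (F ≃+* F) :=
    { toFun := fun σ => σ.toRingEquiv
      invFun := fun σ => AlgEquiv.ofRingEquiv (f := σ) fun r => by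
        simpa using congrArg (fun g : ZMod 2 →+* F => g r)
          (Subsingleton.elim ((σ : F →+* F).comp (algebraMap _ _)) (algebraMap _ _))
      left_inv := fun _ => rfl
      right_inv := fun _ => rfl }
  refine ⟨fun σ => c (i.symm σ), fun x => ?_⟩
  have := LinearMap.congr_fun hc x
  simp only [LinearMap.coe_sum, Finset.sum_apply, LinearMap.smul_apply, smul_eq_mul] at this
  rw [← i.sum_comp]
  exact this.symm

theorem sum_aut_eq_zero {c : (F ≃+* F) → F} (h : ∀ x, ∑ σ, c σ * σ x = 0) (σ : F ≃+* F) :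
    c σ = 0 := by
  refine linearIndependent_iff'.1 (aut_li (F := F)) univ c (funext fun x => ?_) σ (mem_univ _)
  rw [Finset.sum_apply]
  exact h x

theorem sum_aut2_eq_zero {c : (F ≃+* F) × (F ≃+* F) → F}
    (h : ∀ x y, ∑ p, c p * (p.1 x * p.2 y) = 0) (p : (F ≃+* F) × (F ≃+* F)) : c p = 0 := by
  refine sum_aut_eq_zero (c := fun σ => c (σ, p.2)) (fun x => ?_) p.1
  refine sum_aut_eq_zero (c := fun τ => ∑ σ, c (σ, τ) * σ x) (fun y => ?_) p.2
  rw [← h x y, Fintype.sum_prod_type_right]
  simp only [sum_mul, mul_assoc]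

theorem biadd_eq_sum (B : F →+ F →+ F) :
    ∃ c : (F ≃+* F) × (F ≃+* F) → F, ∀ x y, B x y = ∑ p, c p * (p.1 x * p.2 y) := by
  choose d hd using fun x => add_eq_sum (B x)
  have h1 : ∀ τ x x', d (x + x') τ = d x τ + d x' τ := fun τ x x' => by
    rw [← sub_eq_zero]
    refine sum_aut_eq_zero (c := fun τ => d (x + x') τ - (d x τ + d x' τ)) (fun y => ?_) τ
    simp only [sub_mul, add_mul, sum_sub_distrib, sum_add_distrib, ← hd, map_add,
      AddMonoidHom.add_apply, sub_self]
  choose c hc using fun τ => add_eq_sum (AddMonoidHom.mk' (fun x => d x τ) (h1 τ))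
  refine ⟨fun p => c p.2 p.1, fun x y => ?_⟩
  rw [hd, Fintype.sum_prod_type_right]
  refine sum_congr rfl fun τ _ => ?_
  rw [show d x τ = _ from hc τ x]
  simp only [sum_mul, mul_assoc]

theorem biadd_equiv {ι : Type*} (B : F →+ F →+ F) {a b e : ι → F}
    (h : ∀ k x y, B (a k * x) (b k * y) = e k * B x y) :
    ∃ c : (F ≃+* F) × (F ≃+* F) → F, (∀ x y, B x y = ∑ p, c p * (p.1 x * p.2 y)) ∧
      ∀ p, c p ≠ 0 → ∀ k, p.1 (a k) * p.2 (b k) = e k := by
  obtain ⟨c, hc⟩ := biadd_eq_sum B
  refine ⟨c, hc, fun p hp k => ?_⟩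
  have := sum_aut2_eq_zero (c := fun p => c p * (p.1 (a k) * p.2 (b k) - e k)) (fun x y => by
    have h1 := h k x y
    rw [hc, hc, mul_sum, ← sub_eq_zero, ← sum_sub_distrib] at h1
    rw [← h1]
    exact sum_congr rfl fun p _ => by simp only [map_mul]; ring) p
  exact sub_eq_zero.1 ((mul_eq_zero.1 this).resolve_left hp)

theorem quad_eq_sum (q : F → F)
    (hq : ∀ x y z : F, q (x + y + z) + q (x + y) + q (x + z) + q (y + z) + q x + q y + q z = 0) :
    ∃ c : (F ≃+* F) × (F ≃+* F) → F, ∀ x : F, q x = ∑ p, c p * (p.1 x * p.2 x) := by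
  letI := ZMod.algebra F 2
  have h2 : (2 : F) = 0 := CharTwo.two_eq_zero
  have h0 : q 0 = 0 := by
    have := hq 0 0 0
    simp only [add_zero] at this
    linear_combination this - 3 * q 0 * h2
  have hs : ∀ a : ZMod 2, a = 0 ∨ a = 1 := by decide
  let Q : QuadraticMap (ZMod 2) F F := QuadraticMap.ofPolar q
    (fun a x => by rcases hs a with rfl | rfl <;> simp [h0])
    (fun x x' y => by
      simp only [QuadraticMap.polar]
      linear_combination hq x x' y - (q (x + x') + q (x + y) + q (x' + y)) * h2)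
    (fun a x y => by rcases hs a with rfl | rfl <;> simp [h0, QuadraticMap.polar])
  obtain ⟨B, hB⟩ := LinearMap.BilinMap.toQuadraticMap_surjective Q
  obtain ⟨c, hc⟩ := biadd_eq_sum (LinearMap.toAddMonoidHom'.comp B.toAddMonoidHom)
  exact ⟨c, fun x => by rw [← hc]; exact (DFunLike.congr_fun hB x).symm⟩

end fin
end H8
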