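import Mathlib
import Cfsg.Agent.H8.Jordan2

/-! Generously transitive groups. -/

namespace H8

open MulAction Subgroup
open scoped Pointwise

variable {G : Type*} [Group G] {α : Type*} [MulAction G α]

/-- generous `k`-transitivity -/
def Generous (G α : Type*) [Group G] [MulAction G α] (k : ℕ) : Prop :=
  ∀ s : Finset α, s.card = k + 1 → ∀ σ : Equiv.Perm ↥s, ∃ g : G, ∀ x : ↥s, g • (x : α) = σ x

theorem Generous.exists_smul [Finite α] {k : ℕ} (h : Generous G α k) (hk : k < Nat.card α)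
    (s : Finset α) (hs : s.card ≤ k + 1) (τ : Equiv.Perm α) (hτ : ∀ x ∈ s, τ x ∈ s) :
    ∃ g : G, ∀ x ∈ s, g • x = τ x := by
  classical
  haveI := Fintype.ofFinite α
  obtain ⟨t, hst, -, ht⟩ := Finset.exists_subsuperset_card_eq (Finset.subset_univ s) hs
    (by rw [Finset.card_univ, ← Nat.card_eq_fintype_card]; omega)
  have hτ' : ∀ x, τ x ∈ s ↔ x ∈ s := fun x =>
    ⟨fun hx => by simpa using Equiv.Perm.perm_symm_on_of_perm_on_finset hτ hx, hτ x⟩
  let ρ := Equiv.Perm.ofSubtype (τ.subtypePerm hτ')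
  have hρ : ∀ x, ρ x ∈ t ↔ x ∈ t := fun x => by
    by_cases hx : x ∈ s
    · simp only [ρ, Equiv.Perm.ofSubtype_subtypePerm_of_mem hτ' hx, hst hx, hst (hτ x hx)]
    · simp only [ρ, Equiv.Perm.ofSubtype_apply_of_not_mem _ hx]
  obtain ⟨g, hg⟩ := h t ht (ρ.subtypePerm hρ)
  exact ⟨g, fun x hx => by
    rw [hg ⟨x, hst hx⟩]; exact Equiv.Perm.ofSubtype_subtypePerm_of_mem hτ' hx⟩

theorem Generous.isMPT [Finite α] {k : ℕ} (h : Generous G α k) (hk : k < Nat.card α) :
    IsMultiplyPretransitive G α k := by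
  classical
  refine isMPT_of_fixing fun U hU x y hx hy => ?_
  obtain ⟨g, hg⟩ := h.exists_smul hk (insert x (insert y U)) (by
    have := Finset.card_insert_le x (insert y U)
    have := Finset.card_insert_le y U
    omega) (Equiv.swap x y) (fun z hz => by rw [Equiv.swap_apply_def]; split_ifs <;> simp_all)
  exact ⟨g, fun u hu => by
    rw [hg u (by simp [hu]), Equiv.swap_apply_of_ne_of_ne (ne_of_mem_of_not_mem hu hx)
      (ne_of_mem_of_not_mem hu hy)],
    by rw [hg x (by simp), Equiv.swap_apply_left]⟩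

theorem Generous.exists_fixing [Finite α] {k : ℕ} (h : Generous G α k) (hk : k < Nat.card α)
    (s : Finset α) (hs : s.card ≤ k) {a : α} (ha : a ∉ s) {g : G} (hg : ∀ x ∈ s, g • x ∈ s) :
    ∃ g' : G, (∀ x ∈ s, g' • x = x) ∧ g' • a = g • a := by
  classical
  have hi : ∀ x ∈ s, g⁻¹ • x ∈ s := fun x hx =>
    Equiv.Perm.perm_symm_on_of_perm_on_finset (f := toPerm g) hg hx
  have hb : g • a ∉ s := fun e => ha (by simpa using hi _ e)
  obtain ⟨u, hu⟩ := h.exists_smul hk (insert (g • a) s) (by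
    have := Finset.card_insert_le (g • a) s; omega) (Equiv.swap a (g • a) * toPerm g⁻¹) (by
    intro x hx
    rcases Finset.mem_insert.1 hx with rfl | hx
    · simp
    · have := hi x hx
      rw [Equiv.Perm.mul_apply, toPerm_apply,
        Equiv.swap_apply_of_ne_of_ne (ne_of_mem_of_not_mem this ha) (ne_of_mem_of_not_mem this hb)]
      exact Finset.mem_insert_of_mem this)
  refine ⟨u * g, fun x hx => ?_, ?_⟩
  · rw [mul_smul, hu _ (Finset.mem_insert_of_mem (hg x hx)), Equiv.Perm.mul_apply, toPerm_apply,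
      inv_smul_smul, Equiv.swap_apply_of_ne_of_ne (ne_of_mem_of_not_mem hx ha)
        (ne_of_mem_of_not_mem hx hb)]
  · rw [mul_smul, hu _ (Finset.mem_insert_self _ _)]; simp

theorem Generous.exists_dvd [Finite α] [Finite G] {k : ℕ} (h : Generous G α k)
    (hk : k < Nat.card α) {p : ℕ} (hp : p.Prime) (hpk : p ≤ k) (Γ : Finset α) (hΓ : Γ.card = k)
    (f : Fin p → α) (hf : ∀ i, f i ∉ Γ)
    (hdist : ∀ i j, i ≠ j → f j ∉ orbit (fixingSubgroup G (Γ : Set α)) (f i)) :
    ∃ i, p ∣ Nat.card (orbit (fixingSubgroup G (Γ : Set α)) (f i)) := by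
  classical
  haveI := Fact.mk hp
  haveI := Fintype.ofFinite α
  by_contra hno
  push Not at hno
  set K := fixingSubgroup G (Γ : Set α) with hK
  obtain ⟨T, hT, hTc⟩ := Finset.exists_subset_card_eq (hΓ ▸ hpk : p ≤ Γ.card)
  let H : Subgroup G := stabilizer G (Γ : Set α) ⊓ fixingSubgroup G ((Γ \ T : Finset α) : Set α)
  have hKH : K ≤ H := le_inf (fixingSubgroup_le_stabilizer G _)
    (fixingSubgroup_antitone G α (by simp))
  have hHΓ : ∀ g ∈ H, ∀ x ∈ Γ, g • x ∈ Γ := fun g hg x hx => by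
    have : g • x ∈ g • (Γ : Set α) := Set.smul_mem_smul_set hx
    rwa [mem_stabilizer_iff.1 hg.1] at this
  obtain ⟨Q⟩ : Nonempty (Sylow p H) := inferInstance
  have hQ : IsPGroup p (Q.1.map H.subtype) := Q.2.map _
  have hfix : ∀ i, ∃ e ∈ orbit K (f i), ∀ g ∈ Q.1.map H.subtype, g • e = e := fun i =>
    exists_fixed_of_isPGroup hQ (orbit K (f i)) (by
      rintro _ ⟨g, -, rfl⟩ _ ⟨u, rfl⟩
      obtain ⟨w, hw, e⟩ := h.exists_fixing hk Γ hΓ.le (hf i) (hHΓ _ (mul_mem g.2 (hKH u.2)))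
      exact ⟨⟨w, (mem_fixingSubgroup_iff G).2 hw⟩, e.trans (mul_smul _ _ _)⟩)
      (by rw [← Nat.card_coe_set_eq]; exact hno i)
  choose e he hQe using hfix
  have heΓ : ∀ i, e i ∉ Γ := fun i hi => by
    obtain ⟨u, hu⟩ := he i
    have := (mem_fixingSubgroup_iff G).1 u.2 _ hi
    rw [← hu] at hi this
    exact hf i (MulAction.injective (u : G) this ▸ hi)
  have heinj : Function.Injective e := fun i j hij => by
    by_contra hne
    exact hdist i j hne (by
      rw [← orbit_eq_iff.2 (he i), hij, orbit_eq_iff.2 (he j)]; exact mem_orbit_self _)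
  let Γ' : Finset α := (Γ \ T) ∪ Finset.univ.image e
  have hΓ' : Γ'.card = k := by
    rw [Finset.card_union_of_disjoint, Finset.card_sdiff_of_subset hT,
      Finset.card_image_of_injective _ heinj]
    · simp only [Finset.card_univ, Fintype.card_fin]; omega
    · rw [Finset.disjoint_right]
      intro x hx hx'
      obtain ⟨i, -, rfl⟩ := Finset.mem_image.1 hx
      exact heΓ i (Finset.mem_sdiff.1 hx').1
  have hQle : Q.1.map H.subtype ≤ fixingSubgroup G (Γ' : Set α) := by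
    intro g hg
    rw [mem_fixingSubgroup_iff]
    intro x hx
    rcases Finset.mem_union.1 hx with hx | hx
    · obtain ⟨g, -, rfl⟩ := hg
      exact (mem_fixingSubgroup_iff G).1 g.2.2 x hx
    · obtain ⟨i, -, rfl⟩ := Finset.mem_image.1 hx
      exact hQe i g hg
  have hd : Nat.card Q.1 ∣ Nat.card K := by
    rw [← card_map_of_injective (K := Q.1) H.subtype_injective, hK,
      card_fixingSubgroup_eq_of_isMPT (h.isMPT hk) hk.le Γ Γ' hΓ.le (by omega)]
    exact card_dvd_of_le hQle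
  have hidx : ¬ p ∣ (K.subgroupOf H).index := by
    intro hpd
    apply Q.not_dvd_index
    have h1 := (K.subgroupOf H).card_mul_index
    have h2 := Q.1.card_mul_index
    rw [Nat.card_congr (subgroupOfEquivOfLe hKH).toEquiv, ← h2] at h1
    obtain ⟨c, hc⟩ := hd
    rw [hc, mul_assoc] at h1
    rw [← Nat.eq_of_mul_eq_mul_left Nat.card_pos h1]
    exact hpd.mul_left c
  obtain ⟨τ, hτ, hτs⟩ := Finset.exists_cycleOn T
  have hτΓ : ∀ x ∈ Γ, τ x ∈ Γ := fun x hx => by
    by_cases hxT : x ∈ T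
    · exact hT (hτ.1.mapsTo hxT)
    · rwa [Equiv.Perm.notMem_support.1 fun e => hxT (hτs e)]
  obtain ⟨x, hx⟩ := h.exists_smul hk Γ (by omega) τ hτΓ
  have hxn : ∀ (n : ℕ), ∀ y ∈ Γ, x ^ n • y = (τ ^ n) y := fun n => by
    induction n with
    | zero => simp
    | succ n ih => intro y hy; rw [pow_succ, mul_smul, hx y hy, ih _ (hτΓ y hy), pow_succ]; rfl
  have hxH : x ∈ H := by
    refine ⟨mem_stabilizer_iff.2 (Set.eq_of_subset_of_ncard_le ?_ (by rw [Set.ncard_smul_set])), ?_⟩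
    · rintro _ ⟨y, hy, rfl⟩
      exact (show x • y ∈ Γ from hx y hy ▸ hτΓ y hy)
    · refine (mem_fixingSubgroup_iff G).2 fun y hy => ?_
      have hy' := Finset.mem_sdiff.1 hy
      rw [hx y hy'.1, Equiv.Perm.notMem_support.1 fun e => hy'.2 (hτs e)]
  haveI : (K.subgroupOf H).Normal := ⟨fun n hn g => (mem_fixingSubgroup_iff G).2 fun y hy => by
    show ((g : G) * n * (g : G)⁻¹) • y = y
    rw [mul_smul, mul_smul, (mem_fixingSubgroup_iff G).1 (show (n : G) ∈ K from hn) _
      (hHΓ _ (inv_mem g.2) y hy), smul_inv_smul]⟩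
  have hm : x ^ (K.subgroupOf H).index ∈ K := (K.subgroupOf H).pow_index_mem ⟨x, hxH⟩
  obtain ⟨y, hy⟩ := Finset.card_pos.1 (hTc ▸ hp.pos : 0 < T.card)
  have := (mem_fixingSubgroup_iff G).1 hm y (hT hy)
  rw [hxn _ y (hT hy), hτ.pow_apply_eq hy, hTc] at this
  exact hidx this

theorem generous_of_swaps {k : ℕ} [DecidableEq α]
    (h : ∀ s : Finset α, s.card = k + 1 → ∀ a ∈ s, ∀ b ∈ s, a ≠ b →
      ∃ g : G, ∀ x ∈ s, g • x = Equiv.swap a b x) : Generous G α k := by
  intro s hs σ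
  induction σ using Equiv.Perm.swap_induction_on with
  | one => exact ⟨1, by simp⟩
  | swap_mul f x y hxy ih =>
    obtain ⟨g, hg⟩ := ih
    obtain ⟨u, hu⟩ := h s hs x x.2 y y.2 fun e => hxy (Subtype.ext e)
    exact ⟨u * g, fun z => by
      rw [mul_smul, hg, hu _ (f z).2, Equiv.Perm.mul_apply, Subtype.val_injective.swap_apply]⟩

end H8
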