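import Mathlib
import Cfsg.Agent.H8.JK
import Cfsg.Agent.H8.Jordan
import Cfsg.Agent.H8.Perm3
import Cfsg.Agent.H8.PermBasic

set_option autoImplicit false

namespace H8
open MulAction Pointwise

theorem alt_of_small {G Ω : Type*} [Group G] [MulAction G Ω] [FaithfulSMul G Ω] [Fintype Ω]
    [DecidableEq Ω] (h4 : IsMultiplyPretransitive G Ω 4) (c8 : 8 ≤ Nat.card Ω) {e : G} (e1 : e ≠ 1)
    (he : {y : Ω | e • y ≠ y}.ncard ≤ 4) : alternatingGroup Ω ≤ (toPermHom G Ω).range := by
  classical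
  have prim := isPreprimitive_range (isPreprimitive_of_is_two_pretransitive
    (isMultiplyPretransitive_of_le (G := G) (α := Ω) (n := 4) (by omega) (by omega)))
  set S := {y : Ω | e • y ≠ y}
  obtain ⟨a, ha⟩ : ∃ a : Ω, e • a ≠ a := by
    by_contra h
    push Not at h
    exact e1 (eq_of_smul_eq_smul fun x : Ω => by simp [h])
  have := Set.ncard_add_ncard_compl S
  obtain ⟨h⟩ := Function.Embedding.nonempty_of_card_le (show Fintype.card S ≤
    Fintype.card (Sᶜ : Set Ω) by
      simp only [← Nat.card_eq_fintype_card, Nat.card_coe_set_eq]; omega)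
  obtain ⟨g, hg⟩ := exists_smul_eq_of_isMPT h4 (by omega) (ι := S) he Subtype.val_injective
    (y := fun j => if j.1 = a then a else h j) fun j j' e => by
      by_cases a' : j.1 = a <;> by_cases b : j'.1 = a <;> simp only [a', b, if_true, if_false] at e
      · exact Subtype.ext (a'.trans b.symm)
      · exact ((h j').2 (e ▸ ha)).elim
      · exact ((h j).2 (e ▸ ha)).elim
      · exact h.injective (Subtype.ext e)
  have gi : g⁻¹ • a = a := by rw [inv_smul_eq_iff]; simpa using (hg ⟨a, ha⟩).symm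
  refine alternating_le_of_support_inter _ prim (a := a) ⟨e, rfl⟩
    ⟨g * e * g⁻¹, rfl⟩ (fun x h1 h2 => ?_) ha fun h => ha ?_
  · have hj : g⁻¹ • x ∈ S := fun h => h2 (by simp [mul_smul, h])
    have := hg ⟨_, hj⟩
    simp only [smul_inv_smul] at this
    split_ifs at this with b
    · exact this
    · exact ((h ⟨_, hj⟩).2 (this ▸ h1)).elim
  · have : (g * e * g⁻¹) • a = a := h
    rwa [mul_smul, mul_smul, gi, ← eq_inv_smul_iff, gi] at this

variable {N Ω : Type*} [Group N] [Finite N] [MulAction N Ω] [Finite Ω] {r k : ℕ}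

theorem jk_core2 [FaithfulSMul N Ω] (hr : r.Prime) (hk : k < r) (R : Subgroup N)
    [hn : R.Normal] (hR : IsPGroup r R) (F : Set Ω) (hF : ∀ y, y ∈ F ↔ ∀ x ∈ R, x • y = y)
    (hΔ : Fᶜ.ncard = k * r) : ∃ M : Subgroup N, M.Normal ∧ M.index ≤ k.factorial ∧
    ∀ c ∈ M, ∀ d ∈ M, ∀ y ∉ F, ((d * c)⁻¹ * (c * d)) ^ r • y = y := by
  classical
  haveI := Fact.mk hr
  haveI := Fintype.ofFinite Ω
  have iF : ∀ g : N, ∀ y ∉ F, g • y ∉ F := fun g y hy h => hy ((hF y).2 fun x hx => by
    simpa [mul_smul] using (hF _).1 h _ (hn.conj_mem x hx g))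
  have ix := fun y (hy : y ∉ F) => jk_index hr hk hR hF hΔ iF hy
  have nm : ∀ y ∉ F, (stabilizer R y).Normal := fun y hy => by
    obtain ⟨a, ha⟩ := hR.exists_card_eq
    refine Subgroup.normal_of_index_eq_minFac_card ?_
    rw [ix y hy, ha, hr.pow_minFac]
    rintro rfl
    have := (stabilizer R y).index_dvd_card
    rw [ix y hy, ha, pow_zero] at this
    exact hr.one_lt.ne' (Nat.dvd_one.1 this)
  have fo : ∀ y ∉ F, ∀ x ∈ R, x • y = y → ∀ z ∈ orbit R y, x • z = z := fun y hy x hx h z hz => by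
    obtain ⟨u, rfl⟩ := hz
    have := (nm y hy).conj_mem ⟨x, hx⟩ h u⁻¹
    simpa [mul_smul, Subgroup.smul_def, inv_smul_eq_iff] using this
  have ex : ∀ x ∈ R, x ^ r = 1 := fun x hx => eq_of_smul_eq_smul fun z : Ω => by
    by_cases hz : z ∈ F
    · simpa using (hF z).1 hz _ (R.pow_mem hx r)
    · haveI := nm z hz
      have := (stabilizer R z).pow_index_mem ⟨x, hx⟩
      rw [ix z hz] at this
      simpa [Subgroup.smul_def] using this
  have co : ∀ y ∉ F, (orbit R y).ncard = r := fun y hy => by rw [← index_stabilizer, ix y hy]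
  let O : SubMulAction N (Set Ω) := ⟨(fun y => orbit R y) '' Fᶜ, by
    rintro g _ ⟨y, hy, rfl⟩
    exact ⟨_, iF g y hy, (smul_orbit_eq_orbit_smul R y g).symm⟩⟩
  have cO : Nat.card O ≤ k := by
    have := Finset.mul_card_image_le_card (f := fun y => orbit R y) Fᶜ.toFinset r fun b hb => by
      obtain ⟨y, hy, rfl⟩ := Finset.mem_image.1 hb
      rw [Set.mem_toFinset] at hy
      rw [← co y hy, ← Set.ncard_coe_finset]
      refine Set.ncard_le_ncard ?_
      rintro _ ⟨g, rfl⟩
      simpa using show g • y ∉ F from iF g y hy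
    rw [← Set.ncard_eq_toFinset_card', hΔ, ← Set.ncard_coe_finset, Finset.coe_image,
      Set.coe_toFinset, mul_comm] at this
    exact Nat.le_of_mul_le_mul_right this hr.pos
  let M := (toPermHom N O).ker
  have c0 : ∀ c ∈ M, ∀ y ∉ F, c • y ∈ orbit R y := fun c hc y hy => by
    have : c • orbit R y = orbit R y :=
      congrArg Subtype.val (DFunLike.congr_fun hc (⟨_, y, hy, rfl⟩ : O))
    exact this ▸ Set.smul_mem_smul_set (mem_orbit_self y)
  refine ⟨M, inferInstance, ?_, fun c hc d hd y hy => ?_⟩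
  · rw [Subgroup.index_ker]
    refine (Nat.card_le_card_of_injective _ Subtype.val_injective).trans ?_
    rw [Nat.card_perm]
    exact Nat.factorial_le cO
  have lam : ∀ z ∉ F, ∀ [(stabilizer R z).Normal], ∀ c ∈ M, ∃ l : ℤ, ∀ x : R,
      (QuotientGroup.mk (MulAut.conjNormal c x) : R ⧸ stabilizer R z) =
        (QuotientGroup.mk x : R ⧸ stabilizer R z) ^ l := fun z hz _ c hc => by
    haveI := isCyclic_of_prime_card (α := R ⧸ stabilizer R z) (ix z hz)
    obtain ⟨l, hl⟩ := (QuotientGroup.map (stabilizer R z) (stabilizer R z)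
      (MulAut.conjNormal (H := R) c).toMonoidHom fun x hx => show (c * x * c⁻¹) • z = z by
        rw [mul_smul, mul_smul, fo z hz x x.2 hx _ (c0 _ (M.inv_mem hc) z hz),
          smul_inv_smul]).map_cyclic
    exact ⟨l, fun x => hl (QuotientGroup.mk x)⟩
  obtain ⟨w, dw⟩ := c0 _ (M.mul_mem (M.inv_mem (M.mul_mem hd hc)) (M.mul_mem hc hd)) y hy
  have cm : Commute ((d * c)⁻¹ * (c * d)) w := by
    have : MulAut.conjNormal c (MulAut.conjNormal d w) =
        MulAut.conjNormal d (MulAut.conjNormal c w) := by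
      refine inv_mul_eq_one.1 (Subtype.ext (eq_of_smul_eq_smul fun z : Ω => ?_))
      by_cases hz : z ∈ F
      · exact ((hF z).1 hz _ (Subtype.prop _)).trans (one_smul ..).symm
      haveI := nm z hz
      obtain ⟨l, hl⟩ := lam z hz c hc
      obtain ⟨m, hm⟩ := lam z hz d hd
      exact (QuotientGroup.eq.1 (show (QuotientGroup.mk _ : R ⧸ stabilizer R z) = _ by
        rw [hl, hm, hm, hl, ← zpow_mul, ← zpow_mul, mul_comm])).trans (one_smul ..).symm
    have : c * (d * w * d⁻¹) * c⁻¹ = d * (c * w * c⁻¹) * d⁻¹ := congrArg Subtype.val this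
    rw [Commute, SemiconjBy]
    calc _ = (d * c)⁻¹ * (c * (d * w * d⁻¹) * c⁻¹) * (c * d) := by group
      _ = _ := by rw [this]; group
  replace dw : ((d * c)⁻¹ * (c * d)) • y = (w : N) • y := dw.symm
  generalize (d * c)⁻¹ * (c * d) = e at dw cm ⊢
  have : ∀ j : ℕ, e ^ j • y = (w : N) ^ j • y := fun j => by
    induction j with
    | zero => simp
    | succ j ih => rw [pow_succ, mul_smul, dw, ← mul_smul, (cm.pow_left j).eq, mul_smul, ih,
        ← mul_smul, ← pow_succ']
  rw [this, ex w w.2, one_smul]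

end H8
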