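import Cfsg.Agent.H8.MG

/-! Involution centralizers in the simple group of order 7920. -/

set_option autoImplicit false
set_option linter.style.haveILetI false
set_option linter.unusedSectionVars false

namespace H8
open Cfsg H9 Subgroup Equiv MulAction MD Matrix

namespace MH

def rv : Fin 12 → Fin 2 → ZMod 3 := ![![1, 0], ![0, 1], ![1, 0], ![1, 2], ![1, 1], ![2, 1], ![2, 2],
  ![2, 0], ![1, 2], ![0, 1], ![0, 2], ![1, 1]]
def fx (i : Fin 12) : Bool := i == 0 || i == 3 || i == 9 || i == 11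
def dc (b : Bool) (v : Fin 2 → ZMod 3) : Fin 12 :=
  if b then ![![0, 9, 9], ![0, 11, 3], ![0, 3, 11]] (v 0) (v 1)
  else ![![0, 1, 10], ![2, 4, 8], ![7, 5, 6]] (v 0) (v 1)

theorem rv_ne : ∀ i, rv i ≠ 0 := by decide
theorem dc_rv : ∀ i, dc (fx i) (rv i) = i := by decide
theorem dc_spec : ∀ b, ∀ v : Fin 2 → ZMod 3, v ≠ 0 → fx (dc b v) = b ∧
    (rv (dc b v) = v ∨ b = true ∧ rv (dc b v) = -v) ∧ dc true (-v) = dc true v := by decide

/-- the action of `GL(2,3)` on vectors and lines -/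
@[reducible] def act : MulAction (GL (Fin 2) (ZMod 3)) (Fin 12) where
  smul M i := dc (fx i) (M.1 *ᵥ rv i)
  one_smul i := by
    change dc (fx i) ((1 : Matrix _ _ _) *ᵥ rv i) = i
    rw [one_mulVec, dc_rv]
  mul_smul M N i := by
    change dc (fx i) ((M.1 * N.1) *ᵥ rv i) =
      dc (fx (dc (fx i) (N.1 *ᵥ rv i))) (M.1 *ᵥ rv (dc (fx i) (N.1 *ᵥ rv i)))
    have k : ∀ (M : GL (Fin 2) (ZMod 3)) v, v ≠ 0 → M.1 *ᵥ v ≠ 0 := fun M v h e => h (by
      rw [← one_mulVec v, ← M.inv_mul, ← mulVec_mulVec, e, mulVec_zero])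
    obtain ⟨h1, h2, -⟩ := dc_spec (fx i) _ (k N _ (rv_ne i))
    rw [h1, ← mulVec_mulVec]
    rcases h2 with e | ⟨e1, e⟩
    · rw [e]
    · rw [e, e1, mulVec_neg, (dc_spec true _ (k M _ (k N _ (rv_ne i)))).2.2]

def psi : GL (Fin 2) (ZMod 3) →* Perm (Fin 12) := @toPermHom _ _ _ act

theorem psi_apply (M : GL (Fin 2) (ZMod 3)) (i : Fin 12) : psi M i = dc (fx i) (M.1 *ᵥ rv i) := rfl

def g8 : GL (Fin 2) (ZMod 3) := ⟨!![1, 1; 1, 0], !![0, 1; 1, 2], by decide, by decide⟩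
def g2 : GL (Fin 2) (ZMod 3) := ⟨!![2, 0; 1, 1], !![2, 0; 1, 1], by decide, by decide⟩
def g3 : GL (Fin 2) (ZMod 3) := ⟨!![1, 1; 0, 1], !![1, 2; 0, 1], by decide, by decide⟩

theorem psi8 : psi g8 = mA ^ 3 * mW ^ 3 := by decide +kernel
theorem psi2 : psi g2 = mA * mW * mA * mW ^ 3 * mA * mW ^ 3 := by decide +kernel
theorem psi3 : psi g3 = mW * mA ^ 2 * mW ^ 2 * mA * mW ^ 3 := by decide +kernel

theorem card_gl : Nat.card (GL (Fin 2) (ZMod 3)) = 48 := by
  rw [Matrix.card_GL_field]; simp [Fin.prod_univ_succ]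

theorem mem_l (M : GL (Fin 2) (ZMod 3)) :
    M ∈ (List.range 48).map fun i => g8 ^ (i / 6) * g2 ^ (i % 2) * g3 ^ (i % 3) :=
  mem_of_nodup psi (S := ⊤) (fun _ _ => mem_top _) (by
    simp only [List.map_map, Function.comp_def, map_mul, map_pow, psi8, psi2, psi3]
    decide +kernel) (by rw [card_top, card_gl]; rfl) (mem_top M)

theorem psi_inj : Function.Injective psi := by
  rw [injective_iff_map_eq_one]
  intro M h
  obtain ⟨i, hi, rfl⟩ := List.mem_map.1 (mem_l M)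
  have : ∀ i ∈ List.range 48, psi (g8 ^ (i / 6) * g2 ^ (i % 2) * g3 ^ (i % 3)) = 1 → i = 0 := by
    simp only [map_mul, map_pow, psi8, psi2, psi3]
    decide +kernel
  simp [this i hi h]

end MH
open MH

theorem m11_cen2 {G : Type*} [Group G] [Finite G] [IsSimpleGroup G] (hN : Nat.card G = 7920) {x : G}
    (hx : orderOf x = 2) : Nonempty (cen1 x ≃* GL (Fin 2) (ZMod 3)) := by
  obtain ⟨f, inj, hf⟩ := m11_rep hN
  have ha : mA ∈ f.range := hf ▸ subset_closure (by simp)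
  have hw : mW ∈ f.range := hf ▸ subset_closure (by simp)
  have h1 : ∀ M, psi M ∈ f.range := fun M => by
    obtain ⟨i, -, rfl⟩ := List.mem_map.1 (mem_l M)
    simp only [map_mul, map_pow, psi8, psi2, psi3]
    repeat first | assumption | apply mul_mem | apply pow_mem
  let θ : GL (Fin 2) (ZMod 3) →* G :=
    (MonoidHom.ofInjective inj).symm.toMonoidHom.comp (psi.codRestrict _ h1)
  have i2 : Function.Injective θ := (MonoidHom.ofInjective inj).symm.injective.comp
    fun a b e => psi_inj (congrArg Subtype.val e)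
  have o2 : orderOf (θ (-1)) = 2 := by
    rw [orderOf_injective θ i2]; exact orderOf_eq_prime (by simp) (by decide)
  obtain ⟨χ, -, -, -, h⟩ := m11_chi hN
  have e : θ.range = cen1 (θ (-1)) := eq_of_le_of_card_ge (by
    rintro _ ⟨M, rfl⟩
    exact mem_centralizer_singleton_iff.2 (by rw [← map_mul, ← map_mul]; simp)) (by
      rw [(h _ o2).2, ← Nat.card_congr (MonoidHom.ofInjective i2).toEquiv, card_gl])
  obtain ⟨g, rfl⟩ := isConj_iff.1 (m11_cls2 hN o2 hx)
  exact ⟨(MulEquiv.subgroupCongr (centralizer_conj g _)).trans ((equivSMul _ _).symm.trans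
    ((MulEquiv.subgroupCongr e.symm).trans (MonoidHom.ofInjective i2).symm))⟩

end H8
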