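import Cfsg.Agent.H8.PD2

/-! Symmetric difference sets in groups of prime order are trivial. -/

set_option autoImplicit false
set_option linter.style.haveILetI false

namespace H8
open MonoidAlgebra

theorem sq_const {K : Type*} [CommGroup K] [Fintype K] {p : ℕ} [hp : Fact p.Prime]
    (hK : Nat.card K = p) (p2 : p ≠ 2) {f : K → ZMod p} (k0 : ∑ x, f x ≠ 0) {l : ZMod p}
    (h : ∀ z, z ≠ 1 → ∑ c, f c * f (c⁻¹ * z) = l) : ∃ c, ∀ y, y ≠ 1 → f y = c := by
  classical
  have two : (2 : ZMod p) ≠ 0 := fun e => p2 ((Nat.prime_dvd_prime_iff_eq hp.1 Nat.prime_two).1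
    ((ZMod.natCast_eq_zero_iff 2 p).1 e))
  haveI : CharP (MonoidAlgebra (ZMod p) K) p := charP_of_injective_algebraMap' (ZMod p) p
  set k := ∑ x, f x with hk
  let F : MonoidAlgebra (ZMod p) K := ∑ x, single x (f x)
  let U : MonoidAlgebra (ZMod p) K := ∑ x, single x l
  have cF : ∀ x, F.coeff x = f x := fun x => by simp [F, Finsupp.single_apply]
  have cU : ∀ x, U.coeff x = l := fun x => by simp [U, Finsupp.single_apply]
  have s : ∑ z, ∑ c, f c * f (c⁻¹ * z) = k * k := by
    rw [Finset.sum_comm, Finset.sum_mul]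
    exact Finset.sum_congr rfl fun c _ => by
      rw [← Finset.mul_sum, hk, ← Equiv.sum_comp (Equiv.mulLeft c⁻¹) f]; rfl
  rw [← Finset.add_sum_erase _ _ (Finset.mem_univ 1), Finset.sum_congr rfl fun z hz =>
    h z (Finset.ne_of_mem_erase hz), Finset.sum_const, Finset.card_erase_of_mem (Finset.mem_univ _),
    Finset.card_univ, ← Nat.card_eq_fintype_card, hK, nsmul_eq_mul, Nat.cast_pred hp.1.pos,
    ZMod.natCast_self] at s
  have e : (F + single 1 k) * (F - single 1 k) = U := by
    rw [← mul_self_sub_mul_self, single_mul_single]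
    ext z
    simp only [coeff_sub, Finsupp.sub_apply, coeff_mul_apply_left, Finsupp.sum_fintype, zero_mul,
      implies_true, cF, cU, coeff_single, mul_one]
    by_cases e : z = 1
    · subst e
      rw [Finsupp.single_eq_same]
      linear_combination s
    · simp [h z e, e]
  have g : (F + single 1 k) ^ p = single 1 (2 * k) := by
    simp only [add_pow_char, F, sum_pow_char, single_pow, ZMod.pow_card, one_pow,
      show ∀ x : K, x ^ p = 1 from fun x => hK ▸ pow_card_eq_one']
    rw [two_mul, single_add, hk, ← singleAddHom_apply 1 (∑ x, f x), map_sum]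
    rfl
  refine ⟨(2 * k)⁻¹ * ∑ c, ((F + single 1 k) ^ (p - 1)).coeff c * l, fun y hy => ?_⟩
  have := congrArg (fun X => ((F + single 1 k) ^ (p - 1) * X).coeff y) e
  simp only [← mul_assoc, ← pow_succ, Nat.sub_add_cancel hp.1.pos, g, coeff_single_one_mul] at this
  rw [eq_inv_mul_iff_mul_eq₀ (mul_ne_zero two k0)]
  simpa [coeff_mul_apply_left, Finsupp.sum_fintype, cU, cF, hy] using this

end H8
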