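import Mathlib
import Cfsg.Prelude.Def_LieRecognition
import Cfsg.Agent.H8.Zas6
import Cfsg.Agent.H8.Dihedral

set_option autoImplicit false
set_option linter.unusedSectionVars false

namespace H8
open Cfsg Subgroup MulAction
open scoped IsMulCommutative

variable {G Ω : Type*} [Group G]

theorem sqrt_inv_odd {t k : G} {D : Subgroup G} (hD : Odd (Nat.card D)) (hk : k ∈ D)
    (ht : t * k * t⁻¹ = k⁻¹) : ∃ l ∈ D, l * l = k ∧ t * l * t⁻¹ = l⁻¹ := by
  obtain ⟨m, hm⟩ := hD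
  have h1 : k ^ Nat.card D = 1 := by
    have := pow_card_eq_one' (x := (⟨k, hk⟩ : D))
    exact congrArg Subtype.val this
  refine ⟨k ^ (m + 1), pow_mem hk _, ?_, ?_⟩
  · rw [← pow_add, show m + 1 + (m + 1) = (2 * m + 1) + 1 by ring, pow_succ, ← hm, h1, one_mul]
  · rw [← conj_pow, ht, inv_pow]

theorem eq_of_sq_eq_of_odd {x y : G} (hx : Odd (orderOf x)) (hy : Odd (orderOf y))
    (h : x * x = y * y) : x = y := by
  obtain ⟨m, hm⟩ := hx.mul hy
  have h1 : x ^ (2 * m + 1) = 1 := by rw [← hm, pow_mul, pow_orderOf_eq_one, one_pow]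
  have h2 : y ^ (2 * m + 1) = 1 := by rw [← hm, mul_comm, pow_mul, pow_orderOf_eq_one, one_pow]
  calc x = x ^ (2 * m + 1) * x := by rw [h1, one_mul]
    _ = (x * x) ^ (m + 1) := by rw [← sq, ← pow_mul, ← pow_succ]; ring_nf
    _ = y ^ (2 * m + 1) * y := by rw [h, ← sq, ← pow_mul, ← pow_succ]; ring_nf
    _ = y := by rw [h2, one_mul]

theorem odd_orderOf_of_mem {D : Subgroup G} (hD : Odd (Nat.card D)) {x : G} (hx : x ∈ D) :
    Odd (orderOf x) := hD.of_dvd_nat (H7.orderOf_dvd_card' hx)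

theorem commute_of_sq_of_odd {k x : G} (hk : Odd (orderOf k)) (h : k * k * x = x * (k * k)) :
    k * x = x * k := by
  obtain ⟨m, hm⟩ := hk
  have h1 : k = (k * k) ^ (m + 1) := by
    rw [← sq, ← pow_mul, show 2 * (m + 1) = 2 * m + 1 + 1 by ring, pow_succ, ← hm,
      pow_orderOf_eq_one, one_mul]
  rw [h1]
  exact Commute.pow_left h _

/-- Decomposition of a group of odd order under an involution. -/
theorem exists_cen_mul_inv {t : G} (ht : t * t = 1) {X : Subgroup G} (hodd : Odd (Nat.card X))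
    (hn : ∀ x ∈ X, t * x * t⁻¹ ∈ X) {x : G} (hx : x ∈ X) :
    ∃ y ∈ X, ∃ z ∈ X, t * y = y * t ∧ t * z * t⁻¹ = z⁻¹ ∧ x = y * z := by
  have hti : t⁻¹ = t := inv_eq_of_mul_eq_one_right ht
  obtain ⟨z, hz, e, hzi⟩ := sqrt_inv_odd (t := t) (k := (t * x * t⁻¹)⁻¹ * x) hodd
    (mul_mem (inv_mem (hn x hx)) hx) (by
      rw [hti]
      calc t * ((t * x * t)⁻¹ * x) * t = t * t⁻¹ * x⁻¹ * t⁻¹ * x * t := by group
        _ = _ := by rw [hti, ht]; simp [mul_assoc])
  refine ⟨x * z⁻¹, mul_mem hx (inv_mem hz), z, hz, ?_, hzi, by group⟩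
  have h1 : t * z⁻¹ * t⁻¹ = z := by rw [← conj_inv, hzi, inv_inv]
  calc t * (x * z⁻¹) = (t * x * t⁻¹) * (t * z⁻¹ * t⁻¹) * t := by group
    _ = (t * x * t⁻¹) * (z * z) * z⁻¹ * t := by rw [h1]; group
    _ = _ := by rw [e]; group

theorem cen_mul_inv_unique {t : G} {X : Subgroup G} (hodd : Odd (Nat.card X)) {y y' z z' : G}
    (hz : z ∈ X) (hz' : z' ∈ X) (h1 : t * y = y * t) (h1' : t * y' = y' * t)
    (h2 : t * z * t⁻¹ = z⁻¹) (h2' : t * z' * t⁻¹ = z'⁻¹) (e : y * z = y' * z') :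
    y = y' ∧ z = z' := by
  have aux : ∀ y z : G, t * y = y * t → t * z * t⁻¹ = z⁻¹ →
      (t * (y * z) * t⁻¹)⁻¹ * (y * z) = z * z := fun y z h1 h2 => by
    rw [show t * (y * z) * t⁻¹ = (t * y) * t⁻¹ * (t * z * t⁻¹) by group, h1, h2]; group
  have h3 : z = z' := eq_of_sq_eq_of_odd (odd_orderOf_of_mem hodd hz) (odd_orderOf_of_mem hodd hz')
    (by rw [← aux y z h1 h2, ← aux y' z' h1' h2', e])
  subst h3
  exact ⟨mul_right_cancel e, rfl⟩

variable [MulAction G Ω] {a : Ω} {t : G} {Q : Subgroup G}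

namespace R1
variable (hS : IsRankOneSetup G Ω a t Q)
include hS

theorem ne : t • a ≠ a := hS.not_mem
theorem ne' : a ≠ t • a := hS.not_mem ∘ Eq.symm
theorem tt (x : Ω) : t • t • x = x := by rw [← mul_smul, hS.mul_self, one_smul]
theorem sw : Sw t a (t • a) := ⟨rfl, tt hS a⟩
theorem tinv : t⁻¹ = t := inv_eq_of_mul_eq_one_right hS.mul_self
theorem fix {q : G} (hq : q ∈ Q) : q • a = a := hS.le hq
theorem oddD : Odd (Nat.card (S2 G a (t • a))) := hS.odd_card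

theorem two {x y c d : Ω} (h1 : x ≠ y) (h2 : c ≠ d) : ∃ g : G, g • x = c ∧ g • y = d :=
  exists_two_of_isMPT hS.two_transitive h1 h2

theorem trans (x y : Ω) : ∃ g : G, g • x = y := by
  haveI : Nontrivial Ω := ⟨a, _, ne' hS⟩
  obtain ⟨x', hx⟩ := exists_ne x
  obtain ⟨y', hy⟩ := exists_ne y
  obtain ⟨g, hg, -⟩ := two hS hx.symm hy.symm
  exact ⟨g, hg⟩

theorem pretrans : IsPretransitive G Ω := ⟨trans hS⟩

theorem fin [Finite G] : Finite Ω :=
  Finite.of_surjective (fun g : G => g • a) fun y => trans hS a y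

theorem decomp {h : G} (hh : h • a = a) : ∃ q ∈ Q, ∃ d ∈ S2 G a (t • a), h = q * d := by
  have h1 : h ∈ Q ⊔ S2 G a (t • a) := by rw [hS.sup_eq]; exact hh
  have h2 : S2 G a (t • a) ≤ normalizer (Q : Set G) := fun d hd => by
    rw [mem_normalizer_iff]
    refine fun x => ⟨hS.conj_mem d hd.1 x, fun hx => ?_⟩
    have := hS.conj_mem d⁻¹ (inv_mem hd.1) _ hx
    simpa [mul_assoc] using this
  have h3 : (h : G) ∈ ((Q ⊔ S2 G a (t • a) : Subgroup G) : Set G) := h1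
  rw [coe_mul_of_right_le_normalizer_left _ _ h2] at h3
  obtain ⟨q, hq, d, hd, e⟩ := h3
  exact ⟨q, hq, d, hd, e.symm⟩

theorem reg {q : G} (hq : q ∈ Q) {c : Ω} (hc : c ≠ a) (e : q • c = c) : q = 1 := by
  obtain ⟨h, h1, h2⟩ := two hS (ne' hS) hc.symm
  have h3 : h⁻¹ * q * h⁻¹⁻¹ ∈ Q ⊓ stabilizer G (t • a) :=
    mem_inf.2 ⟨hS.conj_mem _ (inv_mem h1) _ hq, by
      rw [mem_stabilizer_iff, inv_inv, mul_smul, mul_smul, h2, e, inv_smul_eq_iff, h2]⟩
  rw [hS.inf_eq_bot, mem_bot] at h3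
  calc q = h * (h⁻¹ * q * h⁻¹⁻¹) * h⁻¹ := by group
    _ = 1 := by rw [h3]; group

theorem ext {q r : G} (hq : q ∈ Q) (hr : r ∈ Q) {c : Ω} (hc : c ≠ a) (e : q • c = r • c) :
    q = r := by
  have := reg hS (mul_mem (inv_mem hr) hq) hc (by rw [mul_smul, e, inv_smul_smul])
  rw [inv_mul_eq_one] at this
  exact this.symm

theorem tr {c d : Ω} (hc : c ≠ a) (hd : d ≠ a) : ∃ q ∈ Q, q • c = d := by
  have aux : ∀ c : Ω, c ≠ a → ∃ q ∈ Q, q • t • a = c := fun c hc => by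
    obtain ⟨h, h1, h2⟩ := two hS (ne' hS) hc.symm
    obtain ⟨q, hq, d, hd, rfl⟩ := decomp hS h1
    exact ⟨q, hq, by rw [← h2, mul_smul, show d • t • a = t • a from hd.2]⟩
  obtain ⟨q, hq, rfl⟩ := aux c hc
  obtain ⟨r, hr, rfl⟩ := aux d hd
  exact ⟨r * q⁻¹, mul_mem hr (inv_mem hq), by rw [mul_smul, inv_smul_smul]⟩

theorem fix_of_conj_mem {x g : G} (hx : x ∈ Q) (h1 : x ≠ 1) (hg : g * x * g⁻¹ ∈ stabilizer G a) :
    g • a = a := by
  by_contra hc
  refine h1 (reg hS hx (c := g⁻¹ • a) (fun e => hc (inv_smul_eq_iff.1 e).symm) ?_)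
  rw [mem_stabilizer_iff, mul_smul, mul_smul, ← eq_inv_smul_iff] at hg
  exact hg

theorem fix_of_comm {x g : G} (hx : x ∈ Q) (h1 : x ≠ 1) (e : g * x = x * g) : g • a = a :=
  fix_of_conj_mem hS hx h1 (by rw [e, mul_inv_cancel_right]; exact hS.le hx)

theorem card_Ω [Finite G] : Nat.card Ω = Nat.card Q + 1 := by
  classical
  haveI := fin hS
  let f : Q → {c : Ω // c ≠ a} := fun x => ⟨(x : G) • t • a, smul_ne_of_fix (fix hS x.2) (ne hS)⟩
  have hf : Function.Bijective f := ⟨fun x y e =>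
    Subtype.ext (ext hS x.2 y.2 (ne hS) (congrArg Subtype.val e)), fun c => by
      obtain ⟨q, hq, e⟩ := tr hS (ne hS) c.2
      exact ⟨⟨q, hq⟩, Subtype.ext e⟩⟩
  rw [Nat.card_eq_of_bijective f hf]
  have := Fintype.ofFinite Ω
  have h1 : 0 < Fintype.card Ω := Fintype.card_pos_iff.2 ⟨a⟩
  rw [Nat.card_eq_fintype_card, Nat.card_eq_fintype_card, Fintype.card_subtype_compl]
  simp only [Fintype.card_unique]
  omega

theorem card_stab [Finite G] :
    Nat.card (stabilizer G a) = Nat.card Q * Nat.card (S2 G a (t • a)) := by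
  rw [← Nat.card_prod]
  symm
  refine Nat.card_eq_of_bijective (fun p => ⟨p.1 * p.2, mul_mem (hS.le p.1.2) p.2.2.1⟩)
    ⟨fun p p' e => ?_, fun h => ?_⟩
  · have e' : (p.1 : G) * p.2 = p'.1 * p'.2 := congrArg Subtype.val e
    have h1 : (p.1 : G) = p'.1 := ext hS p.1.2 p'.1.2 (ne hS) (by
      have := congrArg (· • t • a) e'
      simpa only [mul_smul, show (p.2 : G) • t • a = t • a from p.2.2.2,
        show (p'.2 : G) • t • a = t • a from p'.2.2.2] using this)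
    rw [h1] at e'
    exact Prod.ext (Subtype.ext h1) (Subtype.ext (mul_left_cancel e'))
  · obtain ⟨q, hq, d, hd, e⟩ := decomp hS h.2
    exact ⟨(⟨q, hq⟩, ⟨d, hd⟩), Subtype.ext e.symm⟩

theorem card_G [Finite G] :
    Nat.card G = Nat.card Q * Nat.card (S2 G a (t • a)) * (Nat.card Q + 1) := by
  haveI := pretrans hS
  rw [← card_stab hS, ← card_Ω hS, ← index_stabilizer_of_transitive G a, card_mul_index]

theorem mem_of_pow {h : G} (hh : h • a = a) {n : ℕ} (e : h ^ 2 ^ n = 1) : h ∈ Q := by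
  obtain ⟨q, hq, d, hd, rfl⟩ := decomp hS hh
  have h1 : ∀ k : ℕ, ∃ q' ∈ Q, (q * d) ^ k = q' * d ^ k := by
    intro k
    induction k with
    | zero => exact ⟨1, one_mem _, by simp⟩
    | succ k ih =>
      obtain ⟨q', hq', e⟩ := ih
      refine ⟨q' * (d ^ k * q * (d ^ k)⁻¹), mul_mem hq' (hS.conj_mem _ (pow_mem hd.1 k) _ hq), ?_⟩
      rw [pow_succ, e, pow_succ]; group
  obtain ⟨q', hq', e'⟩ := h1 (2 ^ n)
  rw [e] at e'
  have h2 : q' = 1 := reg hS hq' (ne hS) (by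
    have h3 : d ^ 2 ^ n • t • a = t • a := (pow_mem hd (2 ^ n)).2
    nth_rewrite 1 [← h3]
    rw [← mul_smul, ← e', one_smul])
  rw [h2, one_mul] at e'
  have h3 : d = 1 := by
    have h4 := orderOf_dvd_of_pow_eq_one e'.symm
    exact orderOf_eq_one_iff.1 (Nat.Coprime.eq_one_of_dvd
      (Nat.Coprime.pow_right _ (Nat.coprime_two_right.2 (odd_orderOf_of_mem (oddD hS) hd))) h4)
  rw [h3, mul_one]; exact hq

theorem invol_mem {s : G} (hs : s • a = a) (e : s * s = 1) : s ∈ Q :=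
  mem_of_pow hS hs (n := 1) (by rw [pow_one, sq, e])

theorem conj (g : G) : IsRankOneSetup G Ω (g • a) (g * t * g⁻¹) (H7.cj g Q) := by
  have hst : ∀ c : Ω, stabilizer G (g • c) = H7.cj g (stabilizer G c) := fun c => by
    ext x; rw [H7.mem_cj, mem_stabilizer_iff, mem_stabilizer_iff, mul_smul, mul_smul,
      inv_smul_eq_iff]
  refine ⟨hS.two_transitive, by rw [conj_mul, hS.mul_self]; simp, fun e => hS.ne_one (by simpa using e),
    fun e => ne hS ?_, ?_, ?_, ?_, ?_, ?_, ?_⟩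
  · rw [mem_stabilizer_iff, conj_smul_smul] at e
    exact smul_left_cancel g e
  · rw [hst]; exact H7.cj_mono g hS.le
  · intro h hh x hx
    rw [hst, H7.mem_cj] at hh
    rw [H7.mem_cj] at hx ⊢
    have := hS.conj_mem _ hh _ hx
    simpa [mul_assoc] using this
  · rw [conj_smul_smul, hst, ← H7.cj_inf, hS.inf_eq_bot, H7.cj_bot]
  · rw [conj_smul_smul, hst, hst, ← H7.cj_inf, ← H7.cj_sup, hS.sup_eq]
  · rw [H7.card_cj]; exact hS.even_card
  · rw [conj_smul_smul, hst, hst, ← H7.cj_inf, H7.card_cj]; exact hS.odd_card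

theorem odd_S2 {c d : Ω} (hcd : c ≠ d) : Odd (Nat.card (S2 G c d)) := by
  obtain ⟨g, h1, h2⟩ := two hS (ne' hS) hcd
  have := (conj hS g).odd_card
  rwa [conj_smul_smul, h1, h2] at this

theorem change {u : G} (hu : u * u = 1) (hua : u • a ≠ a) : IsRankOneSetup G Ω a u Q := by
  refine ⟨hS.two_transitive, hu, by rintro rfl; exact hua (one_smul _ _), hua, hS.le, hS.conj_mem,
    ?_, ?_, hS.even_card, odd_S2 hS hua.symm⟩
  · rw [eq_bot_iff_forall]
    exact fun x hx => reg hS hx.1 hua hx.2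
  · refine le_antisymm (sup_le hS.le inf_le_left) fun h hh => ?_
    obtain ⟨q, hq, e⟩ := tr hS hua (smul_ne_of_fix hh hua)
    have : h = q * (q⁻¹ * h) := by group
    rw [this]
    refine mul_mem_sup hq (mem_inf.2 ⟨mul_mem (inv_mem (hS.le hq)) hh, ?_⟩)
    rw [mem_stabilizer_iff, mul_smul, ← e, inv_smul_smul]

theorem at' {c : Ω} {u : G} (hu : u * u = 1) (huc : u • c ≠ c) :
    ∃ Q' : Subgroup G, IsRankOneSetup G Ω c u Q' := by
  obtain ⟨g, rfl⟩ := trans hS a c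
  exact ⟨_, change (conj hS g) hu huc⟩

theorem exists_fix [Finite G] {P : Subgroup G} (hP : IsPGroup 2 P) : ∃ c : Ω, ∀ g ∈ P, g • c = c := by
  haveI := fin hS
  obtain ⟨c, -, hc⟩ := exists_fixed_of_isPGroup hP (Set.univ : Set Ω) (fun _ _ _ _ => trivial) (by
    rw [Set.ncard_univ, card_Ω hS, ← even_iff_two_dvd, Nat.not_even_iff_odd]
    exact hS.even_card.add_one)
  exact ⟨c, hc⟩

theorem invol_fix [Finite G] {u : G} (hu : u * u = 1) : ∃ c : Ω, u • c = c := by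
  obtain ⟨c, hc⟩ := exists_fix hS (P := zpowers u)
    (isPGroup_zpowers_of_pow_eq_one (k := 1) (by rw [pow_one, sq, hu]))
  exact ⟨c, hc u (mem_zpowers u)⟩

theorem invol_unique {u : G} (hu : u * u = 1) (h1 : u ≠ 1) {c d : Ω} (hc : u • c = c)
    (hd : u • d = d) : c = d := by
  by_contra hcd
  exact h1 (eq_one_of_odd (odd_S2 hS hcd) ⟨hc, hd⟩ hu)

theorem exists_invol [Finite G] : ∃ s ∈ Q, s * s = 1 ∧ s ≠ 1 := exists_invol_of_even hS.even_card

theorem odd_mul [Finite G] {s u : G} (hs : s • a = a) (hs1 : s ≠ 1) (hs2 : s * s = 1)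
    (hu : u • a ≠ a) (hu2 : u * u = 1) : Odd (orderOf (s * u)) := by
  by_contra hc
  obtain ⟨z, -, ho, h1, h2⟩ := exists_central_invol_of_even hs2 hu2 (Nat.not_odd_iff_even.1 hc)
  obtain ⟨z2, z1⟩ := orderOf_eq_two_iff'.1 ho
  have h3 := fix_of_comm hS (invol_mem hS hs hs2) hs1 h1.symm
  exact hu (fix_of_comm hS (invol_mem hS h3 z2) z1 h2)

theorem isConj [Finite G] {u v : G} (hu1 : u ≠ 1) (hu : u * u = 1) (hv1 : v ≠ 1) (hv : v * v = 1) :
    ∃ g : G, g * u * g⁻¹ = v := by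
  have aux : ∀ u : G, u ≠ 1 → u * u = 1 → IsConj u t := by
    intro u hu1 hu
    obtain ⟨c, hc⟩ := invol_fix hS hu
    obtain ⟨g, hg⟩ := trans hS c a
    obtain ⟨k, -, hk⟩ := exists_invol_conj_of_odd (s := g * u * g⁻¹) (t := t)
      (by rw [conj_mul, hu]; simp) hS.mul_self
      (odd_mul hS (by rw [← hg, conj_smul_smul, hc]) (by simpa using hu1)
        (by rw [conj_mul, hu]; simp) (ne hS) hS.mul_self)
    exact (isConj_iff.2 ⟨g, rfl⟩).trans (isConj_iff.2 ⟨_, hk⟩)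
  exact isConj_iff.1 ((aux u hu1 hu).trans (aux v hv1 hv).symm)

theorem canon {g : G} (hg : g • a ≠ a) : ∃ x, x • a = a ∧ ∃ y ∈ Q, g = x * t * y := by
  obtain ⟨y, hy, e⟩ := tr hS (c := g⁻¹ • a) (fun e => hg (inv_smul_eq_iff.1 e).symm) (ne hS)
  refine ⟨g * y⁻¹ * t, ?_, y, hy, ?_⟩
  · rw [mul_smul, mul_smul, ← e, inv_smul_smul, smul_inv_smul]
  · rw [mul_assoc _ t t, hS.mul_self]; group

theorem canon_unique {x y x' y' : G} (hx : x • a = a) (hy : y ∈ Q) (hx' : x' • a = a)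
    (hy' : y' ∈ Q) (e : x * t * y = x' * t * y') : x = x' ∧ y = y' := by
  have h1 : y = y' := by
    have h2 := congrArg (fun g : G => g⁻¹ • a) e
    simp only [mul_inv_rev, mul_smul, inv_fix hx, inv_fix hx', tinv hS] at h2
    exact inv_injective (ext hS (inv_mem hy) (inv_mem hy') (ne hS) h2)
  subst h1
  exact ⟨mul_right_cancel (mul_right_cancel e), rfl⟩

theorem canon_unique3 {g h f g' h' f' : G} (hg : g ∈ Q) (hh : h ∈ S2 G a (t • a)) (hf : f ∈ Q)
    (hg' : g' ∈ Q) (hh' : h' ∈ S2 G a (t • a)) (hf' : f' ∈ Q)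
    (e : g * h * t * f = g' * h' * t * f') : g = g' ∧ h = h' ∧ f = f' := by
  obtain ⟨h1, h2⟩ := canon_unique hS (mul_mem (hS.le hg) hh.1) hf (mul_mem (hS.le hg') hh'.1) hf' e
  have h3 : g = g' := ext hS hg hg' (ne hS) (by
    have := congrArg (· • t • a) h1
    simpa only [mul_smul, show h • t • a = t • a from hh.2, show h' • t • a = t • a from hh'.2]
      using this)
  subst h3
  exact ⟨rfl, mul_left_cancel h1, h2⟩

theorem tconj {d : G} (hd : d ∈ S2 G a (t • a)) : t * d * t⁻¹ ∈ S2 G a (t • a) :=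
  (sw hS).conj_mem hd

theorem tconj' {d : G} (hd : d ∈ S2 G a (t • a)) : t * d * t ∈ S2 G a (t • a) := by
  simpa [tinv hS] using tconj hS hd

theorem mem_K_of_sw {u : G} (hu : u * u = 1) (e : u • a = t • a) :
    u * t ∈ invertedBy (S2 G a (t • a)) t := by
  refine ⟨Sw.mul ⟨e, by rw [← e, ← mul_smul, hu, one_smul]⟩ (sw hS), ?_⟩
  rw [mul_inv_rev, tinv hS, inv_eq_of_mul_eq_one_right hu, mul_assoc, mul_assoc, hS.mul_self,
    mul_one]

omit hS in
theorem K_mul {k : G} {D : Subgroup G} (hk : k ∈ invertedBy D t) : t * k = k⁻¹ * t := by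
  rw [← hk.2]; group

omit hS in
theorem K_mul' {k : G} {D : Subgroup G} (hk : k ∈ invertedBy D t) : t * k⁻¹ = k * t := by
  have := hk.2
  calc t * k⁻¹ = (t * k * t⁻¹)⁻¹ * t := by group
    _ = _ := by rw [this, inv_inv]

omit hS in
theorem K_inv {k : G} {D : Subgroup G} (hk : k ∈ invertedBy D t) : k⁻¹ ∈ invertedBy D t :=
  ⟨inv_mem hk.1, by rw [K_mul' hk]; group⟩

omit hS in
theorem K_pow {k : G} {D : Subgroup G} (hk : k ∈ invertedBy D t) (n : ℕ) :
    k ^ n ∈ invertedBy D t := ⟨pow_mem hk.1 n, by rw [← conj_pow, hk.2, inv_pow]⟩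

omit hS in
theorem K_one {D : Subgroup G} : (1 : G) ∈ invertedBy D t := ⟨one_mem _, by simp⟩

theorem K_sq {k : G} {D : Subgroup G} (hk : k ∈ invertedBy D t) : k * t * (k * t) = 1 := by
  rw [mul_assoc, ← mul_assoc t, K_mul hk, mul_assoc, hS.mul_self]; group

theorem exists_conj_t [Finite G] {u : G} (hu : u * u = 1) (hua : u • a ≠ a) :
    ∃ r ∈ Q, ∃ l ∈ invertedBy (S2 G a (t • a)) t, u = r⁻¹ * (l⁻¹ * t * l) * r := by
  obtain ⟨r, hr, e⟩ := tr hS hua (ne hS)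
  have h1 := mem_K_of_sw hS (u := r * u * r⁻¹) (by rw [conj_mul, hu]; simp)
    (by rw [mul_smul, mul_smul, inv_fix (fix hS hr), e])
  obtain ⟨l, hl, e1, e2⟩ := sqrt_inv_odd (oddD hS) h1.1 h1.2
  refine ⟨r, hr, l⁻¹, K_inv ⟨hl, e2⟩, ?_⟩
  rw [inv_inv, mul_assoc l, K_mul' ⟨hl, e2⟩, ← mul_assoc l, e1, mul_assoc _ t t, hS.mul_self]
  group

theorem inj_conj [Finite G] {s u u' : G} (hs : s • a = a) (hs1 : s ≠ 1) (hs2 : s * s = 1)
    (hu : u • a ≠ a) (hu2 : u * u = 1) (hu' : u' • a ≠ a) (hu2' : u' * u' = 1)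
    (e : u * s * u = u' * s * u') : u = u' :=
  mul_left_cancel (eq_of_sq_eq_of_odd (odd_mul hS hs hs1 hs2 hu hu2)
    (odd_mul hS hs hs1 hs2 hu' hu2') (by
      rw [mul_assoc, mul_assoc s u', ← mul_assoc u, ← mul_assoc u', e]))

theorem K_conj_eq {k s : G} {D : Subgroup G} (hk : k ∈ invertedBy D t) :
    k * t * s * (k * t) = t * (k⁻¹ * s * k) * t := by
  rw [← K_mul' hk]; nth_rewrite 2 [K_mul' hk]; group

theorem K_inj [Finite G] {s k k' : G} (hs : s ∈ involutionsIn (stabilizer G a : Set G))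
    (hk : k ∈ invertedBy (S2 G a (t • a)) t) (hk' : k' ∈ invertedBy (S2 G a (t • a)) t)
    (e : k⁻¹ * s * k = k'⁻¹ * s * k') : k = k' :=
  mul_right_cancel (inj_conj hS hs.1 hs.2.1 hs.2.2
    (by rw [mul_smul, show k • t • a = t • a from hk.1.2]; exact ne hS) (K_sq hS hk)
    (by rw [mul_smul, show k' • t • a = t • a from hk'.1.2]; exact ne hS) (K_sq hS hk')
    (by rw [K_conj_eq hS hk, K_conj_eq hS hk', e]))

theorem K_surj [Finite G] {s s' : G} (hs : s ∈ involutionsIn (stabilizer G a : Set G))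
    (hs' : s' ∈ involutionsIn (stabilizer G a : Set G)) :
    ∃ k ∈ invertedBy (S2 G a (t • a)) t, k⁻¹ * s * k = s' := by
  let T := {u : G // u * u = 1 ∧ u • a ≠ a}
  have hfix : ∀ u : G, u * u = 1 → ∀ c : Ω, (u * s * u) • c = c → u • a = c := by
    intro u hu c e
    rw [mul_smul, mul_smul, ← eq_inv_smul_iff, inv_eq_of_mul_eq_one_right hu] at e
    rw [invol_unique hS hs.2.2 hs.2.1 hs.1 e, ← mul_smul, hu, one_smul]
  let f : T → T := fun u => ⟨u.1 * s * u.1, by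
      calc u.1 * s * u.1 * (u.1 * s * u.1) = u.1 * s * (u.1 * u.1) * s * u.1 := by group
        _ = 1 := by rw [u.2.1, mul_one, mul_assoc u.1, hs.2.2, mul_one, u.2.1],
    fun e => u.2.2 (hfix _ u.2.1 a e)⟩
  have hf : Function.Injective f := fun u u' e => Subtype.ext
    (inj_conj hS hs.1 hs.2.1 hs.2.2 u.2.2 u.2.1 u'.2.2 u'.2.1 (congrArg Subtype.val e))
  have hb : (t * s' * t) • t • a = t • a := by
    rw [mul_smul, mul_smul, tt hS, show s' • a = a from hs'.1]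
  obtain ⟨u, hu⟩ := Finite.injective_iff_surjective.1 hf ⟨t * s' * t, by
      calc t * s' * t * (t * s' * t) = t * s' * (t * t) * s' * t := by group
        _ = 1 := by rw [hS.mul_self, mul_one, mul_assoc t, hs'.2.2, mul_one, hS.mul_self],
    fun e => ne' hS (invol_unique hS (u := t * s' * t) (by
      calc t * s' * t * (t * s' * t) = t * s' * (t * t) * s' * t := by group
        _ = 1 := by rw [hS.mul_self, mul_one, mul_assoc t, hs'.2.2, mul_one, hS.mul_self])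
      (fun e => hs'.2.1 (by
        calc s' = t * (t * s' * t) * t := by
              rw [← mul_assoc, ← mul_assoc, hS.mul_self, one_mul, mul_assoc, hS.mul_self, mul_one]
          _ = 1 := by rw [e, mul_one, hS.mul_self])) e hb)⟩
  have hu' : u.1 * s * u.1 = t * s' * t := congrArg Subtype.val hu
  have h1 := mem_K_of_sw hS u.2.1 (hfix _ u.2.1 _ (by rw [hu']; exact hb))
  refine ⟨_, h1, ?_⟩
  have h2 := K_conj_eq hS (s := s) h1
  rw [mul_assoc u.1 t t, hS.mul_self, mul_one, hu'] at h2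
  exact (mul_left_cancel (mul_right_cancel h2)).symm

omit hS in
theorem I_conj {s h : G} (hs : s ∈ involutionsIn (stabilizer G a : Set G)) (hh : h • a = a) :
    h⁻¹ * s * h ∈ involutionsIn (stabilizer G a : Set G) :=
  ⟨mul_mem (mul_mem (inv_mem hh) hs.1) hh, fun e => hs.2.1 (by
    calc s = h * (h⁻¹ * s * h) * h⁻¹ := by group
      _ = 1 := by rw [e]; group), by
    calc h⁻¹ * s * h * (h⁻¹ * s * h) = h⁻¹ * (s * s) * h := by group
      _ = 1 := by rw [hs.2.2]; group⟩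

theorem exists_I [Finite G] : ∃ s, s ∈ involutionsIn (stabilizer G a : Set G) := by
  obtain ⟨s, hs, h2, h1⟩ := exists_invol hS
  exact ⟨s, hS.le hs, h1, h2⟩

theorem card_K [Finite G] : Nat.card (invertedBy (S2 G a (t • a)) t) =
    Nat.card (involutionsIn (stabilizer G a : Set G)) := by
  obtain ⟨s, hs⟩ := exists_I hS
  refine Nat.card_eq_of_bijective (fun k => ⟨k.1⁻¹ * s * k.1, I_conj hs k.2.1.1⟩)
    ⟨fun k k' e => Subtype.ext (K_inj hS hs k.2 k'.2 (congrArg Subtype.val e)), fun s' => ?_⟩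
  obtain ⟨k, hk, e⟩ := K_surj hS hs s'.2
  exact ⟨⟨k, hk⟩, Subtype.ext e⟩

theorem exists_dist [Finite G] : ∃ s ∈ involutionsIn (stabilizer G a : Set G), ∃ r ∈ Q,
    t * s * t = r⁻¹ * t * r := by
  obtain ⟨s, hs⟩ := exists_I hS
  obtain ⟨r, hr, l, hl, e⟩ := exists_conj_t hS (u := t * s * t) (by
      calc t * s * t * (t * s * t) = t * s * (t * t) * s * t := by group
        _ = 1 := by rw [hS.mul_self, mul_one, mul_assoc t, hs.2.2, mul_one, hS.mul_self])
    (fun e => by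
      rw [mul_smul, mul_smul, ← eq_inv_smul_iff, tinv hS] at e
      exact ne' hS (invol_unique hS hs.2.2 hs.2.1 hs.1 e))
  refine ⟨l⁻¹ * s * l, I_conj hs hl.1.1, l * r * l⁻¹, hS.conj_mem _ hl.1.1 _ hr, ?_⟩
  rw [← K_conj_eq hS hl]
  nth_rewrite 2 [← K_mul' hl]
  calc l * t * s * (t * l⁻¹) = l * (t * s * t) * l⁻¹ := by group
    _ = _ := by rw [e]; group

theorem dist_unique [Finite G] {s r s' r' : G} (hs : s ∈ involutionsIn (stabilizer G a : Set G))
    (hr : r ∈ Q) (e : t * s * t = r⁻¹ * t * r) (hs' : s' ∈ involutionsIn (stabilizer G a : Set G))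
    (hr' : r' ∈ Q) (e' : t * s' * t = r'⁻¹ * t * r') : s = s' ∧ r = r' := by
  obtain ⟨k, hk, rfl⟩ := K_surj hS hs hs'
  have h1 : r'⁻¹ * 1 * t * r' = (k * r * k⁻¹)⁻¹ * (k * k) * t * (k * r * k⁻¹) := by
    rw [mul_one, ← e', ← K_conj_eq hS hk]
    nth_rewrite 2 [← K_mul' hk]
    calc k * t * s * (t * k⁻¹) = k * (t * s * t) * k⁻¹ := by group
      _ = (k * r * k⁻¹)⁻¹ * k * (t * k⁻¹) * (k * r * k⁻¹) := by rw [e]; group
      _ = _ := by rw [K_mul' hk]; group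
  have h2 := hS.conj_mem _ hk.1.1 _ hr
  obtain ⟨-, h3, h4⟩ := canon_unique3 hS (inv_mem hr') (one_mem _) hr' (inv_mem h2)
    (mul_mem hk.1 hk.1) h2 h1
  have h5 : k = 1 := eq_one_of_odd (oddD hS) hk.1 h3.symm
  subst h5
  simp at h4 ⊢
  exact h4.symm

theorem decompD {d : G} (hd : d ∈ S2 G a (t • a)) : ∃ v ∈ S2 G a (t • a),
    ∃ k ∈ invertedBy (S2 G a (t • a)) t, t * v = v * t ∧ d = v * k := by
  obtain ⟨y, hy, z, hz, h1, h2, e⟩ := exists_cen_mul_inv hS.mul_self (oddD hS)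
    (fun x hx => tconj hS hx) hd
  exact ⟨y, hy, z, ⟨hz, h2⟩, h1, e⟩

theorem cen_dist [Finite G] {s r : G} (hs : s ∈ involutionsIn (stabilizer G a : Set G))
    (hr : r ∈ Q) (e : t * s * t = r⁻¹ * t * r) {d : G} (hd : d ∈ S2 G a (t • a)) :
    t * d = d * t ↔ s * d = d * s := by
  have aux : ∀ v ∈ S2 G a (t • a), t * v = v * t → s * v = v * s := by
    intro v hv h1
    have h2 : v⁻¹ * t * v = t := by rw [mul_assoc, h1]; group
    have := (dist_unique hS hs hr e (I_conj hs hv.1) (hS.conj_mem _ (inv_mem hv.1) _ hr) (by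
      calc t * (v⁻¹ * s * v) * t = (v⁻¹ * t * v) * (v⁻¹ * s * v) * (v⁻¹ * t * v) := by rw [h2]
        _ = v⁻¹ * (t * s * t) * v := by group
        _ = (v⁻¹ * r * v⁻¹⁻¹)⁻¹ * (v⁻¹ * t * v) * (v⁻¹ * r * v⁻¹⁻¹) := by rw [e]; group
        _ = _ := by rw [h2])).1
    calc s * v = v * (v⁻¹ * s * v) := by group
      _ = _ := by rw [← this]
  refine ⟨aux d hd, fun h1 => ?_⟩
  obtain ⟨v, hv, k, hk, h2, rfl⟩ := decompD hS hd
  have h3 : k = 1 := K_inj hS hs hk K_one (by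
    have h4 := aux v hv h2
    calc k⁻¹ * s * k = (v * k)⁻¹ * (v * s) * k := by group
      _ = (v * k)⁻¹ * (s * (v * k)) := by rw [← h4]; group
      _ = _ := by rw [h1]; group)
  rw [h3, mul_one]; exact h2

theorem V_conj_K {v k : G} (hv : v ∈ S2 G a (t • a)) (h1 : t * v = v * t)
    (hk : k ∈ invertedBy (S2 G a (t • a)) t) : v⁻¹ * k * v ∈ invertedBy (S2 G a (t • a)) t :=
  ⟨mul_mem (mul_mem (inv_mem hv) hk.1) hv, by
    have h2 : t * v * t⁻¹ = v := by rw [h1]; group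
    calc t * (v⁻¹ * k * v) * t⁻¹ = (t * v * t⁻¹)⁻¹ * (t * k * t⁻¹) * (t * v * t⁻¹) := by group
      _ = _ := by rw [h2, hk.2]; group⟩

theorem W_iff [Finite G] {d : G} (hd : d ∈ S2 G a (t • a)) :
    (t * d = d * t ∧ ∀ k ∈ invertedBy (S2 G a (t • a)) t, k * d = d * k) ↔
      ∀ s ∈ involutionsIn (stabilizer G a : Set G), s * d = d * s := by
  obtain ⟨s, hs, r, hr, e⟩ := exists_dist hS
  constructor
  · rintro ⟨h1, h2⟩ s' hs'
    obtain ⟨k, hk, rfl⟩ := K_surj hS hs hs'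
    have h3 := (cen_dist hS hs hr e hd).1 h1
    calc k⁻¹ * s * k * d = k⁻¹ * s * (k * d) := by group
      _ = k⁻¹ * (s * d) * k := by rw [h2 k hk]; group
      _ = (k⁻¹ * d) * s * k := by rw [h3]; group
      _ = _ := by rw [h2 _ (K_inv hk)]; group
  · intro h
    have h1 := (cen_dist hS hs hr e hd).2 (h s hs)
    refine ⟨h1, fun k hk => ?_⟩
    have h2 := K_inj hS hs (V_conj_K hS hd h1 hk) hk (by
      calc (d⁻¹ * k * d)⁻¹ * s * (d⁻¹ * k * d) = d⁻¹ * k⁻¹ * (d * s) * d⁻¹ * k * d := by group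
        _ = d⁻¹ * (k⁻¹ * s * k * d) := by rw [← h s hs]; group
        _ = _ := by rw [h _ (I_conj hs hk.1.1)]; group)
    calc k * d = d * (d⁻¹ * k * d) := by group
      _ = _ := by rw [h2]

end R1
end H8
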