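import Mathlib
import Cfsg.Agent.H8.Rk1
import Cfsg.Agent.H1.SylowIn

set_option autoImplicit false
set_option linter.unusedSectionVars false

namespace H8
open Cfsg Subgroup MulAction
open scoped IsMulCommutative

variable {G Ω : Type*} [Group G] [MulAction G Ω] {a : Ω} {t : G} {Q : Subgroup G}

namespace R1
variable (hS : IsRankOneSetup G Ω a t Q)
include hS

/-- `C_Q(X)` is transitive on the fixed points of `X` other than `a`. -/
theorem tr_cen {X : Set G} (ha : ∀ x ∈ X, x • a = a) {c d : Ω} (hc : c ≠ a) (hd : d ≠ a)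
    (hcX : ∀ x ∈ X, x • c = c) (hdX : ∀ x ∈ X, x • d = d) :
    ∃ q ∈ Q, q ∈ centralizer X ∧ q • c = d := by
  obtain ⟨q, hq, e⟩ := tr hS hc hd
  refine ⟨q, hq, fun x hx => ?_, e⟩
  have := ext hS (hS.conj_mem x (ha x hx) q hq) hq hc
    (by rw [mul_smul, mul_smul, inv_fix (hcX x hx), e, hdX x hx])
  rwa [mul_inv_eq_iff_eq_mul] at this

theorem tr_cen' {X : Set G} {b c d : Ω} (hb : ∀ x ∈ X, x • b = b) (hc : c ≠ b) (hd : d ≠ b)
    (hcX : ∀ x ∈ X, x • c = c) (hdX : ∀ x ∈ X, x • d = d) :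
    ∃ q ∈ centralizer X, q • b = b ∧ q • c = d := by
  obtain ⟨g, rfl⟩ := trans hS a b
  obtain ⟨q, hq, h1, h2⟩ := tr_cen (conj hS g) hb hc hd hcX hdX
  exact ⟨q, h1, fix (conj hS g) hq, h2⟩

omit hS in
theorem cen_fix {X : Set G} {g : G} (hg : g ∈ centralizer X) {c : Ω} (hc : ∀ x ∈ X, x • c = c) :
    ∀ x ∈ X, x • g • c = g • c := fun x hx => by
  rw [← mul_smul, hg x hx, mul_smul, hc x hx]

theorem two_cen {X : Set G}
    (h3 : ∃ b c d : Ω, b ≠ c ∧ b ≠ d ∧ c ≠ d ∧ ∀ x ∈ X, x • b = b ∧ x • c = c ∧ x • d = d)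
    {b₁ b₂ c₁ c₂ : Ω} (h1 : ∀ x ∈ X, x • b₁ = b₁) (h2 : ∀ x ∈ X, x • b₂ = b₂)
    (h1' : ∀ x ∈ X, x • c₁ = c₁) (h2' : ∀ x ∈ X, x • c₂ = c₂) (hb : b₁ ≠ b₂) (hc : c₁ ≠ c₂) :
    ∃ g ∈ centralizer X, g • b₁ = c₁ ∧ g • b₂ = c₂ := by
  obtain ⟨e, he1, he2, he⟩ : ∃ e : Ω, b₁ ≠ e ∧ c₁ ≠ e ∧ ∀ x ∈ X, x • e = e := by
    obtain ⟨b, c, d, h4, h5, h6, h7⟩ := h3
    by_cases e1 : b₁ ≠ b ∧ c₁ ≠ b
    · exact ⟨b, e1.1, e1.2, fun x hx => (h7 x hx).1⟩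
    by_cases e2 : b₁ ≠ c ∧ c₁ ≠ c
    · exact ⟨c, e2.1, e2.2, fun x hx => (h7 x hx).2.1⟩
    refine ⟨d, ?_, ?_, fun x hx => (h7 x hx).2.2⟩ <;> grind
  obtain ⟨g, hg, -, e1⟩ := tr_cen' hS he he1 he2 h1 h1'
  obtain ⟨k, hk, e2, e3⟩ := tr_cen' hS h1' (c := g • b₂) (d := c₂)
    (fun e => hb (smul_left_cancel g (e1.trans e.symm))) hc.symm (cen_fix hg h2) h2'
  exact ⟨k * g, mul_mem hk hg, by rw [mul_smul, e1, e2], by rw [mul_smul, e3]⟩

theorem exists_sw_cen {X : Set G}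
    (h3 : ∃ b c d : Ω, b ≠ c ∧ b ≠ d ∧ c ≠ d ∧ ∀ x ∈ X, x • b = b ∧ x • c = c ∧ x • d = d)
    {b c : Ω} (h1 : ∀ x ∈ X, x • b = b) (h2 : ∀ x ∈ X, x • c = c) (hb : b ≠ c) :
    ∃ u ∈ centralizer X, u * u = 1 ∧ Sw u b c := by
  obtain ⟨g, hg, e1, e2⟩ := two_cen hS h3 h1 h2 h2 h1 hb hb.symm
  have hs : Sw g b c := ⟨e1, e2⟩
  obtain ⟨m, hm⟩ := odd_orderOf_of_mem (odd_S2 hS hb) (hs.mul hs)
  refine ⟨g * (g * g) ^ m, mul_mem hg (pow_mem (mul_mem hg hg) m), ?_,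
    hs.mul_S2 (pow_mem (hs.mul hs) m)⟩
  calc g * (g * g) ^ m * (g * (g * g) ^ m) = (g * g) ^ (2 * m + 1) := by
        simp only [← sq, ← pow_mul, ← pow_succ', ← pow_add]; ring_nf
    _ = 1 := by rw [← hm, pow_orderOf_eq_one]

theorem even_cen [Finite G] {X : Set G} (hX : X ⊆ S2 G a (t • a))
    (h3 : ∃ b c d : Ω, b ≠ c ∧ b ≠ d ∧ c ≠ d ∧ ∀ x ∈ X, x • b = b ∧ x • c = c ∧ x • d = d) :
    ∃ s ∈ Q, s ∈ centralizer X ∧ s * s = 1 ∧ s ≠ 1 := by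
  obtain ⟨u, hu, hu2, hs⟩ := exists_sw_cen hS h3 (fun x hx => (hX hx).1) (fun x hx => (hX hx).2)
    (ne' hS)
  have hu1 := hs.ne_one (ne' hS)
  obtain ⟨c, hc⟩ := invol_fix hS hu2
  have hcX : ∀ x ∈ X, x • c = c := fun x hx =>
    invol_unique hS hu2 hu1 (by rw [← mul_smul, ← hu x hx, mul_smul, hc]) hc
  have hca : c ≠ t • a := by
    rintro rfl
    exact ne' hS (hs.2.symm.trans hc)
  obtain ⟨g, hg, -, e⟩ := tr_cen' hS (fun x hx => (hX hx).2) hca (ne' hS) hcX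
    (fun x hx => (hX hx).1)
  have h1 : g * u * g⁻¹ * (g * u * g⁻¹) = 1 := by rw [conj_mul, hu2]; simp
  exact ⟨g * u * g⁻¹, invol_mem hS (by rw [← e, conj_smul_smul, hc]) h1,
    mul_mem (mul_mem hg hu) (inv_mem hg), h1, by simpa using hu1⟩

theorem conj_V {X : Set G} (hX : X ⊆ S2 G a (t • a))
    (h3 : ∃ b c d : Ω, b ≠ c ∧ b ≠ d ∧ c ≠ d ∧ ∀ x ∈ X, x • b = b ∧ x • c = c ∧ x • d = d) :
    ∃ k ∈ invertedBy (S2 G a (t • a)) t, ∀ x ∈ X, (k * x * k⁻¹) * t = t * (k * x * k⁻¹) := by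
  obtain ⟨u, hu, hu2, hs⟩ := exists_sw_cen hS h3 (fun x hx => (hX hx).1) (fun x hx => (hX hx).2)
    (ne' hS)
  have h1 := mem_K_of_sw hS hu2 hs.1
  obtain ⟨l, hl, e1, e2⟩ := sqrt_inv_odd (oddD hS) h1.1 h1.2
  have h2 : t = l⁻¹ * u * l := by
    have h3 : u = l * l * t := by rw [e1, mul_assoc, hS.mul_self, mul_one]
    rw [h3, mul_assoc, mul_assoc, mul_assoc, K_mul ⟨hl, e2⟩]; group
  refine ⟨l⁻¹, K_inv ⟨hl, e2⟩, fun x hx => ?_⟩
  rw [h2]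
  calc l⁻¹ * x * l⁻¹⁻¹ * (l⁻¹ * u * l) = l⁻¹ * (x * u) * l := by group
    _ = _ := by rw [hu x hx]; group

theorem K_fix {x : G} (hx : x ∈ invertedBy (S2 G a (t • a)) t) (h1 : x ≠ 1) {c : Ω}
    (hc : x • c = c) : c = a ∨ c = t • a := by
  by_contra hh
  push Not at hh
  obtain ⟨k, hk, e⟩ := conj_V hS (X := {x}) (by simpa using hx.1)
    ⟨a, t • a, c, ne' hS, hh.1.symm, hh.2.symm, by rintro _ rfl; exact ⟨hx.1.1, hx.1.2, hc⟩⟩
  have h2 := e x rfl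
  have h3 : (k * k) * x * (k * k)⁻¹ = x⁻¹ := by
    have h4 : k * x * k⁻¹ = k⁻¹ * x⁻¹ * k := by
      calc k * x * k⁻¹ = t * (k * x * k⁻¹) * t⁻¹ := by rw [← h2]; group
        _ = (t * k * t⁻¹) * (t * x * t⁻¹) * (t * k * t⁻¹)⁻¹ := by group
        _ = _ := by rw [hk.2, hx.2]; group
    calc k * k * x * (k * k)⁻¹ = k * (k * x * k⁻¹) * k⁻¹ := by group
      _ = _ := by rw [h4]; group
  have h4 : (k * k) * (k * k) * x = x * ((k * k) * (k * k)) := by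
    generalize k * k = m at h3
    calc m * m * x = m * (m * x * m⁻¹) * m := by group
      _ = (m * x * m⁻¹)⁻¹ * (m * m) := by
        nth_rewrite 1 [h3]
        simp [mul_assoc]
      _ = _ := by rw [h3, inv_inv]
  have h5 := commute_of_sq_of_odd (odd_orderOf_of_mem (oddD hS) (mul_mem hk.1 hk.1)) h4
  rw [h5, mul_inv_cancel_right] at h3
  exact h1 (eq_one_of_odd (oddD hS) hx.1 (by nth_rewrite 1 [h3]; simp))

theorem K_fpf {x : G} (hx : x ∈ invertedBy (S2 G a (t • a)) t) (h1 : x ≠ 1) {q : G} (hq : q ∈ Q)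
    (e : x * q = q * x) : q = 1 := by
  rcases K_fix hS hx h1 (c := q • t • a)
    (by rw [← mul_smul, e, mul_smul, show x • t • a = t • a from hx.1.2]) with h | h
  · exact absurd h (smul_ne_of_fix (fix hS hq) (ne hS))
  · exact reg hS hq (ne hS) h

theorem K_fpf' {x : G} (hx : x ∈ invertedBy (S2 G a (t • a)) t) (h1 : x ≠ 1) :
    Q ⊓ centralizer {x} = ⊥ := by
  rw [eq_bot_iff_forall]
  exact fun q hq => K_fpf hS hx h1 hq.1 (hq.2 x rfl)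

theorem stab_le_nrm : stabilizer G a ≤ normalizer (Q : Set G) := fun d hd => by
  rw [mem_normalizer_iff]
  refine fun x => ⟨hS.conj_mem d hd x, fun hx => ?_⟩
  have := hS.conj_mem d⁻¹ (inv_mem hd) _ hx
  simpa [mul_assoc] using this

theorem exists_four [Finite G]
    (h2 : ∃ x y : G, x ≠ 1 ∧ y ≠ 1 ∧ x ≠ y ∧ x * x = 1 ∧ y * y = 1 ∧ x * y = y * x) :
    ∃ x ∈ involutionsIn (stabilizer G a : Set G), ∃ y ∈ involutionsIn (stabilizer G a : Set G),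
      x ≠ y ∧ x * y = y * x := by
  obtain ⟨x, y, x1, y1, hxy, x2, y2, e⟩ := h2
  obtain ⟨c, hc⟩ := invol_fix hS x2
  have hy : y • c = c := invol_unique hS x2 x1 (by rw [← mul_smul, e, mul_smul, hc]) hc
  obtain ⟨g, hg⟩ := trans hS c a
  refine ⟨g * x * g⁻¹, ⟨by rw [← hg]; exact (conj_smul_smul g x c).trans (by rw [hc]),
    by simpa using x1, by rw [conj_mul, x2]; simp⟩, g * y * g⁻¹,
    ⟨by rw [← hg]; exact (conj_smul_smul g y c).trans (by rw [hy]),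
    by simpa using y1, by rw [conj_mul, y2]; simp⟩, by simpa using hxy, by
      rw [conj_mul, conj_mul, e]⟩

theorem exists_K_ne [Finite G]
    (h2 : ∃ x y : G, x ≠ 1 ∧ y ≠ 1 ∧ x ≠ y ∧ x * x = 1 ∧ y * y = 1 ∧ x * y = y * x) :
    ∃ k ∈ invertedBy (S2 G a (t • a)) t, k ≠ 1 := by
  obtain ⟨x, hx, y, hy, hxy, -⟩ := exists_four hS h2
  obtain ⟨k, hk, e⟩ := K_surj hS hx hy
  exact ⟨k, hk, by rintro rfl; exact hxy (by simpa using e)⟩

omit hS in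
theorem K_zpowers {k x : G} {D : Subgroup G} (hk : k ∈ invertedBy D t) (hx : x ∈ zpowers k) :
    x ∈ invertedBy D t := by
  obtain ⟨n, rfl⟩ := hx
  exact ⟨zpow_mem hk.1 n, by simp only; rw [← conj_zpow, hk.2, inv_zpow]⟩

theorem nilp [Finite G]
    (h2 : ∃ x y : G, x ≠ 1 ∧ y ≠ 1 ∧ x ≠ y ∧ x * x = 1 ∧ y * y = 1 ∧ x * y = y * x) :
    Group.IsNilpotent Q := by
  obtain ⟨k, hk, k1⟩ := exists_K_ne hS h2
  exact H1B.Reg.nilp (R := zpowers k) (fun x hx x1 => K_fpf' hS (K_zpowers hk hx) x1)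
    (zpowers_le.2 (stab_le_nrm hS hk.1.1)) (by simpa using k1)

theorem I_central [Finite G]
    (h2 : ∃ x y : G, x ≠ 1 ∧ y ≠ 1 ∧ x ≠ y ∧ x * x = 1 ∧ y * y = 1 ∧ x * y = y * x) {s : G}
    (hs : s ∈ involutionsIn (stabilizer G a : Set G)) {x : G} (hx : x ∈ Q) : s * x = x * s := by
  haveI := nilp hS h2
  obtain ⟨P⟩ : Nonempty (Sylow 2 Q) := inferInstance
  have hPn : (P : Subgroup Q).Normal := inferInstance
  have hP0 : (P : Subgroup Q) ≠ ⊥ := P.ne_bot_of_dvd_card hS.even_card.two_dvd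
  obtain ⟨z, hz, z1⟩ := (bot_or_exists_ne_one ((P : Subgroup Q) ⊓ center Q)).resolve_left
    (H1.inf_center_ne_bot _ hP0)
  have hev : Even (Nat.card (zpowers z)) := by
    obtain ⟨n, hn⟩ := IsPGroup.iff_card.1 (P.isPGroup'.to_le (zpowers_le.2 hz.1))
    rcases n with _ | n
    · exact absurd (card_eq_one.1 hn) (by simpa using z1)
    · rw [hn, pow_succ]; simp
  obtain ⟨j, hj, j2, j1⟩ := exists_invol_of_even hev
  have hjc : j ∈ center Q := (zpowers_le.2 hz.2) hj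
  obtain ⟨k, hk, rfl⟩ := K_surj hS (s := j) ⟨hS.le j.2, fun e => j1 (Subtype.ext e),
    congrArg Subtype.val j2⟩ hs
  have h1 := mem_center_iff.1 hjc ⟨_, hS.conj_mem k hk.1.1 x hx⟩
  have h3 : k * x * k⁻¹ * j = j * (k * x * k⁻¹) := congrArg Subtype.val h1
  calc k⁻¹ * j * k * x = k⁻¹ * (j * (k * x * k⁻¹)) * k := by group
    _ = _ := by rw [← h3]; group

/-- The elementary abelian subgroup `Q₀`. -/
def Q0 [Finite G]
    (h2 : ∃ x y : G, x ≠ 1 ∧ y ≠ 1 ∧ x ≠ y ∧ x * x = 1 ∧ y * y = 1 ∧ x * y = y * x) : Subgroup G where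
  carrier := {s | s • a = a ∧ s * s = 1}
  one_mem' := ⟨one_smul _ _, mul_one _⟩
  inv_mem' := fun {s} hs => by rw [inv_eq_of_mul_eq_one_right hs.2]; exact hs
  mul_mem' := fun {s s'} hs hs' => ⟨by rw [mul_smul, hs'.1, hs.1], by
    by_cases h1 : s = 1
    · rw [h1, one_mul]; exact hs'.2
    have := I_central hS h2 ⟨hs.1, h1, hs.2⟩ (invol_mem hS hs'.1 hs'.2)
    calc s * s' * (s * s') = s * (s' * s) * s' := by group
      _ = (s * s) * (s' * s') := by rw [← this]; group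
      _ = 1 := by rw [hs.2, hs'.2, one_mul]⟩

theorem strongly_real [Finite G]
    (h2 : ∃ x y : G, x ≠ 1 ∧ y ≠ 1 ∧ x ≠ y ∧ x * x = 1 ∧ y * y = 1 ∧ x * y = y * x)
    {u v : G} (hu1 : u ≠ 1) (hu2 : u * u = 1) (hv2 : v * v = 1) (hx : (u * v) * (u * v) ≠ 1) :
    ∃ g : G, g * u * g⁻¹ ∈ involutionsIn (stabilizer G a : Set G) ∧ g * v * g⁻¹ = t := by
  obtain ⟨c, hc⟩ := invol_fix hS hu2
  obtain ⟨g, hg⟩ := trans hS c a
  have h1 : g * u * g⁻¹ ∈ involutionsIn (stabilizer G a : Set G) :=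
    ⟨by rw [← hg]; exact (conj_smul_smul g u c).trans (by rw [hc]), by simpa using hu1,
      by rw [conj_mul, hu2]; simp⟩
  have h3 : g * v * g⁻¹ * (g * v * g⁻¹) = 1 := by rw [conj_mul, hv2]; simp
  have h4 : (g * v * g⁻¹) • a ≠ a := fun e => hx (by
    have := ((Q0 hS h2).mul_mem ⟨h1.1, h1.2.2⟩ ⟨e, h3⟩).2
    rw [conj_mul, conj_mul] at this
    simpa using this)
  obtain ⟨r, hr, l, hl, e⟩ := exists_conj_t hS h3 h4
  refine ⟨l * r * g, ?_, ?_⟩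
  · have := I_conj h1 (h := (l * r)⁻¹) (inv_fix (by rw [mul_smul, fix hS hr]; exact hl.1.1))
    convert this using 1
    group
  · calc l * r * g * v * (l * r * g)⁻¹ = l * r * (g * v * g⁻¹) * (l * r)⁻¹ := by group
      _ = t := by rw [e]; group

theorem odd_cen [Finite G] {u : G} (hu : u ∈ involutionsIn (stabilizer G a : Set G)) :
    Odd (Nat.card (centralizer {u * t})) := by
  by_contra hc
  obtain ⟨z, hz, z2, z1⟩ := exists_invol_of_even (Nat.not_odd_iff_even.1 hc)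
  have hz' : u * t * z = z * (u * t) := hz _ rfl
  obtain ⟨c, hc⟩ := invol_fix hS z2
  have h1 : (u * t) • c = c := invol_unique hS z2 z1 (by rw [← mul_smul, ← hz', mul_smul, hc]) hc
  have h2 : t • c = u • c := by
    rw [mul_smul, ← eq_inv_smul_iff, inv_eq_of_mul_eq_one_right hu.2.2] at h1
    exact h1
  have h3 : u • c ≠ c := fun e => by
    have h4 := invol_unique hS hu.2.2 hu.2.1 hu.1 e
    rw [e, ← h4] at h2
    exact ne hS h2
  obtain ⟨Q', hS'⟩ := at' hS hu.2.2 h3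
  have hx1 : u * t ≠ 1 := fun e => ne hS (by
    rw [eq_inv_of_mul_eq_one_right e]; exact inv_fix hu.1)
  have h5 : (u * t) • u • c = u • c := by rw [← h2, mul_smul, tt hS, h2]
  have h6 : u * t ∈ invertedBy (S2 G c (u • c)) u := ⟨⟨h1, h5⟩, by
    rw [← mul_assoc, hu.2.2, one_mul, mul_inv_rev, tinv hS]⟩
  rcases K_fix hS' h6 hx1 (c := z • u • c) (by rw [← mul_smul, hz', mul_smul, h5]) with h | h
  · exact h3 (smul_left_cancel z (h.trans hc.symm))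
  · exact h3 (invol_unique hS z2 z1 h hc)

theorem V_fix [Finite G] : ∃ c : Ω, c ≠ a ∧ c ≠ t • a ∧
    ∀ v ∈ S2 G a (t • a), t * v = v * t → v • c = c := by
  obtain ⟨s, hs, r, hr, e⟩ := exists_dist hS
  refine ⟨s • t • a, smul_ne_of_fix hs.1 (ne hS),
    fun e => hs.2.1 (reg hS (invol_mem hS hs.1 hs.2.2) (ne hS) e), fun v hv h => ?_⟩
  rw [← mul_smul, ← (cen_dist hS hs hr e hv).1 h, mul_smul, show v • t • a = t • a from hv.2]

theorem V_fusion [Finite G] {X : Set G} (hX : ∀ x ∈ X, x ∈ S2 G a (t • a) ∧ t * x = x * t) {g : G}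
    (hY : ∀ x ∈ X, g * x * g⁻¹ ∈ S2 G a (t • a) ∧ t * (g * x * g⁻¹) = g * x * g⁻¹ * t) :
    ∃ v ∈ S2 G a (t • a), t * v = v * t ∧ ∀ x ∈ X, v * x * v⁻¹ = g * x * g⁻¹ := by
  obtain ⟨c, h1, h2, hc⟩ := V_fix hS
  obtain ⟨y, hy, e1, e2⟩ := two_cen hS (X := (fun x => g * x * g⁻¹) '' X)
    ⟨a, t • a, c, ne' hS, h1.symm, h2.symm, by
      rintro _ ⟨x, hx, rfl⟩
      exact ⟨(hY x hx).1.1, (hY x hx).1.2, hc _ (hY x hx).1 (hY x hx).2⟩⟩
    (b₁ := g • a) (b₂ := g • t • a) (c₁ := a) (c₂ := t • a)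
    (by rintro _ ⟨x, hx, rfl⟩; rw [conj_smul_smul, show x • a = a from (hX x hx).1.1])
    (by rintro _ ⟨x, hx, rfl⟩; rw [conj_smul_smul, show x • t • a = t • a from (hX x hx).1.2])
    (by rintro _ ⟨x, hx, rfl⟩; exact (hY x hx).1.1)
    (by rintro _ ⟨x, hx, rfl⟩; exact (hY x hx).1.2)
    (fun e => ne' hS (smul_left_cancel g e)) (ne' hS)
  obtain ⟨v, hv, k, hk, h3, e⟩ := decompD hS (d := y * g) 
    ⟨mem_stabilizer_iff.2 (by rw [mul_smul, e1]), mem_stabilizer_iff.2 (by rw [mul_smul, e2])⟩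
  refine ⟨v, hv, h3, fun x hx => ?_⟩
  have h4 : v * (k * x * k⁻¹) * v⁻¹ = g * x * g⁻¹ := by
    have h5 := hy _ ⟨x, hx, rfl⟩
    calc v * (k * x * k⁻¹) * v⁻¹ = (v * k) * x * (v * k)⁻¹ := by group
      _ = y * (g * x * g⁻¹) * y⁻¹ := by rw [← e]; group
      _ = _ := by rw [← h5]; group
  have h5 : t * (k * x * k⁻¹) = (k * x * k⁻¹) * t := by
    have h6 := (hY x hx).2
    rw [← h4] at h6
    calc t * (k * x * k⁻¹) = v⁻¹ * (v * t) * (k * x * k⁻¹) := by group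
      _ = v⁻¹ * (t * (v * (k * x * k⁻¹) * v⁻¹)) * v := by rw [← h3]; group
      _ = (k * x * k⁻¹) * v⁻¹ * (t * v) := by rw [h6]; group
      _ = _ := by rw [h3]; group
  have h6 : k * k * x = x * (k * k) := by
    have h7 : k * x * k⁻¹ = k⁻¹ * x * k := by
      calc k * x * k⁻¹ = t * (k * x * k⁻¹) * t⁻¹ := by rw [h5]; group
        _ = (t * k * t⁻¹) * (t * x) * t⁻¹ * (t * k * t⁻¹)⁻¹ := by group
        _ = _ := by rw [hk.2, (hX x hx).2]; group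
    calc k * k * x = k * (k * x * k⁻¹) * k := by group
      _ = _ := by rw [h7]; group
  rw [← h4, commute_of_sq_of_odd (odd_orderOf_of_mem (oddD hS) hk.1) h6]; group

end R1
end H8
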