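import Mathlib
import Cfsg.Agent.H8.AppI
import Cfsg.Agent.H1.Fitting
import Cfsg.Agent.FT.Main

/-! Groups transitive (up to sign) on the non-zero vectors with a self-centralizing abelian
normal subgroup are one-dimensional semilinear groups. -/

set_option autoImplicit false

namespace H8

open Cfsg Subgroup MulAction
open scoped IsMulCommutative

theorem ringAut_facts (F : Type*) [Field F] [Finite F] (p : ℕ) [Fact p.Prime] [CharP F p] :
    IsCyclic (F ≃+* F) ∧ Nat.card F = p ^ Nat.card (F ≃+* F) := by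
  let _ := ZMod.algebra F p
  let _ := Fintype.ofFinite F
  let e : (F ≃ₐ[ZMod p] F) ≃* (F ≃+* F) :=
    { toFun := fun φ => φ.toRingEquiv
      invFun := fun φ => AlgEquiv.ofRingEquiv (f := φ) fun x => by
        obtain ⟨k, rfl⟩ := ZMod.intCast_surjective x; simp
      left_inv := fun _ => rfl
      right_inv := fun _ => rfl
      map_mul' := fun _ _ => rfl }
  refine ⟨isCyclic_of_surjective e e.surjective, ?_⟩
  rw [← Nat.card_congr e.toEquiv, IsGalois.card_aut_eq_finrank, Nat.card_eq_fintype_card,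
    Module.card_eq_pow_finrank (K := ZMod p), ZMod.card]

theorem isCyclic_ringAut (F : Type*) [Field F] [Finite F] : IsCyclic (F ≃+* F) :=
  let ⟨p, _⟩ := CharP.exists F
  have : Fact p.Prime := ⟨CharP.char_is_prime F p⟩
  (ringAut_facts F p).1

theorem two_mul_card_ringAut_le (F : Type*) [Field F] [Finite F] :
    2 * Nat.card (F ≃+* F) ≤ Nat.card F := by
  obtain ⟨p, _⟩ := CharP.exists F
  have hp : Fact p.Prime := ⟨CharP.char_is_prime F p⟩
  rw [(ringAut_facts F p).2]
  generalize Nat.card (F ≃+* F) = f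
  refine le_trans ?_ (Nat.pow_le_pow_left hp.out.two_le f)
  rcases f with _ | f
  · simp
  · have := Nat.lt_two_pow_self (n := f)
    rw [pow_succ]; omega

universe u

theorem semilin0 {D : Type*} {E : Type u} [Group D] [Finite D] [AddCommGroup E] [Finite E]
    [Nontrivial E] [DistribMulAction D E] [FaithfulSMul D E] (A : Subgroup D) [hn : A.Normal]
    [IsMulCommutative A] (hC : centralizer (A : Set D) ≤ A)
    (htr : ∀ a b : E, a ≠ 0 → b ≠ 0 → ∃ d : D, d • a = b ∨ d • a = -b) (v0 : E) (hv0 : v0 ≠ 0) :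
    ∃ (R : Type u) (_ : Field R) (e : E ≃+ R) (Φ : D →* (R ≃+* R)), e v0 = 1 ∧ Φ.ker = A ∧
      ∀ d : D, ∀ x, e (d • x) = e (d • v0) * Φ d (e x) := by
  classical
  let ρ : D →* AddMonoid.End E := DistribMulAction.toAddMonoidEnd D E
  have hρ : ∀ d x, ρ d x = d • x := fun _ _ => rfl
  have hρi : Function.Injective ρ := fun a b e =>
    eq_of_smul_eq_smul (α := E) fun x => by rw [← hρ, ← hρ, e]
  haveI : Finite (AddMonoid.End E) := Finite.of_injective _ DFunLike.coe_injective
  let R : Subring (AddMonoid.End E) := Subring.closure (ρ '' A)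
  have hcomm : ∀ x ∈ ρ '' A, ∀ y ∈ ρ '' A, x * y = y * x := by
    rintro _ ⟨a, ha, rfl⟩ _ ⟨b, hb, rfl⟩
    rw [← map_mul, ← map_mul]
    exact congrArg ρ (congrArg Subtype.val (mul_comm (⟨a, ha⟩ : A) ⟨b, hb⟩))
  haveI : IsMulCommutative R := Subring.isMulCommutative_closure hcomm
  have hRc : ∀ r s : R, r * s = s * r := fun r s => mul_comm r s
  have hconj : ∀ d : D, ∀ r ∈ R, ρ d * r * ρ d⁻¹ ∈ R := by
    intro d r hr
    have h1 : ρ d⁻¹ * ρ d = 1 := by rw [← map_mul, inv_mul_cancel, map_one]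
    have h2 : ρ d * ρ d⁻¹ = 1 := by rw [← map_mul, mul_inv_cancel, map_one]
    induction hr using Subring.closure_induction with
    | mem x hx =>
      obtain ⟨a, ha, rfl⟩ := hx
      rw [← map_mul, ← map_mul]
      exact Subring.subset_closure ⟨_, hn.conj_mem _ ha d, rfl⟩
    | zero => simp
    | one => rw [mul_one, h2]; exact one_mem _
    | add x y _ _ hx hy => rw [mul_add, add_mul]; exact add_mem hx hy
    | neg x _ hx => rw [mul_neg, neg_mul]; exact neg_mem hx
    | mul x y _ _ hx hy =>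
      have : ρ d * (x * y) * ρ d⁻¹ = (ρ d * x * ρ d⁻¹) * (ρ d * y * ρ d⁻¹) := by
        calc _ = ρ d * x * (ρ d⁻¹ * ρ d) * y * ρ d⁻¹ := by rw [h1]; simp only [mul_one, mul_assoc]
          _ = _ := by simp only [mul_assoc]
      rw [this]; exact mul_mem hx hy
  let Φ1 : D → R →+* R := fun d =>
    { toFun := fun r => ⟨ρ d * r * ρ d⁻¹, hconj d r r.2⟩
      map_one' := Subtype.ext (by
        show ρ d * 1 * ρ d⁻¹ = 1
        rw [mul_one, ← map_mul, mul_inv_cancel, map_one])
      map_zero' := Subtype.ext (by show ρ d * 0 * ρ d⁻¹ = 0; simp)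
      map_add' := fun x y => Subtype.ext (by
        show ρ d * (x + y) * ρ d⁻¹ = ρ d * x * ρ d⁻¹ + ρ d * y * ρ d⁻¹
        rw [mul_add, add_mul])
      map_mul' := fun x y => Subtype.ext (by
        show ρ d * (x * y) * ρ d⁻¹ = (ρ d * x * ρ d⁻¹) * (ρ d * y * ρ d⁻¹)
        have h1 : ρ d⁻¹ * ρ d = 1 := by rw [← map_mul, inv_mul_cancel, map_one]
        calc _ = ρ d * x * (ρ d⁻¹ * ρ d) * y * ρ d⁻¹ := by rw [h1]; simp only [mul_one, mul_assoc]
          _ = _ := by simp only [mul_assoc]) }
  have hΦ1 : ∀ d (r : R) (x : E), (Φ1 d r : AddMonoid.End E) x = d • (r : AddMonoid.End E) (d⁻¹ • x) :=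
    fun _ _ _ => rfl
  have hΦm : ∀ d d' r, Φ1 (d * d') r = Φ1 d (Φ1 d' r) := fun d d' r =>
    Subtype.ext (DFunLike.ext _ _ fun x => by rw [hΦ1, hΦ1, hΦ1, mul_inv_rev, mul_smul, mul_smul])
  have hΦo : ∀ r, Φ1 1 r = r := fun r => Subtype.ext (DFunLike.ext _ _ fun x => by
    rw [hΦ1, inv_one, one_smul, one_smul])
  let Φ : D →* (R ≃+* R) :=
    { toFun := fun d => { Φ1 d with
        invFun := Φ1 d⁻¹
        left_inv := fun r => by
          show Φ1 d⁻¹ (Φ1 d r) = r
          rw [← hΦm, inv_mul_cancel, hΦo]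
        right_inv := fun r => by
          show Φ1 d (Φ1 d⁻¹ r) = r
          rw [← hΦm, mul_inv_cancel, hΦo] }
      map_one' := RingEquiv.ext hΦo
      map_mul' := fun d d' => RingEquiv.ext (hΦm d d') }
  have hΦ : ∀ d (r : R) (x : E), (Φ d r : AddMonoid.End E) (d • x) = d • (r : AddMonoid.End E) x :=
    fun d r x => (hΦ1 d r _).trans (by rw [inv_smul_smul])
  have hker : Φ.ker = A := by
    apply le_antisymm
    · intro d hd
      refine hC (mem_centralizer_iff.2 fun a ha => hρi (DFunLike.ext _ _ fun x => ?_))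
      have := hΦ d ⟨ρ a, Subring.subset_closure ⟨a, ha, rfl⟩⟩ x
      rw [MonoidHom.mem_ker.1 hd] at this
      rw [hρ, hρ, mul_smul, mul_smul]
      exact this
    · intro a ha
      refine MonoidHom.mem_ker.2 (RingEquiv.ext fun r => Subtype.ext (DFunLike.ext _ _ fun x => ?_))
      have h1 := congrArg (fun s : R => (s : AddMonoid.End E) (a⁻¹ • x))
        (hRc ⟨ρ a, Subring.subset_closure ⟨a, ha, rfl⟩⟩ r)
      have h2 : a • (r : AddMonoid.End E) (a⁻¹ • x) = (r : AddMonoid.End E) (a • a⁻¹ • x) := h1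
      rw [smul_inv_smul] at h2
      exact (hΦ1 a r x).trans h2
  -- cyclic submodules
  let O : E → Set E := fun v => Set.range fun r : R => (r : AddMonoid.End E) v
  have hO : ∀ v w, v ≠ 0 → w ≠ 0 → (O v).ncard ≤ (O w).ncard := by
    intro v w hv hw
    obtain ⟨d, hd⟩ := htr v w hv hw
    refine Set.ncard_le_ncard_of_injOn (fun x => d • x) ?_ (fun x _ y _ e => smul_left_cancel d e)
    rintro _ ⟨r, rfl⟩
    rcases hd with hd | hd
    · exact ⟨Φ d r, by rw [← hd]; exact hΦ d r v⟩
    · refine ⟨-Φ d r, ?_⟩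
      have := hΦ d r v
      rw [hd, map_neg] at this
      exact this
  have hsimp : ∀ v (r : R), (r : AddMonoid.End E) v ≠ 0 →
      ∃ s : R, (s : AddMonoid.End E) ((r : AddMonoid.End E) v) = v := by
    intro v r hr
    have hv : v ≠ 0 := by rintro rfl; exact hr (map_zero _)
    have hsub : O ((r : AddMonoid.End E) v) ⊆ O v := by
      rintro _ ⟨s, rfl⟩; exact ⟨s * r, rfl⟩
    have := Set.eq_of_subset_of_ncard_le hsub (hO _ _ hv hr)
    have h1 : v ∈ O v := ⟨1, rfl⟩
    rwa [← this] at h1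
  have hinj : ∀ (r : R) v, v ≠ 0 → (r : AddMonoid.End E) v = 0 → r = 0 := by
    intro r v hv h0
    refine Subtype.ext (DFunLike.ext _ _ fun w => ?_)
    by_contra hw
    replace hw : (r : AddMonoid.End E) w ≠ 0 := hw
    have h1 : (r : AddMonoid.End E) (v + w) = (r : AddMonoid.End E) w := by
      rw [map_add, h0, zero_add]
    obtain ⟨s, hs⟩ := hsimp (v + w) r (h1 ▸ hw)
    rw [h1] at hs
    have h2 : ((s * r - 1 : R) : AddMonoid.End E) w = v := by
      show (s : AddMonoid.End E) ((r : AddMonoid.End E) w) - w = v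
      rw [hs]; abel
    obtain ⟨s', hs'⟩ := hsimp w (s * r - 1) (h2 ▸ hv)
    rw [h2] at hs'
    have h3 := congrArg (fun s : R => (s : AddMonoid.End E) v) (hRc r s')
    have h4 : (r : AddMonoid.End E) ((s' : AddMonoid.End E) v) =
      (s' : AddMonoid.End E) ((r : AddMonoid.End E) v) := h3
    rw [hs', h0, map_zero] at h4
    exact hw h4
  have hF : IsField R :=
    { exists_pair_ne := ⟨1, 0, fun e => hv0 (congrArg (fun s : R => (s : AddMonoid.End E) v0) e)⟩
      mul_comm := hRc
      mul_inv_cancel := fun {r} hr => by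
        obtain ⟨s, hs⟩ := hsimp v0 r fun e => hr (hinj r v0 hv0 e)
        refine ⟨s, ?_⟩
        rw [hRc, ← sub_eq_zero]
        exact hinj _ v0 hv0 (sub_eq_zero.2 hs) }
  letI : Field R := hF.toField
  let f : R →+ E := AddMonoidHom.mk' (fun r => (r : AddMonoid.End E) v0) fun _ _ => rfl
  have hfi : Function.Injective f := (injective_iff_map_eq_zero f).2 fun r h => hinj r v0 hv0 h
  have hfs : Function.Surjective f := by
    by_contra hns
    obtain ⟨w, hw⟩ : ∃ w, ∀ r, f r ≠ w := by simpa [Function.Surjective] using hns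
    have hw0 : w ≠ 0 := (hw 0).symm.trans_eq (map_zero f) 
    let g : R × R →+ E := AddMonoidHom.mk' (fun r => f r.1 + (r.2 : AddMonoid.End E) w)
      fun x y => by
        show f (x.1 + y.1) + ((x.2 : AddMonoid.End E) w + (y.2 : AddMonoid.End E) w) = _
        rw [map_add]; abel
    have hg : Function.Injective g := (injective_iff_map_eq_zero g).2 fun ⟨r, s⟩ h => by
      have h' : f r + (s : AddMonoid.End E) w = 0 := h
      by_cases hs : (s : AddMonoid.End E) w = 0
      · rw [hs, add_zero] at h'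
        exact Prod.ext (hinj r v0 hv0 h') (hinj s w hw0 hs)
      · obtain ⟨s', hs'⟩ := hsimp w s hs
        rw [eq_neg_of_add_eq_zero_right h', map_neg] at hs'
        exact absurd hs' (hw (-(s' * r)))
    have c1 := Nat.card_le_card_of_injective g hg
    rw [Nat.card_prod] at c1
    haveI : Finite (R ≃+* R) := Finite.of_injective _ DFunLike.coe_injective
    have c2 : Nat.card D ≤ Nat.card A * Nat.card (R ≃+* R) := by
      rw [← hker, ← Φ.ker.card_mul_index, Subgroup.index_ker]
      exact Nat.mul_le_mul_left _ (Subgroup.card_le_card_group _)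
    have c3 : Nat.card A + 1 ≤ Nat.card R := by
      have : Nat.card A ≤ Nat.card Rˣ := Nat.card_le_card_of_injective
        (fun a => Units.mk0 (⟨ρ a, Subring.subset_closure ⟨a, a.2, rfl⟩⟩ : R) fun e => hv0 (by
          have : (a : D) • v0 = 0 := congrArg (fun s : R => (s : AddMonoid.End E) v0) e
          exact (smul_eq_zero_iff_eq _).1 this))
        fun a b e => Subtype.ext (hρi (congrArg (fun u : Rˣ => ((u : R) : AddMonoid.End E)) e))
      rw [Nat.card_units] at this
      have := Nat.card_pos (α := R)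
      omega
    have c4 : Nat.card E ≤ 2 * Nat.card D + 1 := by
      have : Function.Surjective fun x : Option (Bool × D) =>
          (x.elim 0 fun y => if y.1 then y.2 • v0 else -(y.2 • v0) : E) := by
        intro b
        by_cases hb : b = 0
        · exact ⟨none, hb.symm⟩
        obtain ⟨d, hd | hd⟩ := htr v0 b hv0 hb
        · exact ⟨some (true, d), hd⟩
        · exact ⟨some (false, d), by simp [hd]⟩
      have := Nat.card_le_card_of_surjective _ this
      simpa [Finite.card_option] using this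
    have c5 := two_mul_card_ringAut_le R
    have c6 : 1 < Nat.card R := Finite.one_lt_card
    generalize Nat.card R = q at *
    generalize Nat.card (R ≃+* R) = m at *
    generalize Nat.card A = n at *
    nlinarith
  let e := (AddEquiv.ofBijective f ⟨hfi, hfs⟩).symm
  have he : ∀ r, e (f r) = r := fun r => (AddEquiv.ofBijective f ⟨hfi, hfs⟩).symm_apply_apply r
  refine ⟨R, inferInstance, e, Φ, he 1, hker, fun d x => ?_⟩
  obtain ⟨r, rfl⟩ := hfs x
  obtain ⟨c, hc⟩ := hfs (d • v0)
  rw [← hc, he, he, hRc, ← he (_ * c)]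
  congr 1
  show _ = (Φ d r : AddMonoid.End E) (f c)
  rw [hc, hΦ]; rfl

/-- An element inverted by an automorphism normalizing a cyclic subgroup. -/
theorem mem_centralizer_of_inv {D : Type*} [Group D] [Finite D] (A : Subgroup D) [hn : A.Normal]
    [IsCyclic A] (σ : D ≃* D) (hσ : ∀ a ∈ A, σ a ∈ A) {x : D} (hx : σ x = x⁻¹)
    (ho : Odd (orderOf x)) : x ∈ centralizer (A : Set D) := by
  obtain ⟨g, hg⟩ := IsCyclic.exists_generator (α := A)
  obtain ⟨m, hm⟩ := mem_zpowers_iff.1 (hg ⟨_, hσ _ g.2⟩)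
  obtain ⟨n, hn'⟩ := mem_zpowers_iff.1 (hg ⟨_, hn.conj_mem _ g.2 x⟩)
  replace hm : (g : D) ^ m = σ g := congrArg Subtype.val hm
  replace hn' : (g : D) ^ n = x * g * x⁻¹ := congrArg Subtype.val hn'
  have h1 : x⁻¹ * σ g * x = x * σ g * x⁻¹ := by
    have e1 : σ (x * g * x⁻¹) = x⁻¹ * σ g * x := by rw [map_mul, map_mul, map_inv, hx, inv_inv]
    rw [← e1, ← hn', map_zpow, ← hm, ← zpow_mul, mul_comm m, zpow_mul, hn', conj_zpow]
  have h2 : x * x * σ g = σ g * (x * x) := by
    calc x * x * σ g = x * (x * σ g * x⁻¹) * x := by group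
      _ = _ := by rw [← h1]; group
  have h3 : Commute x (σ g) := by
    have h4 : Commute (x * x) (σ g) := h2
    obtain ⟨k, hk⟩ := ho
    have : x = (x * x) ^ (k + 1) := by
      rw [← pow_two, ← pow_mul, show 2 * (k + 1) = orderOf x + 1 by omega, pow_succ,
        pow_orderOf_eq_one, one_mul]
    rw [this]; exact h4.pow_left _
  have h5 : Commute x g := by
    have : Commute (σ x⁻¹) (σ g) := by rw [map_inv, hx, inv_inv]; exact h3
    have h6 : Commute x⁻¹ (g : D) := σ.injective (by rw [map_mul, map_mul]; exact this)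
    simpa using h6.inv_left
  refine mem_centralizer_iff.2 fun a ha => ?_
  obtain ⟨k, hk⟩ := mem_zpowers_iff.1 (hg ⟨a, ha⟩)
  have : a = (g : D) ^ k := (congrArg Subtype.val hk).symm
  rw [this]; exact (h5.zpow_right k).symm

end H8
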