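import Cfsg.Agent.H8.Rk2
import Cfsg.Agent.H8.SemiLin
import Cfsg.Agent.H1.Action2

/-! Rank one set-up, III: `K` is cyclic and normal in `D`, `V/W` is cyclic. -/

set_option autoImplicit false

namespace H8

open Cfsg Subgroup MulAction
open scoped IsMulCommutative

universe u

variable {G : Type u} {Ω : Type*} [Group G] [MulAction G Ω] {a : Ω} {t : G} {Q : Subgroup G}

namespace R1

variable (hS : IsRankOneSetup G Ω a t Q) [Finite G]
  (h2 : ∃ x y : G, x ≠ 1 ∧ y ≠ 1 ∧ x ≠ y ∧ x * x = 1 ∧ y * y = 1 ∧ x * y = y * x)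
include hS h2

theorem mem_Q0 {s : G} : s ∈ Q0 hS h2 ↔ s • a = a ∧ s * s = 1 := Iff.rfl

theorem Q0_conj {d s : G} (hd : d • a = a) (hs : s ∈ Q0 hS h2) : d * s * d⁻¹ ∈ Q0 hS h2 :=
  ⟨by rw [mul_smul, mul_smul, inv_smul_eq_iff.2 hd.symm, hs.1, hd], by rw [conj_mul, hs.2]; simp⟩

theorem Q0_nrm : stabilizer G a ≤ normalizer (Q0 hS h2 : Set G) := fun d hd =>
  mem_normalizer_iff.2 fun x => ⟨Q0_conj hS h2 hd, fun h => by
    simpa [mul_assoc] using Q0_conj hS h2 (d := d⁻¹) (inv_mem hd) h⟩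

theorem Q0_comm : IsMulCommutative (Q0 hS h2) := ⟨⟨fun x y => Subtype.ext (by
  by_cases h : (x : G) = 1
  · simp [h]
  exact I_central hS h2 ⟨x.2.1, h, x.2.2⟩ (invol_mem hS y.2.1 y.2.2))⟩⟩

/-- The semilinear structure of `D` on `Q₀`. -/
theorem core {s : G} (hs : s ∈ involutionsIn (stabilizer G a : Set G)) :
    (∃ k ∈ invertedBy (S2 G a (t • a)) t, (zpowers k : Set G) = invertedBy (S2 G a (t • a)) t) ∧
    ∃ (F : Type u) (_ : Field F) (e : G → F) (Φ : S2 G a (t • a) →* (F ≃+* F)), e s = 1 ∧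
      Set.BijOn e (Q0 hS h2) Set.univ ∧
      (∀ x ∈ Q0 hS h2, ∀ y ∈ Q0 hS h2, e (x * y) = e x + e y) ∧
      (∀ k : S2 G a (t • a), (k : G) ∈ invertedBy (S2 G a (t • a)) t → Φ k = 1) ∧
      ∀ d : S2 G a (t • a), ∀ x ∈ Q0 hS h2,
        e (d * x * (d : G)⁻¹) = e (d * s * (d : G)⁻¹) * Φ d (e x) := by
  classical
  set D := S2 G a (t • a) with hD
  haveI := Q0_comm hS h2
  let φ : D →* MulAut (Q0 hS h2) :=
    (Q0 hS h2).normalizerMonoidHom.comp (inclusion (inf_le_left.trans (Q0_nrm hS h2)))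
  have hφ : ∀ (d : D) (x : Q0 hS h2), (φ d x : G) = d * x * (d : G)⁻¹ := fun _ _ => rfl
  have hW : ∀ d : D, d ∈ φ.ker ↔ ∀ s ∈ involutionsIn (stabilizer G a : Set G), s * d = d * s := by
    intro d
    rw [MonoidHom.mem_ker]
    constructor
    · intro h s hs
      have := hφ d ⟨s, hs.1, hs.2.2⟩
      rw [h] at this
      exact mul_inv_eq_iff_eq_mul.1 this.symm |>.symm
    · intro h
      refine MulEquiv.ext fun x => Subtype.ext ?_
      rw [hφ]
      by_cases hx : (x : G) = 1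
      · simp [hx]
      rw [← h x ⟨x.2.1, hx, x.2.2⟩]; simp
  let τ : D ≃* D :=
    { toFun := fun d => ⟨_, tconj hS d.2⟩
      invFun := fun d => ⟨_, tconj hS d.2⟩
      left_inv := fun d => Subtype.ext (by
        show t * (t * d * t⁻¹) * t⁻¹ = d
        rw [tinv hS]
        calc _ = (t * t) * d * (t * t) := by group
          _ = _ := by rw [hS.mul_self]; simp)
      right_inv := fun d => Subtype.ext (by
        show t * (t * d * t⁻¹) * t⁻¹ = d
        rw [tinv hS]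
        calc _ = (t * t) * d * (t * t) := by group
          _ = _ := by rw [hS.mul_self]; simp)
      map_mul' := fun x y => Subtype.ext (by
        show t * (x * y) * t⁻¹ = (t * x * t⁻¹) * (t * y * t⁻¹); group) }
  have hτW : ∀ d ∈ φ.ker, τ d = d := fun d hd => Subtype.ext (by
    show t * d * t⁻¹ = d
    rw [(((W_iff hS d.2).2 ((hW d).1 hd)).1)]; simp)
  have hmap : φ.ker.map (τ : D →* D) = φ.ker := by
    ext d
    constructor
    · rintro ⟨x, hx, rfl⟩
      have : (τ : D →* D) x = x := hτW x hx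
      rwa [this]
    · intro hd; exact ⟨d, hd, hτW d hd⟩
  let σ : (D ⧸ φ.ker) ≃* (D ⧸ φ.ker) := QuotientGroup.congr φ.ker φ.ker τ hmap
  let E := Additive (Q0 hS h2)
  letI : DistribMulAction (D ⧸ φ.ker) E :=
    { smul := fun g x => Additive.ofMul (QuotientGroup.kerLift φ g x.toMul)
      one_smul := fun x => by
        show Additive.ofMul (QuotientGroup.kerLift φ 1 x.toMul) = x
        rw [map_one]; rfl
      mul_smul := fun g h x => by
        show Additive.ofMul (QuotientGroup.kerLift φ (g * h) x.toMul) = _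
        rw [map_mul]; rfl
      smul_zero := fun g => congrArg Additive.ofMul (map_one (QuotientGroup.kerLift φ g))
      smul_add := fun g x y => congrArg Additive.ofMul (map_mul (QuotientGroup.kerLift φ g) _ _) }
  have hsm : ∀ (d : D) (x : E), (((d : D ⧸ φ.ker) • x).toMul : G) = d * x.toMul * (d : G)⁻¹ :=
    fun _ _ => rfl
  haveI : FaithfulSMul (D ⧸ φ.ker) E := ⟨fun {g h} e => QuotientGroup.kerLift_injective φ
    (MulEquiv.ext fun x => e (Additive.ofMul x))⟩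
  let s0 : E := Additive.ofMul ⟨s, hs.1, hs.2.2⟩
  have hs0 : s0 ≠ 0 := fun e => hs.2.1 (congrArg (fun x : E => (x.toMul : G)) e)
  haveI : Nontrivial E := ⟨_, _, hs0⟩
  have hI : ∀ x : E, x ≠ 0 → (x.toMul : G) ∈ involutionsIn (stabilizer G a : Set G) :=
    fun x hx => ⟨x.toMul.2.1, fun e => hx (Subtype.ext e), x.toMul.2.2⟩
  have htrK : ∀ x y : E, x ≠ 0 → y ≠ 0 → ∃ k : D, (k : G) ∈ invertedBy D t ∧
      (k : D ⧸ φ.ker) • x = y := by
    intro x y hx hy
    obtain ⟨k, hk, e⟩ := K_surj hS (hI x hx) (hI y hy)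
    refine ⟨⟨k⁻¹, inv_mem hk.1⟩, K_inv hk, Subtype.ext ?_⟩
    exact ((hsm _ x).trans (by simp)).trans e
  have htr : ∀ x y : E, x ≠ 0 → y ≠ 0 → ∃ d : D ⧸ φ.ker, d • x = y := fun x y hx hy =>
    let ⟨k, _, e⟩ := htrK x y hx hy; ⟨k, e⟩
  have hodd : Odd (Nat.card (D ⧸ φ.ker)) :=
    (oddD hS).of_dvd_nat (card_quotient_dvd_card _)
  obtain ⟨hcyc, hfpf⟩ := appI (q := 2) hodd Nat.prime_two
    (fun x : E => by rw [two_nsmul]; exact Subtype.ext x.toMul.2.2) htr
  haveI := FT.odd_solvable hodd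
  set A := fittingSubgroup (D ⧸ φ.ker)
  have hKA : ∀ k : D, (k : G) ∈ invertedBy D t → (k : D ⧸ φ.ker) ∈ A := by
    intro k hk
    refine H1.centralizer_fitting_le (mem_centralizer_of_inv A σ (fun x hx => ?_) ?_
      (hodd.of_dvd_nat (orderOf_dvd_natCard _)))
    · exact (H1.map_fitting_equiv σ).le (mem_map_of_mem _ hx)
    · have : τ k = k⁻¹ := Subtype.ext hk.2
      show ((τ k : D) : D ⧸ φ.ker) = _
      rw [this]; rfl
  have hKi : ∀ k k' : D, (k : G) ∈ invertedBy D t → (k' : G) ∈ invertedBy D t →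
      (k : D ⧸ φ.ker) = k' → k = k' := by
    intro k k' hk hk' e
    have h1 := hsm k s0
    rw [e, hsm] at h1
    refine inv_injective (Subtype.ext (K_inj hS hs (K_inv hk) (K_inv hk') ?_))
    rw [coe_inv, coe_inv, inv_inv, inv_inv]
    exact h1.symm
  haveI : IsMulCommutative A := ⟨⟨fun x y => by
    letI := IsCyclic.commGroup (α := A); exact mul_comm x y⟩⟩
  constructor
  · obtain ⟨g, hg⟩ := IsCyclic.exists_generator (α := A)
    obtain ⟨k, hk, e⟩ := htrK s0 ((g : D ⧸ φ.ker) • s0) hs0 ((smul_ne_zero_iff_ne _).2 hs0)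
    have hkg : (k : D ⧸ φ.ker) = g := by
      by_contra hne
      refine hs0 (hfpf ((g : D ⧸ φ.ker)⁻¹ * k) (mul_mem (inv_mem g.2) (hKA k hk))
        (fun h => hne (inv_mul_eq_one.1 h).symm) s0 ?_)
      rw [mul_smul, e, inv_smul_smul]
    refine ⟨k, hk, Set.Subset.antisymm (fun x hx => K_zpowers hk hx) fun x hx => ?_⟩
    obtain ⟨n, hn⟩ := mem_zpowers_iff.1 (hg ⟨_, hKA ⟨x, hx.1⟩ hx⟩)
    have := hKi (k ^ n) ⟨x, hx.1⟩ (K_zpowers hk ⟨n, rfl⟩) hx (by
      rw [QuotientGroup.mk_zpow, hkg]; exact congrArg Subtype.val hn)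
    exact ⟨n, congrArg Subtype.val this⟩
  obtain ⟨F, _, e, Φ, h1, hker, hΦ⟩ := semilin0 A H1.centralizer_fitting_le
    (fun x y hx hy => let ⟨d, e⟩ := htr x y hx hy; ⟨d, Or.inl e⟩) s0 hs0
  let e' : G → F := fun x => if h : x ∈ Q0 hS h2 then e (Additive.ofMul ⟨x, h⟩) else 0
  have he' : ∀ x : E, e' (x.toMul : G) = e x := fun x => dif_pos x.toMul.2
  refine ⟨F, inferInstance, e', Φ.comp (QuotientGroup.mk' _), (he' s0).trans h1,
    ⟨fun _ _ => trivial, fun x hx y hy h => ?_, fun c _ => ⟨_, (e.symm c).toMul.2, ?_⟩⟩,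
    fun x hx y hy => ?_, fun k hk => ?_, fun d x hx => ?_⟩
  · have := (he' (Additive.ofMul ⟨x, hx⟩)).symm.trans (h.trans (he' (Additive.ofMul ⟨y, hy⟩)))
    exact congrArg (fun x : E => (x.toMul : G)) (e.injective this)
  · rw [he', e.apply_symm_apply]
  · have := map_add e (Additive.ofMul ⟨x, hx⟩) (Additive.ofMul ⟨y, hy⟩)
    rwa [← he', ← he', ← he'] at this
  · have := hKA k hk
    rwa [← hker] at this
  · have := hΦ d (Additive.ofMul ⟨x, hx⟩)
    rwa [← he', ← he', ← he'] at this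

theorem K_cyc : ∃ k ∈ invertedBy (S2 G a (t • a)) t,
    (zpowers k : Set G) = invertedBy (S2 G a (t • a)) t :=
  let ⟨_, hs⟩ := exists_I hS; (core hS h2 hs).1

theorem K_comm {x y : G} (hx : x ∈ invertedBy (S2 G a (t • a)) t)
    (hy : y ∈ invertedBy (S2 G a (t • a)) t) : x * y = y * x := by
  obtain ⟨k, -, e⟩ := K_cyc hS h2
  rw [← e] at hx hy
  obtain ⟨m, rfl⟩ := hx
  obtain ⟨n, rfl⟩ := hy
  exact zpow_mul_comm k m n

theorem K_conj {d c : G} (hd : d ∈ S2 G a (t • a)) (hc : c ∈ invertedBy (S2 G a (t • a)) t) :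
    d * c * d⁻¹ ∈ invertedBy (S2 G a (t • a)) t := by
  obtain ⟨v, hv, k, hk, h1, rfl⟩ := decompD hS hd
  have := V_conj_K hS (inv_mem hv) (v := v⁻¹) ((Commute.inv_right h1)) hc
  rw [show v * k * c * (v * k)⁻¹ = v * (k * c) * k⁻¹ * v⁻¹ by group, K_comm hS h2 hk hc]
  simpa [mul_assoc] using this

theorem V_cyc : ∃ v ∈ S2 G a (t • a) ⊓ centralizer {t},
    (S2 G a (t • a) ⊓ centralizer {t} ⊓ centralizer (invertedBy (S2 G a (t • a)) t)) ⊔ zpowers v =
      S2 G a (t • a) ⊓ centralizer {t} := by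
  obtain ⟨s, hs, r, hr, er⟩ := exists_dist hS
  obtain ⟨-, F, _, e, Φ, h1, hb, -, hK, hΦ⟩ := core hS h2 hs
  haveI : Finite F := Set.finite_univ_iff.1 (hb.image_eq ▸ (Set.toFinite _).image e)
  haveI := isCyclic_ringAut F
  refine H1.exists_sup_zpowers_of_isCyclic_range (Φ.comp (inclusion inf_le_left)) ?_
  ext v
  have hv : t * v = v * t := (mem_centralizer_singleton_iff.1 v.2.2).symm
  have hsv := (cen_dist hS hs hr er v.2.1).1 hv
  have h3 : ∀ x ∈ Q0 hS h2, e (v * x * (v : G)⁻¹) = Φ ⟨v, v.2.1⟩ (e x) := fun x hx => by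
    have := hΦ ⟨v, v.2.1⟩ x hx
    rwa [show ((⟨v, v.2.1⟩ : S2 G a (t • a)) : G) * s = s * v from hsv.symm, mul_inv_cancel_right,
      h1, one_mul] at this
  rw [MonoidHom.mem_ker, mem_subgroupOf, mem_centralizer_iff]
  constructor
  · intro h
    refine ((W_iff hS v.2.1).2 fun x hx => ?_).2
    have hx' : x ∈ Q0 hS h2 := ⟨hx.1, hx.2.2⟩
    have := h3 x hx'
    rw [show Φ ⟨v, v.2.1⟩ = 1 from h] at this
    exact (mul_inv_eq_iff_eq_mul.1 (hb.injOn (Q0_conj hS h2 v.2.1.1 hx') hx' this)).symm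
  · intro h
    refine RingEquiv.ext fun c => ?_
    obtain ⟨x, hx, rfl⟩ := hb.surjOn (Set.mem_univ c)
    refine (h3 x hx).symm.trans ?_
    by_cases hx1 : x = 1
    · simp [hx1]
    rw [← (W_iff hS v.2.1).1 ⟨hv, h⟩ x ⟨hx.1, hx1, hx.2⟩]; simp

end R1

end H8
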