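import Mathlib
import Cfsg.Agent.H1.BG3c
import Cfsg.Agent.H1.U1
import Cfsg.Agent.H1.Frob
import Cfsg.Agent.H7.FF4

/-! Fixed-point-free coprime action of `S₃`. -/

set_option autoImplicit false

namespace H8
open Subgroup H7
open scoped commutatorElement

universe u
variable {G G' : Type*} [Group G] [Group G'] {s t x y : G} {K V L N B C D : Subgroup G} {r q : ℕ}

structure S3R (s t : G) : Prop where
  s3 : s * s * s = 1
  t2 : t * t = 1
  ts : t * s * t⁻¹ = s⁻¹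

structure S3F (s t : G) (K : Subgroup G) : Prop where
  ns : s ∈ nrm K
  nt : t ∈ nrm K
  c6 : (ord K).Coprime 6
  fix : ∀ x ∈ K, x * s = s * x → x * t = t * x → x = 1

theorem S3R.mul (h : S3R s t) : S3R s (t * s) := ⟨h.s3, by
  calc t * s * (t * s) = t * s * t⁻¹ * (t * t) * s := by group
    _ = 1 := by rw [h.ts, h.t2]; group, by
  calc t * s * s * (t * s)⁻¹ = t * s * t⁻¹ := by group
    _ = _ := h.ts⟩

theorem S3R.e1 (h : S3R s t) : s * s = s⁻¹ := eq_inv_of_mul_eq_one_left h.s3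
theorem S3R.e2 (h : S3R s t) : s⁻¹ * s⁻¹ = s := by rw [← mul_inv_rev, h.e1, inv_inv]
theorem S3R.e3 (h : S3R s t) : t * s = s⁻¹ * t := by rw [← h.ts]; group
theorem S3R.e4 (h : S3R s t) : t * s⁻¹ = s * t := by
  rw [mul_inv_eq_iff_eq_mul, mul_assoc, h.e3, mul_inv_cancel_left]

theorem S3R.ev (h : S3R s t) {f : D →* G'} (hs : s ∈ D) (ht : t ∈ D) : S3R (ev f s) (ev f t) :=
  ⟨by rw [← ev_mul hs hs, ← ev_mul (mul_mem hs hs) hs, h.s3, ev_one],
    by rw [← ev_mul ht ht, h.t2, ev_one], by rw [← ev_conj ht hs, h.ts, ev_inv hs]⟩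

theorem S3R.nrm (h : S3R s t) : zpowers t ≤ nrm (zpowers s) :=
  zpowers_le.2 (by rw [← cj_eq_self_iff, cj_zpowers, h.ts, zpowers_inv])

theorem S3R.o3 (h : S3R s t) : ord (zpowers s) ∣ 3 := by
  rw [Nat.card_zpowers]; exact orderOf_dvd_of_pow_eq_one (by rw [← h.s3, pow_succ, pow_two])

theorem S3R.o2 (h : S3R s t) : ord (zpowers t) ∣ 2 := by
  rw [Nat.card_zpowers]; exact orderOf_dvd_of_pow_eq_one (by rw [← h.t2, pow_two])

theorem S3R.solv (h : S3R s t) : Group.IsSolvable (zpowers t ⊔ zpowers s : Subgroup G) :=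
  solv_sup h.nrm (solv_of_comm (isComm_zpowers _)) (solv_of_comm (isComm_zpowers _))

theorem S3F.mul (h : S3F s t K) : S3F s (t * s) K :=
  ⟨h.ns, mul_mem h.nt h.ns, h.c6, fun x hx a b => h.fix x hx a (by
    rw [← mul_assoc, mul_assoc t, ← a, ← mul_assoc] at b; exact mul_right_cancel b)⟩

theorem S3F.mono (h : S3F s t K) (hL : L ≤ K) (hs : s ∈ nrm L) (ht : t ∈ nrm L) : S3F s t L :=
  ⟨hs, ht, coprime_of_le hL h.c6, fun x hx => h.fix x (hL hx)⟩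

theorem S3F.c2 (h : S3F s t K) : (ord K).Coprime 2 := h.c6.coprime_dvd_right (by norm_num)
theorem S3F.c3 (h : S3F s t K) : (ord K).Coprime 3 := h.c6.coprime_dvd_right (by norm_num)

theorem S3F.nrm (h : S3F s t K) : zpowers t ⊔ zpowers s ≤ nrm K :=
  sup_le (zpowers_le.2 h.nt) (zpowers_le.2 h.ns)

variable [Finite G]

theorem S3F.cop (h : S3F s t K) (R : S3R s t) : Cop (zpowers t ⊔ zpowers s) K :=
  ⟨h.nrm, h.c6.symm.coprime_dvd_left ((card_sup_dvd R.nrm).trans (Nat.mul_dvd_mul R.o2 R.o3)),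
    Or.inl R.solv⟩

omit [Finite G] in
theorem S3F.cen (h : S3F s t K) : K ⊓ cen (zpowers t ⊔ zpowers s) = ⊥ := by
  rw [cen_sup, cen_zpowers, cen_zpowers, eq_bot_iff]
  exact fun x hx => h.fix x hx.1 (mem_cen1.1 hx.2.2) (mem_cen1.1 hx.2.1)

theorem S3F.im (h : S3F s t K) (R : S3R s t) {f : D →* G'} (hs : s ∈ D) (ht : t ∈ D) (hK : K ≤ D) :
    S3F (ev f s) (ev f t) (im f K) := by
  have hA : zpowers t ⊔ zpowers s ≤ D := sup_le (zpowers_le.2 ht) (zpowers_le.2 hs)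
  refine ⟨im_le_nrm f (zpowers_le.2 h.ns) (ev_mem_im (mem_zpowers s)),
    im_le_nrm f (zpowers_le.2 h.nt) (ev_mem_im (mem_zpowers t)), coprime_im f h.c6,
    fun x hx a b => ?_⟩
  have := H1B.im_cen_of_cop (f := f) (h.cop R) hA hK
  rw [h.cen, im_bot, im_sup (zpowers_le.2 ht) (zpowers_le.2 hs), im_zpowers ht, im_zpowers hs,
    cen_sup, cen_zpowers, cen_zpowers] at this
  exact mem_bot.1 (this ▸ ⟨hx, mem_cen1.2 b, mem_cen1.2 a⟩)

theorem S3F.inv (h : S3F s t K) (R : S3R s t) (hx : x ∈ K) (hs : x ∈ cen1 s) :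
    t * x * t⁻¹ = x⁻¹ := by
  refine H1.inverts_of_fpf_involution (K := K ⊓ cen1 s) (R.t2 ▸ one_mem _) ?_ ?_ ⟨hx, hs⟩
  · refine zpowers_le.1 (nrm_inf (zpowers_le.2 h.nt) ?_)
    rw [← cen_zpowers]; exact nrm_cen R.nrm
  · exact eq_bot_iff.2 fun y hy => h.fix y hy.1.1 (mem_cen1.1 hy.1.2) (mem_cen1.1 hy.2)

theorem comm_of_inv3 (ho : (orderOf x).Coprime 2) (h1 : t * x * t⁻¹ = x⁻¹)
    (h2 : t * y * t⁻¹ = y⁻¹) (h3 : t * (x * y * x⁻¹) * t⁻¹ = (x * y * x⁻¹)⁻¹) : x ∈ cen1 y := by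
  refine mem_of_pow_mem' (n := 2) (mem_cen1.2 ?_) ho.symm
  have h4 : x⁻¹ * y⁻¹ * x = x * y⁻¹ * x⁻¹ := by
    calc x⁻¹ * y⁻¹ * x = (t * x * t⁻¹) * (t * y * t⁻¹) * (t * x * t⁻¹)⁻¹ := by rw [h1, h2]; group
      _ = t * (x * y * x⁻¹) * t⁻¹ := by group
      _ = _ := by rw [h3]; group
  rw [pow_two]
  calc x * x * y = y * x * (x⁻¹ * y⁻¹ * x) * x * y := by group
    _ = _ := by rw [h4]; simp [mul_assoc]

theorem S3F.comm_of_cen (h : S3F s t K) (R : S3R s t) (hs : K ≤ cen1 s) : IsMulCommutative K :=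
  H1.isMulCommutative_of_inverts fun _ hk => h.inv R hk (hs hk)

theorem S3F.comm_of_three (h : S3F s t K) (R : S3R s t) (hN : N ≤ K) (hn : K ≤ nrm N)
    (ht : t ∈ nrm N) (hc : ⁅K, zpowers t⁆ ≤ N) (h0 : N ⊓ (cj s N ⊓ cj s⁻¹ N) = ⊥) :
    IsMulCommutative K := by
  have e1 : s * s = s⁻¹ := eq_inv_of_mul_eq_one_left R.s3
  have e2 := R.e2
  have e3 := R.e3
  have e4 := R.e4
  have n1 : ∀ g ∈ nrm K, K ≤ nrm (cj g N) := fun g hg => by
    rw [← cj_nrm, ← cj_of_mem_nrm hg]; exact cj_mono g hn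
  have l1 : ∀ g ∈ nrm K, cj g N ≤ K := fun g hg => cj_le_of_mem_nrm hg hN
  have hs' := inv_mem h.ns
  have c1 : cj s (cj s N) = cj s⁻¹ N := by rw [← cj_mul, e1]
  have c2 : cj s⁻¹ (cj s⁻¹ N) = cj s N := by rw [← cj_mul, e2]
  have c3 : cj t (cj s N) = cj s⁻¹ N := by rw [← cj_mul, e3, cj_mul, cj_of_mem_nrm ht]
  have c4 : cj t (cj s⁻¹ N) = cj s N := by rw [← cj_mul, e4, cj_mul, cj_of_mem_nrm ht]
  set T := cj s N ⊓ cj s⁻¹ N with hT
  have d1 : cj s T = cj s⁻¹ N ⊓ N := by rw [hT, cj_inf, c1, cj_cj_inv]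
  have d2 : cj s⁻¹ T = N ⊓ cj s N := by rw [hT, cj_inf, c2, cj_inv_cj]
  have d3 : t ∈ nrm T := by rw [← cj_eq_self_iff, hT, cj_inf, c3, c4, inf_comm]
  have nT : K ≤ nrm T := nrm_inf (n1 _ h.ns) (n1 _ hs')
  have hTK : T ≤ K := inf_le_left.trans (l1 _ h.ns)
  have hTN : T ≤ cen N := le_cen_of_inf_eq_bot (hTK.trans hn) (hN.trans nT) (inf_comm N T ▸ h0)
  have hT0 : T = ⊥ := eq_bot_iff.2 fun x hx => by
    have a1 : s * x * s⁻¹ ∈ cj s⁻¹ N ⊓ N := d1 ▸ conj_mem_cj.2 hx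
    have a2 : s⁻¹ * x * s⁻¹⁻¹ ∈ N ⊓ cj s N := d2 ▸ conj_mem_cj.2 hx
    rw [inv_inv] at a2
    have a3 : x * t = t * x := commutatorElement_eq_one_iff_mul_comm.1 (mem_bot.1 (h0 ▸
      ⟨hc (commutator_mem_commutator (hTK hx) (mem_zpowers t)),
        comm_le_left (zpowers_le.2 d3) (commutator_mem_commutator hx (mem_zpowers t))⟩))
    have b1 := comm_of_le_cen hTN hx a1.2
    have b2 := comm_of_le_cen hTN hx a2.1
    have b3 : s * x * s⁻¹ * (s⁻¹ * x * s) = s⁻¹ * x * s * (s * x * s⁻¹) := by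
      calc _ = s * (x * (s⁻¹ * s⁻¹ * x * (s * s))) * s⁻¹ := by group
        _ = s * (s * x * s⁻¹ * x) * s⁻¹ := by rw [e1, e2, b1]
        _ = s * s * x * (s⁻¹ * s⁻¹) * (s * x * s⁻¹) := by group
        _ = _ := by rw [e1, e2]
    have b4 := h.fix (x * (s * x * s⁻¹ * (s⁻¹ * x * s)))
      (mul_mem (hTK hx) (hN (mul_mem a1.2 a2.1))) (by
        calc _ = s⁻¹ * x * s * (x * (s * x * s⁻¹)) * s := by
              rw [b3, ← mul_assoc x, b2]; group
          _ = s * s * x * (s⁻¹ * s⁻¹) * (x * (s * x * s⁻¹)) * s := by rw [e1, e2]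
          _ = s * (s * x * s⁻¹ * (s⁻¹ * x * s) * x) := by group
          _ = _ := by rw [mul_assoc _ _ x, ← b2, ← mul_assoc _ x, ← b1, mul_assoc x]) (by
        calc _ = x * (s * x * (s⁻¹ * s⁻¹) * x * (s * t)) := by group
          _ = x * (s * x * s * (x * t) * s⁻¹) := by rw [e2, ← e4]; group
          _ = x * (s * x * (s * t) * x * s⁻¹) := by rw [a3]; group
          _ = x * (s * (x * t) * s⁻¹ * x * s⁻¹) := by rw [← e4]; group
          _ = x * ((s * t) * x * s⁻¹ * x * s⁻¹) := by rw [a3]; group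
          _ = (x * t) * (s⁻¹ * x * s⁻¹ * x * s⁻¹) := by rw [← e4]; group
          _ = t * (x * (s⁻¹ * x * (s * s) * x * s⁻¹)) := by rw [a3, e1]; group
          _ = _ := by rw [b3]; group)
    have b5 : x ∈ N := by
      rw [mul_eq_one_iff_eq_inv.1 b4]; exact inv_mem (mul_mem a1.2 a2.1)
    exact h0 ▸ ⟨b5, hx⟩
  have f1 : cj s⁻¹ N ⊓ N = ⊥ := by rw [← d1, hT0, cj_bot]
  have f2 : N ⊓ cj s N = ⊥ := by rw [← d2, hT0, cj_bot]
  have g1 : N ≤ cen (cj s N ⊔ cj s⁻¹ N) := le_cen_sup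
    (le_cen_of_inf_eq_bot (hN.trans (n1 _ h.ns)) ((l1 _ h.ns).trans hn) f2)
    (le_cen_of_inf_eq_bot (hN.trans (n1 _ hs')) ((l1 _ hs').trans hn) (inf_comm N _ ▸ f1))
  have g2 : cj s N ⊔ cj s⁻¹ N = K := by
    have k : ∀ g ∈ nrm K, ⁅K, zpowers (g * t * g⁻¹)⁆ ≤ cj g N := fun g hg => by
      rw [← cj_zpowers, ← cj_of_mem_nrm hg, ← cj_commutator]; exact cj_mono g hc
    have hl := sup_le (l1 _ h.ns) (l1 _ hs')
    have k1 := (k s h.ns).trans (le_sup_left (b := cj s⁻¹ N))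
    have k2 := (k _ hs').trans (le_sup_right (a := cj s N))
    have k3 := comm_sup_le' (le_nrm_of_comm_le' hl k1) (le_nrm_of_comm_le' hl k2) k1 k2
    have m1 := le_sup_left (a := zpowers (s * t * s⁻¹)) (b := zpowers (s⁻¹ * t * s⁻¹⁻¹))
      (mem_zpowers _)
    have m2 := le_sup_right (a := zpowers (s * t * s⁻¹)) (b := zpowers (s⁻¹ * t * s⁻¹⁻¹))
      (mem_zpowers _)
    have m3 := mul_mem m1 m2
    rw [show s * t * s⁻¹ * (s⁻¹ * t * s⁻¹⁻¹) = s by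
      calc _ = s * t * (s⁻¹ * s⁻¹) * t * s := by group
        _ = s * (t * s) * t * s := by rw [e2]; group
        _ = _ := by rw [e3, mul_inv_cancel_left, R.t2, one_mul]] at m3
    have m4 := mul_mem (mul_mem (inv_mem m3) m1) m3
    rw [show s⁻¹ * (s * t * s⁻¹) * s = t by group] at m4
    refine le_antisymm hl ?_
    rw [← (h.cop R).comm_sup_cen, h.cen, sup_bot_eq]
    exact (commutator_mono le_rfl (sup_le (zpowers_le.2 m4) (zpowers_le.2 m3))).trans k3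
  rw [g2] at g1
  have g3 : ∀ g ∈ nrm K, cj g N ≤ cen K := fun g hg => by
    rw [← cj_of_mem_nrm hg, ← cj_cen]; exact cj_mono g g1
  exact isComm_iff.2 (g2.ge.trans (sup_le (g3 _ h.ns) (g3 _ hs')))

/-- The hyperplanes of `N` with nontrivial centralizer in `V`. -/
structure Hy (q : ℕ) (N V B : Subgroup G) : Prop where
  le : B ≤ N
  idx : B.relIndex N = q
  ne : V ⊓ cen B ≠ ⊥

omit [Finite G] in
theorem Hy.cj (h : Hy q N V B) (hN : x ∈ nrm N) (hV : x ∈ nrm V) : Hy q N V (cj x B) :=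
  ⟨cj_le_of_mem_nrm hN h.le, by rw [← cj_of_mem_nrm hN, relIndex_cj, h.idx], by
    rw [← cj_of_mem_nrm hV, ← cj_cen, ← cj_inf, Ne, cj_eq_bot]; exact h.ne⟩

omit [Finite G] in
theorem conj_mem_inf_cen (hV : x ∈ nrm V) (hy : y ∈ V ⊓ cen B) :
    x * y * x⁻¹ ∈ V ⊓ cen (cj x B) := by
  rw [← cj_of_mem_nrm hV, ← cj_cen, ← cj_inf]; exact conj_mem_cj.2 hy

/-- Standing hypotheses for the module-theoretic core. -/
structure S3C (s t : G) (r q : ℕ) (K V N : Subgroup G) : Prop where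
  R : S3R s t
  FK : S3F s t K
  FV : S3F s t V
  eV : EA r V
  eN : EA q N
  hr : r.Prime
  hq : q.Prime
  ne : q ≠ r
  n : K ≤ nrm V
  le : N ≤ K
  nN : K ≤ nrm N
  sN : s ∈ nrm N
  tN : t ∈ nrm N
  c0 : V ⊓ cen N = ⊥

namespace S3C
variable (h : S3C s t r q K V N)
include h

omit [Finite G] in
theorem mul : S3C s (t * s) r q K V N :=
  { h with R := h.R.mul, FK := h.FK.mul, FV := h.FV.mul, tN := mul_mem h.tN h.sN }

theorem cop : Cop N V := by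
  haveI := Fact.mk h.hr; haveI := Fact.mk h.hq
  exact ⟨h.le.trans h.n, IsPGroup.coprime_card_of_ne q r h.ne _ _ h.eN.isPGroup h.eV.isPGroup,
    Or.inl (solv_of_comm h.eN.comm)⟩

theorem le_of_cen (hB : Hy q N V B) (hC : C ≤ N) (hc : C ≤ cen (V ⊓ cen B)) : C ≤ B := by
  rcases H1.eq_or_eq_of_relIndex_prime (hB.idx ▸ h.hq) (le_sup_left (b := C)) (sup_le hB.le hC)
    with e | e
  · exact le_sup_right.trans e.le
  · exact absurd (eq_bot_iff.2 (h.c0 ▸ le_inf inf_le_left (le_cen_symm (e.ge.trans (sup_le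
      (le_cen_symm inf_le_right) hc))))) hB.ne

theorem eq_of (hB : Hy q N V B) (hC : Hy q N V C) (hx : x ∈ V ⊓ cen B) (hx' : x ∈ cen C)
    (h1 : x ≠ 1) : B = C := by
  by_contra hne
  have key : ∀ {B C : Subgroup G}, Hy q N V B → Hy q N V C → C ≤ B → B = C := fun hB hC l => by
    have := relIndex_mul_relIndex _ _ _ l hB.le
    rw [hB.idx, hC.idx] at this
    exact le_antisymm (relIndex_eq_one.1 (Nat.eq_of_mul_eq_mul_right h.hq.pos
      (this.trans (one_mul q).symm))) l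
  rcases H1.eq_or_eq_of_relIndex_prime (hB.idx ▸ h.hq) (le_sup_left (b := C)) (sup_le hB.le hC.le)
    with e | e
  · exact hne (key hB hC (le_sup_right.trans e.le))
  · exact h1 (mem_bot.1 (h.c0 ▸ ⟨hx.1, by rw [← e, cen_sup]; exact ⟨hx.2, hx'⟩⟩))

theorem le_comm (hB : Hy q N V B) (hC : Hy q N V C) (hne : C ≠ B) : V ⊓ cen C ≤ ⁅V, B⁆ := by
  have h1 := (h.cop.mono hB.le inf_le_left (nrm_inf (hB.le.trans h.cop.1) (nrm_cen
    (le_nrm_of_le_cen (le_cen_mono h.eN.le_cen hB.le hC.le))))).comm_sup_cen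
  have h2 : V ⊓ cen C ⊓ cen B = ⊥ := eq_bot_iff.2 fun x hx => by
    by_contra h3; exact hne (h.eq_of hC hB hx.1 hx.2 h3)
  rw [← h1, h2, sup_bot_eq]; exact commutator_mono inf_le_left le_rfl

theorem eq_one (hB : Hy q N V B) (hx : x ∈ V ⊓ cen B) (hx' : x ∈ ⁅V, B⁆) : x = 1 :=
  mem_bot.1 (comm_inf_cen_of_comm h.eV.comm (h.cop.left hB.le).1 (h.cop.left hB.le).2 ▸ ⟨hx', hx.2⟩)

theorem typeI (hB : Hy q N V B) (hs : s ∈ nrm B) :
    ⁅N, zpowers s⁆ ≤ B ∧ t ∈ nrm B ∧ ¬ ∀ w ∈ V ⊓ cen B, t * w * t⁻¹ = w⁻¹ := by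
  have c1 : Cop (zpowers s) N := (h.FK.cop h.R).mono le_sup_right h.le (zpowers_le.2 h.sN)
  have l1 : ⁅N, zpowers s⁆ ≤ N := comm_le_left c1.1
  have h1 : ⁅N, zpowers s⁆ ≤ B := by
    by_cases h2 : V ⊓ cen B ⊓ cen (zpowers s) = ⊥
    · have n1 : N ≤ nrm (V ⊓ cen B) := nrm_inf h.cop.1 (nrm_cen (h.eN.le_nrm hB.le))
      refine h.le_of_cen hB l1 (H1B.cen_of_frob (solv_of_le inf_le_left (solv_of_comm h.eV.comm))
        (l1.trans n1) (nrm_inf (zpowers_le.2 h.FV.ns) (nrm_cen (zpowers_le.2 hs)))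
        (nrm_commutator c1.1 (le_nrm_self _)) ?_ (coprime_mono h.cop.2 l1 inf_le_left)
        (coprime_mono (h.FV.cop h.R).2 le_sup_right inf_le_left) h2)
      rcases (Nat.dvd_prime Nat.prime_three).1 h.R.o3 with e | e
      · rw [card_eq_one.1 e]; intro x hx hx'; exact absurd hx hx'
      · exact H1B.reg_of_prime (e ▸ Nat.prime_three) (comm_inf_cen_of_comm h.eN.comm c1.1 c1.2)
    · obtain ⟨w, hw, hw1⟩ := exists_ne_one h2
      have h3 := h.FV.inv h.R hw.1.1 (cen_zpowers s ▸ hw.2)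
      have h4 := h.eq_of hB (hB.cj h.tN h.FV.nt) (inv_mem hw.1)
        (h3 ▸ (conj_mem_inf_cen h.FV.nt hw.1).2) (inv_ne_one.2 hw1)
      have hA : zpowers t ⊔ zpowers s ≤ nrm B :=
        sup_le (zpowers_le.2 (cj_eq_self_iff.1 h4.symm)) (zpowers_le.2 hs)
      have hN := h.eN.le_nrm hB.le
      haveI := Fact.mk h.hq
      haveI : IsCyclic (im (qm B) N) :=
        isCyclic_of_prime_card (p := q) (by rw [card_im hN, kr_qm, hB.idx])
      have nA := im_le_nrm (qm B) (sup_le (zpowers_le.2 h.tN) (zpowers_le.2 h.sN))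
      have h5 := H1.commutator_le_centralizer_of_isCyclic nA nA
      rw [← im_commutator hA hA, im_le_cen_iff (comm_le_of_le hA hA) hN, kr_qm] at h5
      rw [commutator_comm]
      refine (commutator_mono (zpowers_le.2 ?_) le_rfl).trans h5
      have := commutator_mem_commutator (le_sup_left (b := zpowers s) (mem_zpowers t))
        (le_sup_right (a := zpowers t) (mem_zpowers s))
      rwa [commutatorElement_def, h.R.ts, h.R.e2] at this
  have n2 : t ∈ nrm ⁅N, zpowers s⁆ := zpowers_le.1 (nrm_commutator (zpowers_le.2 h.tN) h.R.nrm)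
  refine ⟨h1, mem_nrm_of_cj_le fun x hx => ?_, fun hi => hB.ne (eq_bot_iff.2 (h.c0 ▸
    le_inf inf_le_left (le_cen_symm ?_)))⟩
  · obtain ⟨b, hb, rfl⟩ := mem_cj'.1 hx
    obtain ⟨n, hn, c, hc, rfl⟩ := (mem_sup_nrm (le_nrm_of_le_cen (le_cen_mono h.eN.le_cen l1
      inf_le_left))).1 (c1.comm_sup_cen.ge (hB.le hb))
    rw [show t * (n * c) * t⁻¹ = t * n * t⁻¹ * (t * c * t⁻¹) by group,
      h.FK.inv h.R (h.le hc.1) (cen_zpowers s ▸ hc.2)]
    exact mul_mem (h1 (nconj_mem n2 hn)) (inv_mem ((mul_mem_cancel_left (h1 hn)).1 hb))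
  · rw [← c1.comm_sup_cen]
    refine sup_le (h1.trans (le_cen_symm inf_le_right)) fun c hc => mem_cen.2 fun w hw => ?_
    refine (mem_cen1.1 (comm_of_inv3 (h.FK.c2.coprime_dvd_left (orderOf_dvd_card' (h.le hc.1)))
      (h.FK.inv h.R (h.le hc.1) (cen_zpowers s ▸ hc.2)) (hi w hw) (hi _ ?_))).symm
    exact conj_mem (nrm_inf h.cop.1 (nrm_cen (h.eN.le_nrm hB.le))) hc.1 hw

theorem key (hB : Hy q N V B) (hs : s ∉ nrm B) {w : G} (hw : w ∈ V ⊓ cen B) :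
    w * (t * w * t⁻¹ * ((t * s) * w * (t * s)⁻¹ * ((t * s * s) * w * (t * s * s)⁻¹))) ∈ ⁅V, B⁆ := by
  have v1 := nconj_mem h.FV.ns hw.1
  have v2 := nconj_mem h.FV.ns v1
  have v3 : s * (s * (s * w * s⁻¹) * s⁻¹) * s⁻¹ = w := by
    calc _ = s * s * s * w * (s * s * s)⁻¹ := by group
      _ = _ := by rw [h.R.s3]; group
  have v4 := h.eV.mul_comm hw.1 (mul_mem v1 v2)
  have h1 := h.FV.inv h.R (mul_mem hw.1 (mul_mem v1 v2)) (mem_cen1.2 (by
    calc _ = s * w * s⁻¹ * (s * (s * w * s⁻¹) * s⁻¹) * (s * (s * (s * w * s⁻¹) * s⁻¹) * s⁻¹) * s := by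
          rw [v3, v4]
      _ = _ := by group))
  have h2 : w * (t * w * t⁻¹ * ((t * s) * w * (t * s)⁻¹ * ((t * s * s) * w * (t * s * s)⁻¹))) =
      (s * w * s⁻¹ * (s * (s * w * s⁻¹) * s⁻¹))⁻¹ := by
    calc _ = w * (t * (w * (s * w * s⁻¹ * (s * (s * w * s⁻¹) * s⁻¹))) * t⁻¹) := by group
      _ = _ := by rw [h1, v4]; group
  have m1 := conj_mem_inf_cen h.FV.ns hw
  have m2 := conj_mem_inf_cen h.FV.ns m1
  rw [h2]
  refine inv_mem (mul_mem (h.le_comm hB (hB.cj h.sN h.FV.ns) (mt cj_eq_self_iff.1 hs) m1)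
    (h.le_comm hB ((hB.cj h.sN h.FV.ns).cj h.sN h.FV.ns) (fun e => hs ?_) m2))
  rw [← cj_mul, h.R.e1, cj_eq_self_iff] at e
  exact (inv_mem_iff).1 e

theorem conj_mem_comm (hB : Hy q N V B) (ht : t ∉ nrm B) {w : G} (hw : w ∈ V ⊓ cen B) :
    t * w * t⁻¹ ∈ ⁅V, B⁆ :=
  h.le_comm hB (hB.cj h.tN h.FV.nt) (mt cj_eq_self_iff.1 ht) (conj_mem_inf_cen h.FV.nt hw)

theorem inv_of (hB : Hy q N V B) (hs : s ∉ nrm B) (ht : t ∈ nrm B) {w : G} (hw : w ∈ V ⊓ cen B) :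
    t * w * t⁻¹ = w⁻¹ := by
  have h1 := h.key hB hs hw
  have h2 : t * s ∉ nrm B := fun e => hs ((mul_mem_cancel_left ht).1 e)
  have h3 : t * s * s ∉ nrm B := fun e => hs (by
    rw [mul_assoc, mul_mem_cancel_left ht, h.R.e1] at e; exact inv_mem_iff.1 e)
  rw [← mul_assoc, ← mul_assoc, mul_mem_cancel_right (h.mul.mul.conj_mem_comm hB h3 hw),
    mul_mem_cancel_right (h.mul.conj_mem_comm hB h2 hw)] at h1
  exact eq_inv_of_mul_eq_one_right (h.eq_one hB (mul_mem hw (cj_of_mem_nrm ht ▸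
    conj_mem_inf_cen h.FV.nt hw)) h1)

theorem typeII (hB : Hy q N V B) (hs : s ∉ nrm B) :
    t ∈ nrm B ∨ t * s ∈ nrm B ∨ t * s * s ∈ nrm B := by
  by_contra hc
  push Not at hc
  obtain ⟨w, hw, h1⟩ := exists_ne_one hB.ne
  exact h1 (h.eq_one hB hw ((mul_mem_cancel_right (mul_mem (h.conj_mem_comm hB hc.1 hw) (mul_mem
    (h.mul.conj_mem_comm hB hc.2.1 hw) (h.mul.mul.conj_mem_comm hB hc.2.2 hw)))).1 (h.key hB hs hw)))

theorem cjK (hB : Hy q N V B) {k : G} (hk : k ∈ K) : Hy q N V (cj k B) := hB.cj (h.nN hk) (h.n hk)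

theorem typeI_cj_aux (hB : Hy q N V B) (hs : s ∈ nrm B) {k : G} (hk : k ∈ K)
    (ht : t ∈ nrm (cj k B)) : s ∈ nrm (cj k B) := by
  by_contra hs'
  obtain ⟨-, h1, h2⟩ := h.typeI hB hs
  obtain ⟨c, hc, e⟩ := ((h.FK.cop h.R).left le_sup_left).conj_inv (zpowers_le.2 h1) hk
    (zpowers_le.2 ht)
  refine h2 fun w hw => ?_
  have h3 := h.inv_of (h.cjK hB hk) hs' ht (e ▸ conj_mem_inf_cen (h.n hc.1) hw)
  have h4 := mem_cen1.1 (cen_zpowers t ▸ hc.2)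
  calc t * w * t⁻¹ = c⁻¹ * (c * t) * w * (c * t)⁻¹ * c := by group
    _ = c⁻¹ * (t * (c * w * c⁻¹) * t⁻¹) * c := by rw [h4]; group
    _ = _ := by rw [h3]; group

theorem typeI_cj (hB : Hy q N V B) (hs : s ∈ nrm B) {k : G} (hk : k ∈ K) : s ∈ nrm (cj k B) := by
  by_contra hs'
  rcases h.typeII (h.cjK hB hk) hs' with e | e | e
  · exact hs' (h.typeI_cj_aux hB hs hk e)
  · exact hs' (h.mul.typeI_cj_aux hB hs hk e)
  · exact hs' (h.mul.mul.typeI_cj_aux hB hs hk e)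

theorem t_cj (hB : Hy q N V B) (ht : t ∈ nrm B) (hs : ∀ k ∈ K, s ∉ nrm (cj k B)) {k : G}
    (hk : k ∈ K) : t ∈ nrm (cj k B) := by
  have key : ∀ a, (∃ j ∈ K, j⁻¹ * a ∈ nrm B) → zpowers s ≤ zpowers a → a ∈ nrm K → False := by
    rintro a ⟨j, hj, e⟩ ha hn
    have c := (h.FK.cop h.R).left le_sup_right
    obtain ⟨m, hm, e'⟩ := H1.glauberman_exists c.1 c.2 c.3 (U := nrm B) fun b hb => by
      have : zpowers a ≤ K ⊔ (nrm K ⊓ nrm B) := zpowers_le.2 (mul_inv_cancel_left j a ▸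
        mul_mem (le_sup_left (a := K) hj) (le_sup_right (a := K)
          ⟨mul_mem (le_nrm_self K (inv_mem hj)) hn, e⟩))
      obtain ⟨i, hi, z, hz, rfl⟩ := (mem_sup_nrm' inf_le_left).1 (this (ha hb))
      exact ⟨i, hi, by rw [inv_mul_cancel_left]; exact hz.2⟩
    refine hs m⁻¹ (inv_mem hm) ?_
    rw [← cj_nrm, mem_cj_inv]
    exact e' (conj_mem_cj.2 (mem_zpowers s))
  have k2 : ∀ a ∈ nrm K, t * a ∈ nrm (cj k B) → ∃ j ∈ K, j⁻¹ * a ∈ nrm B := fun a ha e => by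
    rw [← cj_nrm, mem_cj] at e
    refine ⟨(a * k * a⁻¹)⁻¹ * (t⁻¹ * k * t),
      mul_mem (inv_mem (nconj_mem ha hk)) (nconj_mem' h.FK.nt hk), ?_⟩
    convert mul_mem (inv_mem ht) e using 1; group
  rcases h.typeII (h.cjK hB hk) (hs k hk) with e | e | e
  · exact e
  · exact (key s (k2 s h.FK.ns e) le_rfl h.FK.ns).elim
  · refine (key (s * s) (k2 _ (mul_mem h.FK.ns h.FK.ns) (mul_assoc t s s ▸ e)) ?_
      (mul_mem h.FK.ns h.FK.ns)).elim
    rw [h.R.e1, zpowers_inv]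

theorem typeII_comm (hB : Hy q N V B) (ht : t ∈ nrm B) (hs : ∀ k ∈ K, s ∉ nrm (cj k B))
    (f : K ⊓ cen V = ⊥) (irr : ∀ U ≤ V, K ≤ nrm U → s ∈ nrm U → t ∈ nrm U → U = ⊥ ∨ U = V) :
    IsMulCommutative K := by
  let I : Subgroup G :=
    { carrier := {v | v ∈ V ∧ ∀ k ∈ K, t * (k * v * k⁻¹) * t⁻¹ = (k * v * k⁻¹)⁻¹}
      one_mem' := ⟨one_mem _, fun k _ => by simp⟩
      inv_mem' := fun {v} hv => ⟨inv_mem hv.1, fun k hk => by
        rw [show t * (k * v⁻¹ * k⁻¹) * t⁻¹ = (t * (k * v * k⁻¹) * t⁻¹)⁻¹ by group, hv.2 k hk]; group⟩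
      mul_mem' := fun {a b} ha hb => ⟨mul_mem ha.1 hb.1, fun k hk => by
        rw [show k * (a * b) * k⁻¹ = (k * a * k⁻¹) * (k * b * k⁻¹) by group,
          h.eV.mul_comm (conj_mem h.n hk ha.1) (conj_mem h.n hk hb.1), mul_inv_rev, ← ha.2 k hk,
          ← hb.2 k hk, ← h.eV.mul_comm (conj_mem h.n hk ha.1) (conj_mem h.n hk hb.1)]
        group⟩ }
  have i1 : I ≤ V := fun v hv => hv.1
  have i2 : ∀ v ∈ I, t * v * t⁻¹ = v⁻¹ := fun v hv => by simpa using hv.2 1 (one_mem _)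
  have i3 : K ≤ nrm I := le_nrm_iff_conj.2 fun k hk v hv => ⟨conj_mem h.n hk hv.1, fun j hj => by
    rw [show j * (k * v * k⁻¹) * j⁻¹ = (j * k) * v * (j * k)⁻¹ by group]
    exact hv.2 _ (mul_mem hj hk)⟩
  have i4 : t ∈ nrm I := mem_nrm_of_cj_le fun x hx => by
    obtain ⟨v, hv, rfl⟩ := mem_cj'.1 hx
    rw [i2 v hv]; exact inv_mem hv
  have i5 : V ⊓ cen B ≤ I := fun w hw => ⟨hw.1, fun k hk =>
    h.inv_of (h.cjK hB hk) (hs k hk) (h.t_cj hB ht hs hk) (conj_mem_inf_cen (h.n hk) hw)⟩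
  have n1 : ∀ g ∈ nrm K, K ≤ nrm (cj g I) := fun g hg => by
    rw [← cj_nrm, ← cj_of_mem_nrm hg]; exact cj_mono g i3
  have i6 : I ⊔ (cj s I ⊔ cj s⁻¹ I) = V := by
    refine (irr _ (sup_le i1 (sup_le (cj_le_of_mem_nrm h.FV.ns i1)
      (cj_le_of_mem_nrm (inv_mem h.FV.ns) i1))) (nrm_sup i3 (nrm_sup (n1 _ h.FK.ns)
        (n1 _ (inv_mem h.FK.ns)))) ?_ ?_).resolve_left fun e =>
          hB.ne (eq_bot_iff.2 (i5.trans (le_sup_left.trans e.le)))
    · rw [← cj_eq_self_iff, cj_sup, cj_sup, cj_cj_inv, ← cj_mul, h.R.e1]; ac_rfl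
    · rw [← cj_eq_self_iff, cj_sup, cj_sup, ← cj_mul, ← cj_mul, h.R.e3, h.R.e4, cj_mul, cj_mul,
        cj_of_mem_nrm i4]; ac_rfl
  refine h.FK.comm_of_three h.R (N := K ⊓ cen I) inf_le_left (nrm_inf (le_nrm_self K) (nrm_cen i3))
    (zpowers_le.1 (nrm_inf (zpowers_le.2 h.FK.nt) (nrm_cen (zpowers_le.2 i4)))) ?_ ?_
  · rw [commutator_comm]
    refine comm_zpowers_le (zpowers_le.1 (nrm_inf (zpowers_le.2 h.FK.nt)
      (nrm_cen (zpowers_le.2 i4)))) fun k hk => ⟨K.mul_mem (nconj_mem h.FK.nt hk) (K.inv_mem hk),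
        mem_cen.2 fun v hv => ?_⟩
    have a1 := i2 _ (inv_mem (conj_mem' i3 hk hv))
    have a2 := i2 _ (inv_mem hv)
    rw [inv_inv] at a1 a2
    calc v * ⁅t, k⁆ = t * v⁻¹ * t⁻¹ * ⁅t, k⁆ := by rw [a2]
      _ = t * k * t⁻¹ * (t * (k⁻¹ * v * k)⁻¹ * t⁻¹) * k⁻¹ := by group
      _ = _ := by rw [a1]; group
  · rw [eq_bot_iff, ← f, ← i6, cen_sup, cen_sup, cj_inf, cj_inf, cj_cen, cj_cen]
    exact le_inf (inf_le_left.trans inf_le_left) (inf_le_inf inf_le_right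
      (inf_le_inf inf_le_right inf_le_right))

theorem le_cen_s (hB : Hy q N V B) (hs : s ∈ nrm B)
    (mN : ∀ U ≤ N, (zpowers t ⊔ zpowers s) ⊔ K ≤ nrm U → U = ⊥ ∨ U = N) : N ≤ cen1 s := by
  have h1 : ∀ k ∈ K, ⁅N, zpowers s⁆ ≤ cj k B ∧ t ∈ nrm (cj k B) := fun k hk =>
    ⟨(h.typeI (h.cjK hB hk) (h.typeI_cj hB hs hk)).1,
      (h.typeI (h.cjK hB hk) (h.typeI_cj hB hs hk)).2.1⟩
  have l1 : ⨅ k : K, cj (k : G) B ≤ B := (iInf_le _ 1).trans (cj_one B).le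
  have n1 : zpowers t ⊔ zpowers s ≤ nrm (⨅ k : K, cj (k : G) B) :=
    nrm_iInf fun k => sup_le (zpowers_le.2 (h1 k k.2).2) (zpowers_le.2 (h.typeI_cj hB hs k.2))
  have n2 : K ≤ nrm (⨅ k : K, cj (k : G) B) := le_nrm_of_cj_le fun a ha => le_iInf fun k => by
    refine (cj_mono a (iInf_le (fun k : K => cj (k : G) B)
      ⟨a⁻¹ * k, mul_mem (inv_mem ha) k.2⟩)).trans ?_
    rw [← cj_mul, mul_inv_cancel_left]
  have h2 : ⨅ k : K, cj (k : G) B = ⊥ := by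
    refine (mN _ (l1.trans hB.le) (sup_le n1 n2)).resolve_right fun e => ?_
    have := hB.idx
    rw [relIndex_eq_one.2 (e.ge.trans l1)] at this
    exact h.hq.one_lt.ne this
  rw [← cen_zpowers, ← comm_eq_bot, eq_bot_iff, ← h2]
  exact le_iInf fun k => (h1 k k.2).1

omit [Finite G] in
theorem fpf_s [Finite G] (h3 : N ≤ cen1 s) : V ⊓ cen (zpowers s) = ⊥ := by
  rw [eq_bot_iff, ← h.c0, cen_zpowers]
  intro w hw
  refine ⟨hw.1, mem_cen.2 fun x hx => ?_⟩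
  have a1 := h.FK.inv h.R (h.le hx) (h3 hx)
  have a2 := h.FV.inv h.R hw.1 hw.2
  have a3 := h.FV.inv h.R (conj_mem h.n (h.le hx) hw.1)
    ((cen1 s).mul_mem ((cen1 s).mul_mem (h3 hx) hw.2) ((cen1 s).inv_mem (h3 hx)))
  exact mem_cen1.1 (comm_of_inv3 (h.FK.c2.coprime_dvd_left (orderOf_dvd_card' (h.le hx))) a1 a2 a3)

end S3C

theorem s3_fpf (R : S3R s t) (FK : S3F s t K) (FV : S3F s t V) (sK : Group.IsSolvable K)
    (hr : r.Prime) (eV : EA r V) (n : K ≤ nrm V) (f : K ⊓ cen V = ⊥) (hV : V ≠ ⊥)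
    (hO : Op r K = ⊥) (h4 : V ⊓ cen (zpowers s) = ⊥) : IsMulCommutative K := by
  haveI := Fact.mk hr
  rcases (Nat.dvd_prime Nat.prime_three).1 R.o3 with e | e
  · rw [card_eq_one.1 e, cen_bot, inf_top_eq] at h4
    exact absurd h4 hV
  have c : Cop (zpowers s) K := (FK.cop R).left le_sup_right
  have hF : (ord (Fit K)).Coprime r := by
    have := nilp_sylow_Op (p := r) (nilp_Fit K)
    have e0 : Op r (Fit K) = ⊥ := by
      rw [eq_bot_iff, ← hO]; exact Opi_le_of_normal _ (Fit_le K) (le_nrm_Fit K)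
    rw [e0, syl_bot_iff] at this
    exact coprime_iff_not_dvd.2 this
  have p3 : (ord (zpowers s)).Prime := by rw [e]; exact Nat.prime_three
  have c3 : (ord (zpowers s)).Coprime r := by
    rw [e]; exact (FV.c3.coprime_dvd_left (dvd_card_of_isPGroup eV.isPGroup hV)).symm
  have h5 := H1B.comm_le_cen_EA eV ((Fit_le K).trans n) (zpowers_le.2 FV.ns) (nrm_Fit c.1)
    p3 (coprime_mono c.2 le_rfl (Fit_le K)) hF c3
    (fun _ => H1B.ab2_of_odd (coprime_of_le (Fit_le K) FK.c2)) h4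
  have h6 : Fit K ≤ cen (zpowers s) := by
    rw [← comm_eq_bot, eq_bot_iff, ← f]
    exact le_inf ((comm_le_left (nrm_Fit c.1)).trans (Fit_le K)) h5
  have h7 := le_cen_symm (H1B.cen_of_cen_Fit sK c.1 c.2 (le_cen_symm h6))
  rw [cen_zpowers] at h7
  exact FK.comm_of_cen R h7

theorem s3_c0 (FV : S3F s t V) (n : K ≤ nrm V) (f : K ⊓ cen V = ⊥)
    (irr : ∀ U ≤ V, K ≤ nrm U → s ∈ nrm U → t ∈ nrm U → U = ⊥ ∨ U = V) (a : N ≤ K) (b : N ≠ ⊥)
    (c : (zpowers t ⊔ zpowers s) ⊔ K ≤ nrm N) : V ⊓ cen N = ⊥ := by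
  have d := nrm_inf (sup_le FV.nrm n) (nrm_cen c)
  have ms : s ∈ (zpowers t ⊔ zpowers s) ⊔ K :=
    le_sup_left (b := K) (le_sup_right (a := zpowers t) (mem_zpowers s))
  have mt : t ∈ (zpowers t ⊔ zpowers s) ⊔ K :=
    le_sup_left (b := K) (le_sup_left (b := zpowers s) (mem_zpowers t))
  refine (irr _ inf_le_left (le_sup_right.trans d) (d ms) (d mt)).resolve_right fun e => b ?_
  rw [eq_bot_iff, ← f]
  exact le_inf a (le_cen_symm (e.ge.trans inf_le_right))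

theorem s3_core (R : S3R s t) (FK : S3F s t K) (FV : S3F s t V) (sK : Group.IsSolvable K)
    (hr : r.Prime) (eV : EA r V) (n : K ≤ nrm V) (f : K ⊓ cen V = ⊥)
    (irr : ∀ U ≤ V, K ≤ nrm U → s ∈ nrm U → t ∈ nrm U → U = ⊥ ∨ U = V) : IsMulCommutative K := by
  by_cases h0 : K = ⊥
  · rw [h0]; exact isComm_bot
  haveI := Fact.mk hr
  have hV : V ≠ ⊥ := fun e => h0 (by rwa [e, cen_bot, inf_top_eq] at f)
  have nK : (zpowers t ⊔ zpowers s) ⊔ K ≤ nrm K := sup_le FK.nrm (le_nrm_self K)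
  have hO : Op r K = ⊥ := by
    by_contra hne
    exact pgroup_inf_cen_ne_bot' (isPGroup_Op r K) eV.isPGroup ((Opi_le _ _).trans n) hV
      (s3_c0 FV n f irr (Opi_le _ _) hne (nrm_Opi _ nK))
  obtain ⟨N, l, N0, nN, mN, q, hq, eN⟩ := H1B.exists_min_normal_ea sK h0 nK
  have ms : s ∈ (zpowers t ⊔ zpowers s) ⊔ K :=
    le_sup_left (b := K) (le_sup_right (a := zpowers t) (mem_zpowers s))
  have mt : t ∈ (zpowers t ⊔ zpowers s) ⊔ K :=
    le_sup_left (b := K) (le_sup_left (b := zpowers s) (mem_zpowers t))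
  have hne : q ≠ r := fun e => N0 (by
    rw [eq_bot_iff, ← hO]
    subst e
    exact le_Op l (le_sup_right.trans nN) eN.isPGroup)
  have h : S3C s t r q K V N := ⟨R, FK, FV, eV, eN, hr, hq, hne, n, l, le_sup_right.trans nN,
    nN ms, nN mt, s3_c0 FV n f irr l N0 nN⟩
  haveI := Fact.mk hq
  obtain ⟨B, hB⟩ : ∃ B, Hy q N V B := by
    by_contra hc
    push Not at hc
    exact hV (eq_bot_iff.2 (h.cop.le_of_hyper eN N0 fun B a b => by
      by_contra e; exact hc B ⟨a, b, fun e' => e e'.le⟩))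
  by_cases hs : ∀ k ∈ K, s ∉ nrm (cj k B)
  · rcases h.typeII hB (by simpa using hs 1 (one_mem _)) with e | e | e
    · exact h.typeII_comm hB e hs f irr
    · exact h.mul.typeII_comm hB e hs f fun U a b c d => irr U a b c ((mul_mem_cancel_right c).1 d)
    · exact h.mul.mul.typeII_comm hB e hs f fun U a b c d =>
        irr U a b c ((mul_mem_cancel_right c).1 ((mul_mem_cancel_right c).1 d))
  push Not at hs
  obtain ⟨k₀, hk₀, hs⟩ := hs
  exact s3_fpf R FK FV sK hr eV n f hV hO (h.fpf_s (h.le_cen_s (h.cjK hB hk₀) hs mN))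

theorem s3_chief (R : S3R s t) (FK : S3F s t K) (FV : S3F s t V) (sK : Group.IsSolvable K)
    (hr : r.Prime) (eV : EA r V) (n : K ≤ nrm V)
    (irr : ∀ U ≤ V, K ≤ nrm U → s ∈ nrm U → t ∈ nrm U → U = ⊥ ∨ U = V) : ⁅K, K⁆ ≤ cen V := by
  obtain ⟨ι, φ, F⟩ := exists_fth V
  have m : ∀ U ≤ V, ∀ x ∈ nrm V, (ev φ x ∈ nrm (im ι U) ↔ x ∈ nrm U) := fun U hU x hx => by
    rw [← zpowers_le, ← im_zpowers hx, F.le_nrm hU (zpowers_le.2 hx), zpowers_le]
  have h := s3_core (R.ev (f := φ) FV.ns FV.nt) (FK.im R FV.ns FV.nt n) (V := im ι V)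
    ⟨(m V le_rfl s FV.ns).2 FV.ns, (m V le_rfl t FV.nt).2 FV.nt, coprime_im ι FV.c6,
      fun x hx a b => by
        have := F.inf_cen FV.nrm
        rw [FV.cen, im_bot, im_sup (zpowers_le.2 FV.nt) (zpowers_le.2 FV.ns), im_zpowers FV.nt,
          im_zpowers FV.ns, cen_sup, cen_zpowers, cen_zpowers] at this
        exact mem_bot.1 (this ▸ ⟨hx, mem_cen1.2 b, mem_cen1.2 a⟩)⟩
    (solv_im φ sK) hr (eV.im ι) ((F.le_nrm le_rfl n).2 n) (F.faithful n) fun U a b c d => by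
      rw [← im_pre_of_le a] at b c d ⊢
      have l := pre_le ι U
      rcases irr _ l ((F.le_nrm l n).1 b) ((m _ l s FV.ns).1 c) ((m _ l t FV.nt).1 d) with e | e
      · left; rw [e, im_bot]
      · right; rw [e]
  have := (im_le_cen_iff n n).1 (isComm_iff.1 h)
  rwa [F.ker] at this

theorem s3_nilp (R : S3R s t) (FK : S3F s t K) (sK : Group.IsSolvable K) :
    Group.IsNilpotent (⁅K, K⁆ : Subgroup G) := by
  set H : Subgroup G := ⁅K, K⁆ with hH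
  have hHK : H ≤ K := comm_le_of_le le_rfl le_rfl
  have nK : (zpowers t ⊔ zpowers s) ⊔ K ≤ nrm K := sup_le FK.nrm (le_nrm_self K)
  obtain ⟨_, ⟨m, rfl⟩, hm⟩ := wellFounded_lt.has_min (Set.range H.lowerCentralSeries) ⟨_, 0, rfl⟩
  refine (isNilpotent_iff_lowerCentralSeries H).2 ⟨m, ?_⟩
  by_contra hne
  have h1 : ∀ i, (zpowers t ⊔ zpowers s) ⊔ K ≤ nrm (H.lowerCentralSeries i) := fun i => by
    induction i with
    | zero => exact nrm_commutator nK nK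
    | succ i ih => exact nrm_commutator ih (nrm_commutator nK nK)
  have hM := (lowerCentralSeries_le_self H m).trans hHK
  set M := H.lowerCentralSeries m
  obtain ⟨N, a, b, c, ⟨p, hp, d⟩, e⟩ := H1B.exists_top_section (solv_of_le hM sK) hne (h1 m)
  have ms : s ∈ (zpowers t ⊔ zpowers s) ⊔ K :=
    le_sup_left (b := K) (le_sup_right (a := zpowers t) (mem_zpowers s))
  have mt : t ∈ (zpowers t ⊔ zpowers s) ⊔ K :=
    le_sup_left (b := K) (le_sup_left (b := zpowers s) (mem_zpowers t))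
  have hK := le_sup_right.trans b
  have h2 := s3_chief (R.ev (f := qm N) (b ms) (b mt)) (FK.im R (b ms) (b mt) hK)
    ((FK.mono hM (h1 m ms) (h1 m mt)).im R (b ms) (b mt) c) (solv_im _ sK) hp d
    (im_le_nrm _ (le_sup_right.trans (h1 m))) fun U a' b' c' d' => by
      have l : N ≤ M ⊓ pre (qm N) U := le_inf a.le ((kr_qm N).ge.trans (kr_le_pre _ _))
      have e' : im (qm N) (M ⊓ pre (qm N) U) = U := by rw [im_inf_pre, inf_eq_right.2 a']
      rcases e _ l inf_le_left (nrm_inf (h1 m) (le_nrm_pre b (by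
        rw [im_sup (le_sup_left.trans b) hK, im_sup (zpowers_le.2 (b mt)) (zpowers_le.2 (b ms)),
          im_zpowers (b mt), im_zpowers (b ms)]
        exact sup_le (sup_le (zpowers_le.2 d') (zpowers_le.2 c')) b'))) with e | e
      · left; rw [← e', e, im_qm_self]
      · right; rw [← e', e]
  rw [← im_commutator hK hK, im_le_cen_iff (hHK.trans hK) c, kr_qm, commutator_comm] at h2
  exact hm _ ⟨m + 1, rfl⟩ (lt_of_le_of_lt h2 a)

end H8
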