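import Cfsg.Agent.H8.SemiLin
import Cfsg.Agent.H8.PermBasic

/-! Semi-affine groups: affine groups of odd order whose point stabilizer is transitive up to
sign on the non-zero vectors. -/

set_option autoImplicit false

namespace H8

open Cfsg Subgroup MulAction
open scoped IsMulCommutative

theorem appI' {D E : Type*} [Group D] [Finite D] [AddCommGroup E] [Finite E]
    [DistribMulAction D E] [FaithfulSMul D E] (hodd : Odd (Nat.card D)) {q : ℕ} (hq : q.Prime)
    (hE : ∀ e : E, q • e = 0) (htrans : ∀ a b : E, a ≠ 0 → b ≠ 0 → ∃ d : D, d • a = b ∨ d • a = -b) :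
    IsCyclic (fittingSubgroup D) ∧
      (∀ g ∈ fittingSubgroup D, g ≠ 1 → ∀ a : E, g • a = a → a = 0) := by
  have key : ∀ (p : ℕ) [Fact p.Prime], IsCyclic (pCore p D) ∧
      ∀ g : pCore p D, g ≠ 1 → ∀ a : E, g • a = a → a = 0 := by
    intro p hp
    by_cases h2 : p = 2
    · subst h2
      haveI : Subsingleton (pCore 2 D) := by
        obtain ⟨k, hk⟩ := IsPGroup.iff_card.1 (H7.pCore_eq 2 (G := D) ▸ H7.isPGroup_Op 2 ⊤)
        have h1 := hodd.of_dvd_nat (card_subgroup_dvd_card (pCore 2 D))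
        rw [hk] at h1
        rcases k with _ | k
        · exact (Nat.card_eq_one_iff_unique.1 hk).1
        · rw [pow_succ, Nat.odd_mul] at h1; exact absurd h1.2 (by decide)
      exact ⟨isCyclic_of_subsingleton, fun g hg => absurd (Subsingleton.elim _ _) hg⟩
    refine half_trans h2 (H7.pCore_eq p (G := D) ▸ H7.isPGroup_Op p ⊤) hq hE fun a b ha hb => ?_
    suffices H : ∀ d : D, Nat.card (stabilizer (pCore p D) a) =
        Nat.card (stabilizer (pCore p D) (d • a)) by
      obtain ⟨d, hd | hd⟩ := htrans a b ha hb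
      · rw [← hd]; exact H d
      · rw [H d, hd]
        congr 2
        ext x
        simp [smul_neg]
    intro d
    have hn : (pCore p D).Normal := inferInstance
    refine Nat.card_congr ⟨fun x => ⟨⟨d * x * d⁻¹, hn.conj_mem _ x.1.2 d⟩, ?_⟩,
      fun x => ⟨⟨d⁻¹ * x * d, hn.conj_mem' _ x.1.2 d⟩, ?_⟩, fun x => ?_, fun x => ?_⟩
    · have : ((x : pCore p D) : D) • a = a := x.2
      change (d * x * d⁻¹) • d • a = d • a
      rw [mul_smul, mul_smul, inv_smul_smul, this]
    · have : ((x : pCore p D) : D) • d • a = d • a := x.2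
      change (d⁻¹ * x * d) • a = a
      rw [mul_smul, mul_smul, this, inv_smul_smul]
    · ext; simp [mul_assoc]
    · ext; simp [mul_assoc]
  constructor
  · haveI : IsZGroup (fittingSubgroup D) := by
      refine ⟨fun p hp P => ?_⟩
      haveI := Fact.mk hp
      haveI := (key p).1
      have h1 : (P : Subgroup _).map (fittingSubgroup D).subtype ≤ pCore p D :=
        H1.le_pCore_of_le_fitting (P.isPGroup'.map _) (map_subtype_le _)
      haveI := Subgroup.isCyclic_of_le h1
      let e := (P : Subgroup _).equivMapOfInjective _ (subtype_injective (fittingSubgroup D))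
      exact isCyclic_of_surjective e.symm e.symm.surjective
    infer_instance
  · intro g hg g1 a ha
    obtain ⟨p, hp, k, hk⟩ := Nat.exists_prime_and_dvd (n := orderOf g) (by simpa using g1)
    haveI := Fact.mk hp
    have h0 := orderOf_pos g
    have h1 : g ^ k ∈ pCore p D := H1.le_pCore_of_le_fitting (Q := zpowers (g ^ k))
      (IsPGroup.of_card (n := 1) (by
        rw [Nat.card_zpowers, orderOf_pow_of_dvd (by rintro rfl; omega) (Dvd.intro_left _ hk.symm),
          hk, Nat.mul_div_cancel _ (Nat.pos_of_ne_zero (by rintro rfl; omega)), pow_one]))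
      (zpowers_le.2 (pow_mem hg k)) (mem_zpowers _)
    refine (key p).2 ⟨_, h1⟩ (fun e => ?_) a ((stabilizer D a).pow_mem ha k)
    have h2 := Nat.le_of_dvd (Nat.pos_of_ne_zero (by rintro rfl; omega))
      (orderOf_dvd_of_pow_eq_one (congrArg Subtype.val e))
    have := hp.two_le
    nlinarith


universe u

theorem semiaff_of {G : Type u} {α : Type*} [Group G] [Finite G] [MulAction G α] [FaithfulSMul G α]
    [Nontrivial α] (N : Subgroup G) [hn : N.Normal] [IsMulCommutative N] (hNt : IsPretransitive N α)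
    (a : α) (hA : (∀ (E : Type u) [AddCommGroup E] [Finite E] [DistribMulAction (stabilizer G a) E]
      [FaithfulSMul (stabilizer G a) E] (_ : E ≃+ Additive N),
      (∀ x y : E, x ≠ 0 → y ≠ 0 → ∃ d : stabilizer G a, d • x = y ∨ d • x = -y) →
      ∃ A : Subgroup (stabilizer G a), A.Normal ∧ IsMulCommutative A ∧
        centralizer (A : Set (stabilizer G a)) ≤ A))
    (htr : ∀ x ∈ N, ∀ y ∈ N, x ≠ 1 → y ≠ 1 → ∃ g ∈ stabilizer G a,
      g * x * g⁻¹ = y ∨ g * x * g⁻¹ = y⁻¹)
    (K : Type*) [Field K] [Finite K] (hK : Nat.card K = Nat.card α) :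
    ∃ e : α ≃ K, (∀ g : G, ∃ c : Kˣ, ∃ b : K, ∃ φ : K ≃+* K, ∀ x : α, e (g • x) = c * φ (e x) + b) ∧
      ∀ b : K, ∃ n ∈ N, ∀ x, e (n • x) = e x + b := by
  classical
  have hNc : ∀ x ∈ N, ∀ y ∈ N, x * y = y * x := fun x hx y hy =>
    congrArg Subtype.val (mul_comm (⟨x, hx⟩ : N) ⟨y, hy⟩)
  have hreg : ∀ x ∈ N, x • a = a → x = 1 := fun x hx h =>
    eq_one_of_commute_of_fix N hNt (fun m hm => hNc m hm x hx) h
  let E := Additive N
  let φ : stabilizer G a →* MulAut N := (MulAut.conjNormal (H := N)).comp (stabilizer G a).subtype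
  letI : DistribMulAction (stabilizer G a) E :=
    { smul := fun g x => Additive.ofMul (φ g x.toMul)
      one_smul := fun x => by
        show Additive.ofMul (φ 1 x.toMul) = x
        rw [map_one]; rfl
      mul_smul := fun g h x => by
        show Additive.ofMul (φ (g * h) x.toMul) = _
        rw [map_mul]; rfl
      smul_zero := fun g => congrArg Additive.ofMul (map_one (φ g))
      smul_add := fun g x y => congrArg Additive.ofMul (map_mul (φ g) _ _) }
  have hsm : ∀ (d : stabilizer G a) (x : E), ((d • x).toMul : G) = d * x.toMul * (d : G)⁻¹ :=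
    fun _ _ => rfl
  haveI : FaithfulSMul (stabilizer G a) E := ⟨fun {g h} e => by
    rw [← mul_inv_eq_one]
    refine Subtype.ext (eq_one_of_commute_of_fix N hNt (fun m hm => ?_) (g * h⁻¹).2)
    have := hsm g (Additive.ofMul ⟨_, hn.conj_mem' m hm h⟩)
    rw [e, hsm] at this
    have h2 : (h : G) * ((h : G)⁻¹ * m * h) * (h : G)⁻¹ = g * ((h : G)⁻¹ * m * h) * (g : G)⁻¹ := this
    show m * (g * (h : G)⁻¹) = g * (h : G)⁻¹ * m
    calc m * (g * (h : G)⁻¹) = h * ((h : G)⁻¹ * m * h) * (h : G)⁻¹ * (g * (h : G)⁻¹) := by group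
      _ = _ := by rw [h2]; group⟩
  let f : E → α := fun x => (x.toMul : G) • a
  have hf : Function.Bijective f := by
    refine ⟨fun x y e => Subtype.ext ?_, fun c => ?_⟩
    · have := hreg _ (mul_mem (inv_mem y.toMul.2) x.toMul.2) (by
        rw [mul_smul, inv_smul_eq_iff]; exact e)
      exact (inv_mul_eq_one.1 this).symm
    · obtain ⟨x, hx⟩ := hNt.exists_smul_eq a c
      exact ⟨Additive.ofMul x, hx⟩
  haveI : Nontrivial E := hf.2.nontrivial
  obtain ⟨v0, hv0⟩ := exists_ne (0 : E)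
  have htr' : ∀ x y : E, x ≠ 0 → y ≠ 0 → ∃ d : stabilizer G a, d • x = y ∨ d • x = -y := by
    intro x y hx hy
    obtain ⟨g, hg, h⟩ := htr _ x.toMul.2 _ y.toMul.2 (fun e => hx (Subtype.ext e))
      (fun e => hy (Subtype.ext e))
    exact ⟨⟨g, hg⟩, h.imp Subtype.ext Subtype.ext⟩
  obtain ⟨A, _, _, hC⟩ := hA E (AddEquiv.refl _) htr'
  obtain ⟨R, _, e, Φ, h1, -, hΦ⟩ := semilin0 A hC htr' v0 hv0
  haveI : Finite R := Finite.of_equiv _ e.toEquiv
  have := Fintype.ofFinite R
  have := Fintype.ofFinite K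
  let ρ : R ≃+* K := FiniteField.ringEquivOfCardEq (by
    rw [← Nat.card_eq_fintype_card, ← Nat.card_eq_fintype_card, hK, ← Nat.card_congr e.toEquiv,
      Nat.card_eq_of_bijective f hf])
  let ε : α ≃ K := (Equiv.ofBijective f hf).symm.trans (e.toEquiv.trans ρ.toEquiv)
  have hε : ∀ x : E, ε (f x) = ρ (e x) := fun x => by
    simp only [ε, Equiv.trans_apply]
    rw [show f x = Equiv.ofBijective f hf x from rfl, Equiv.symm_apply_apply]; rfl
  have hadd : ∀ x y : E, (x.toMul : G) • f y = f (x + y) := fun x y => (mul_smul _ _ _).symm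
  refine ⟨ε, fun g => ?_, fun b => ⟨_, (e.symm (ρ.symm b)).toMul.2, fun x => ?_⟩⟩
  · obtain ⟨n, hn'⟩ := hf.2 (g • a)
    let d : stabilizer G a := ⟨(n.toMul : G)⁻¹ * g, by
      rw [mem_stabilizer_iff, mul_smul, inv_smul_eq_iff]; exact hn'.symm⟩
    have hc : ρ (e (d • v0)) ≠ 0 := by
      rw [map_ne_zero, Ne, e.map_eq_zero_iff]; exact (smul_ne_zero_iff_ne _).2 hv0
    refine ⟨Units.mk0 _ hc, ρ (e n), ρ.symm.trans ((Φ d).trans ρ), fun x => ?_⟩
    obtain ⟨x, rfl⟩ := hf.2 x
    have h2 : g • f x = f (n + d • x) := by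
      rw [← hadd]
      show g • (x.toMul : G) • a = (n.toMul : G) • ((d • x).toMul : G) • a
      rw [hsm, mul_smul, mul_smul, (inv_mem d.2 : (d : G)⁻¹ • a = a), ← mul_smul (n.toMul : G)]
      simp [d]
    rw [h2, hε, hε, map_add, map_add, hΦ, map_mul, add_comm]
    simp
  · obtain ⟨x, rfl⟩ := hf.2 x
    rw [hadd, hε, hε, map_add, map_add, e.apply_symm_apply, ρ.apply_symm_apply, add_comm]

theorem semiaff_odd {G α : Type*} [Group G] [Finite G] [MulAction G α] [FaithfulSMul G α]
    [Nontrivial α] (hodd : Odd (Nat.card G)) (N : Subgroup G) [hn : N.Normal] [IsMulCommutative N]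
    (hNt : IsPretransitive N α) {p : ℕ} (hp : p.Prime) (hN : ∀ x ∈ N, x ^ p = 1) (a : α)
    (htr : ∀ x ∈ N, ∀ y ∈ N, x ≠ 1 → y ≠ 1 → ∃ g ∈ stabilizer G a,
      g * x * g⁻¹ = y ∨ g * x * g⁻¹ = y⁻¹)
    (K : Type*) [Field K] [Finite K] (hK : Nat.card K = Nat.card α) :
    ∃ e : α ≃ K, (∀ g : G, ∃ c : Kˣ, ∃ b : K, ∃ φ : K ≃+* K, ∀ x : α, e (g • x) = c * φ (e x) + b) ∧
      ∀ b : K, ∃ n ∈ N, ∀ x, e (n • x) = e x + b := by
  refine semiaff_of N hNt a (fun E _ _ _ _ e h => ?_) htr K hK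
  have ho : Odd (Nat.card (stabilizer G a)) := hodd.of_dvd_nat (card_subgroup_dvd_card _)
  haveI := FT.odd_solvable ho
  haveI := (appI' ho hp (fun x => e.injective (by
    rw [map_nsmul, map_zero]; exact Subtype.ext (hN _ (e x).toMul.2))) h).1
  exact ⟨_, inferInstance, ⟨⟨fun x y => by
    letI := IsCyclic.commGroup (α := fittingSubgroup (stabilizer G a)); exact mul_comm x y⟩⟩,
    H1.centralizer_fitting_le⟩

end H8
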