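import Cfsg.Agent.H8.SemiLin

set_option autoImplicit false

namespace H8

open Cfsg Subgroup MulAction
open scoped IsMulCommutative

universe u

/-- The field generated by an abelian normal subgroup of a group transitive on non-zero vectors. -/
theorem semilinF {D : Type*} {E : Type u} [Group D] [Finite D] [AddCommGroup E] [Finite E]
    [DistribMulAction D E] [FaithfulSMul D E] (A : Subgroup D) [hn : A.Normal]
    [IsMulCommutative A]
    (htr : ∀ a b : E, a ≠ 0 → b ≠ 0 → ∃ d : D, d • a = b ∨ d • a = -b) (v0 : E) (hv0 : v0 ≠ 0) :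
    ∃ (R : Type u) (_ : Field R) (_ : Finite R) (_ : Module R E) (Φ : D →* (R ≃+* R)),
      Nat.card A ∣ Nat.card R - 1 ∧ Φ.ker = centralizer (A : Set D) ∧
      ∀ (d : D) (r : R) (x : E), d • r • x = Φ d r • d • x := by
  classical
  let ρ : D →* AddMonoid.End E := DistribMulAction.toAddMonoidEnd D E
  have hρ : ∀ d x, ρ d x = d • x := fun _ _ => rfl
  have hρi : Function.Injective ρ := fun a b e =>
    eq_of_smul_eq_smul (α := E) fun x => by rw [← hρ, ← hρ, e]
  haveI : Finite (AddMonoid.End E) := Finite.of_injective _ DFunLike.coe_injective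
  let R : Subring (AddMonoid.End E) := Subring.closure (ρ '' A)
  have hcomm : ∀ x ∈ ρ '' A, ∀ y ∈ ρ '' A, x * y = y * x := by
    rintro _ ⟨a, ha, rfl⟩ _ ⟨b, hb, rfl⟩
    rw [← map_mul, ← map_mul]
    exact congrArg ρ (congrArg Subtype.val (mul_comm (⟨a, ha⟩ : A) ⟨b, hb⟩))
  haveI : IsMulCommutative R := Subring.isMulCommutative_closure hcomm
  have hRc : ∀ r s : R, r * s = s * r := fun r s => mul_comm r s
  have hconj : ∀ d : D, ∀ r ∈ R, ρ d * r * ρ d⁻¹ ∈ R := by
    intro d r hr
    have h1 : ρ d⁻¹ * ρ d = 1 := by rw [← map_mul, inv_mul_cancel, map_one]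
    have h2 : ρ d * ρ d⁻¹ = 1 := by rw [← map_mul, mul_inv_cancel, map_one]
    induction hr using Subring.closure_induction with
    | mem x hx =>
      obtain ⟨a, ha, rfl⟩ := hx
      rw [← map_mul, ← map_mul]
      exact Subring.subset_closure ⟨_, hn.conj_mem _ ha d, rfl⟩
    | zero => simp
    | one => rw [mul_one, h2]; exact one_mem _
    | add x y _ _ hx hy => rw [mul_add, add_mul]; exact add_mem hx hy
    | neg x _ hx => rw [mul_neg, neg_mul]; exact neg_mem hx
    | mul x y _ _ hx hy =>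
      have : ρ d * (x * y) * ρ d⁻¹ = (ρ d * x * ρ d⁻¹) * (ρ d * y * ρ d⁻¹) := by
        calc _ = ρ d * x * (ρ d⁻¹ * ρ d) * y * ρ d⁻¹ := by rw [h1]; simp only [mul_one, mul_assoc]
          _ = _ := by simp only [mul_assoc]
      rw [this]; exact mul_mem hx hy
  let Φ1 : D → R →+* R := fun d =>
    { toFun := fun r => ⟨ρ d * r * ρ d⁻¹, hconj d r r.2⟩
      map_one' := Subtype.ext (by
        show ρ d * 1 * ρ d⁻¹ = 1
        rw [mul_one, ← map_mul, mul_inv_cancel, map_one])
      map_zero' := Subtype.ext (by show ρ d * 0 * ρ d⁻¹ = 0; simp)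
      map_add' := fun x y => Subtype.ext (by
        show ρ d * (x + y) * ρ d⁻¹ = ρ d * x * ρ d⁻¹ + ρ d * y * ρ d⁻¹
        rw [mul_add, add_mul])
      map_mul' := fun x y => Subtype.ext (by
        show ρ d * (x * y) * ρ d⁻¹ = (ρ d * x * ρ d⁻¹) * (ρ d * y * ρ d⁻¹)
        have h1 : ρ d⁻¹ * ρ d = 1 := by rw [← map_mul, inv_mul_cancel, map_one]
        calc _ = ρ d * x * (ρ d⁻¹ * ρ d) * y * ρ d⁻¹ := by rw [h1]; simp only [mul_one, mul_assoc]
          _ = _ := by simp only [mul_assoc]) }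
  have hΦ1 : ∀ d (r : R) (x : E), (Φ1 d r : AddMonoid.End E) x = d • (r : AddMonoid.End E) (d⁻¹ • x) :=
    fun _ _ _ => rfl
  have hΦm : ∀ d d' r, Φ1 (d * d') r = Φ1 d (Φ1 d' r) := fun d d' r =>
    Subtype.ext (DFunLike.ext _ _ fun x => by rw [hΦ1, hΦ1, hΦ1, mul_inv_rev, mul_smul, mul_smul])
  have hΦo : ∀ r, Φ1 1 r = r := fun r => Subtype.ext (DFunLike.ext _ _ fun x => by
    rw [hΦ1, inv_one, one_smul, one_smul])
  let Φ : D →* (R ≃+* R) :=
    { toFun := fun d => { Φ1 d with
        invFun := Φ1 d⁻¹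
        left_inv := fun r => by
          show Φ1 d⁻¹ (Φ1 d r) = r
          rw [← hΦm, inv_mul_cancel, hΦo]
        right_inv := fun r => by
          show Φ1 d (Φ1 d⁻¹ r) = r
          rw [← hΦm, mul_inv_cancel, hΦo] }
      map_one' := RingEquiv.ext hΦo
      map_mul' := fun d d' => RingEquiv.ext (hΦm d d') }
  have hΦ : ∀ d (r : R) (x : E), (Φ d r : AddMonoid.End E) (d • x) = d • (r : AddMonoid.End E) x :=
    fun d r x => (hΦ1 d r _).trans (by rw [inv_smul_smul])
  have hker : Φ.ker = centralizer (A : Set D) := by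
    apply le_antisymm
    · intro d hd
      refine mem_centralizer_iff.2 fun a ha => hρi (DFunLike.ext _ _ fun x => ?_)
      have := hΦ d ⟨ρ a, Subring.subset_closure ⟨a, ha, rfl⟩⟩ x
      rw [MonoidHom.mem_ker.1 hd] at this
      rw [hρ, hρ, mul_smul, mul_smul]
      exact this
    · intro d hd
      refine MonoidHom.mem_ker.2 (RingEquiv.ext fun r => Subtype.ext ?_)
      have : R ≤ Subring.centralizer {ρ d} := Subring.closure_le.2 (by
        rintro _ ⟨a, ha, rfl⟩ _ rfl
        rw [← map_mul, ← map_mul, mem_centralizer_iff.1 hd a ha])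
      show ρ d * r * ρ d⁻¹ = r
      rw [this r.2 _ rfl, mul_assoc, ← map_mul, mul_inv_cancel, map_one, mul_one]
  -- cyclic submodules
  let O : E → Set E := fun v => Set.range fun r : R => (r : AddMonoid.End E) v
  have hO : ∀ v w, v ≠ 0 → w ≠ 0 → (O v).ncard ≤ (O w).ncard := by
    intro v w hv hw
    obtain ⟨d, hd⟩ := htr v w hv hw
    refine Set.ncard_le_ncard_of_injOn (fun x => d • x) ?_ (fun x _ y _ e => smul_left_cancel d e)
    rintro _ ⟨r, rfl⟩
    rcases hd with hd | hd
    · exact ⟨Φ d r, by rw [← hd]; exact hΦ d r v⟩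
    · refine ⟨-Φ d r, ?_⟩
      have := hΦ d r v
      rw [hd, map_neg] at this
      exact this
  have hsimp : ∀ v (r : R), (r : AddMonoid.End E) v ≠ 0 →
      ∃ s : R, (s : AddMonoid.End E) ((r : AddMonoid.End E) v) = v := by
    intro v r hr
    have hv : v ≠ 0 := by rintro rfl; exact hr (map_zero _)
    have hsub : O ((r : AddMonoid.End E) v) ⊆ O v := by
      rintro _ ⟨s, rfl⟩; exact ⟨s * r, rfl⟩
    have := Set.eq_of_subset_of_ncard_le hsub (hO _ _ hv hr)
    have h1 : v ∈ O v := ⟨1, rfl⟩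
    rwa [← this] at h1
  have hinj : ∀ (r : R) v, v ≠ 0 → (r : AddMonoid.End E) v = 0 → r = 0 := by
    intro r v hv h0
    refine Subtype.ext (DFunLike.ext _ _ fun w => ?_)
    by_contra hw
    replace hw : (r : AddMonoid.End E) w ≠ 0 := hw
    have h1 : (r : AddMonoid.End E) (v + w) = (r : AddMonoid.End E) w := by
      rw [map_add, h0, zero_add]
    obtain ⟨s, hs⟩ := hsimp (v + w) r (h1 ▸ hw)
    rw [h1] at hs
    have h2 : ((s * r - 1 : R) : AddMonoid.End E) w = v := by
      show (s : AddMonoid.End E) ((r : AddMonoid.End E) w) - w = v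
      rw [hs]; abel
    obtain ⟨s', hs'⟩ := hsimp w (s * r - 1) (h2 ▸ hv)
    rw [h2] at hs'
    have h3 := congrArg (fun s : R => (s : AddMonoid.End E) v) (hRc r s')
    have h4 : (r : AddMonoid.End E) ((s' : AddMonoid.End E) v) =
      (s' : AddMonoid.End E) ((r : AddMonoid.End E) v) := h3
    rw [hs', h0, map_zero] at h4
    exact hw h4
  have hF : IsField R :=
    { exists_pair_ne := ⟨1, 0, fun e => hv0 (congrArg (fun s : R => (s : AddMonoid.End E) v0) e)⟩
      mul_comm := hRc
      mul_inv_cancel := fun {r} hr => by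
        obtain ⟨s, hs⟩ := hsimp v0 r fun e => hr (hinj r v0 hv0 e)
        refine ⟨s, ?_⟩
        rw [hRc, ← sub_eq_zero]
        exact hinj _ v0 hv0 (sub_eq_zero.2 hs) }
  letI : Field R := hF.toField
  letI : Module R E := Module.compHom E R.subtype
  refine ⟨R, inferInstance, inferInstance, inferInstance, Φ, ?_, hker, fun d r x => (hΦ d r x).symm⟩
  let ι : A →* R := (ρ.comp A.subtype).codRestrict R.toSubmonoid fun a =>
    Subring.subset_closure ⟨a, a.2, rfl⟩
  rw [← Nat.card_units]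
  exact card_dvd_of_injective ι.toHomUnits fun a b e =>
    Subtype.ext (hρi (congrArg (fun u : Rˣ => ((u : R) : AddMonoid.End E)) e))

end H8
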