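import Cfsg.Agent.H8.NS

/-! Sharply multiply transitive groups. -/

set_option autoImplicit false
set_option linter.style.haveILetI false
set_option linter.unusedSectionVars false

namespace H8
open Cfsg H9 Subgroup MulAction

structure Sh (k : ℕ) (G Ω : Type*) [Group G] [MulAction G Ω] : Prop where
  tr : IsMultiplyPretransitive G Ω k
  st : ∀ x : Fin k ↪ Ω, stabilizer G x = ⊥

variable {G Ω : Type*} [Group G] [MulAction G Ω]

/-- embedding from a list without duplicates -/
def e4 {a b c d : Ω} (h : [a, b, c, d].Nodup) : Fin 4 ↪ Ω :=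
  ⟨![a, b, c, d], List.nodup_ofFn.1 (by simpa using h)⟩

namespace Sh

theorem ex4 (h : Sh 4 G Ω) {a b c d a' b' c' d' : Ω} (h1 : [a, b, c, d].Nodup)
    (h2 : [a', b', c', d'].Nodup) : ∃ g : G, g • a = a' ∧ g • b = b' ∧ g • c = c' ∧ g • d = d' := by
  obtain ⟨g, hg⟩ := h.tr.exists_smul_eq (e4 h1) (e4 h2)
  exact ⟨g, DFunLike.congr_fun hg 0, DFunLike.congr_fun hg 1, DFunLike.congr_fun hg 2,
    DFunLike.congr_fun hg 3⟩

theorem ext4 (h : Sh 4 G Ω) {a b c d : Ω} (h1 : [a, b, c, d].Nodup) {g k : G} (e1 : g • a = k • a)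
    (e2 : g • b = k • b) (e3 : g • c = k • c) (e4' : g • d = k • d) : g = k := by
  have : k⁻¹ * g ∈ stabilizer G (e4 h1) := Function.Embedding.ext fun i => by
    change (k⁻¹ * g) • e4 h1 i = _
    rw [mul_smul, inv_smul_eq_iff]
    fin_cases i
    exacts [e1, e2, e3, e4']
  exact (inv_mul_eq_one.1 ((h.st _).le this)).symm

theorem tits (h : Sh 4 G Ω) (hne : Nonempty (Fin 4 ↪ Ω)) :
    Finite Ω ∧ Nat.card Ω ≤ 11 ∧ (Even (Nat.card Ω) → Nat.card Ω ≤ 6) := by
  classical
  obtain ⟨x⟩ := hne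
  obtain ⟨a, b, c, d, n⟩ : ∃ a b c d : Ω, [a, b, c, d].Nodup :=
    ⟨x 0, x 1, x 2, x 3, by simp⟩
  have n' : [b, a, c, d].Nodup := (List.Perm.swap ..).nodup_iff.1 n
  obtain ⟨t, ta, tb, tc, td⟩ := h.ex4 n n'
  have t2 : t * t = 1 := h.ext4 n (by simp [mul_smul, *]) (by simp [mul_smul, *])
    (by simp [mul_smul, *]) (by simp [mul_smul, *])
  have tt : ∀ y : Ω, t • t • y = y := fun y => by rw [← mul_smul, t2, one_smul]
  simp only [List.nodup_cons, List.mem_cons, List.not_mem_nil, or_false, not_or] at n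
  obtain ⟨⟨ab, ac, ad⟩, ⟨bc, bd⟩, cd, -⟩ := n
  obtain ⟨w, hw⟩ : ∃ w, fixedBy Ω t ⊆ {c, d, w} := by
    by_contra! k
    obtain ⟨w, hw, k1⟩ := Set.not_subset.1 (k c)
    obtain ⟨v, hv, k2⟩ := Set.not_subset.1 (k w)
    simp only [Set.mem_insert_iff, Set.mem_singleton_iff, not_or] at k1 k2
    have : t = 1 := h.ext4 (a := v) (b := w) (c := c) (d := d) (by simp [*])
      (by simpa using hv) (by simpa using hw) (by simpa) (by simpa)
    exact ab (by rw [← ta, this, one_smul])
  have fF : (fixedBy Ω t).Finite := (Set.toFinite _).subset hw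
  have cF : fF.toFinset.card ≤ 3 := by
    rw [← Set.ncard_eq_toFinset_card _ fF]
    exact (Set.ncard_le_ncard hw).trans ((Set.ncard_insert_le ..).trans
      (Nat.succ_le_succ ((Set.ncard_insert_le ..).trans (by simp))))
  set M : Set Ω := {y | t • y ≠ y ∧ y ≠ a ∧ y ≠ b}
  have nd : ∀ y ∈ M, [a, b, y, t • y].Nodup := fun y hy => by
    have h1 : a ≠ t • y := fun e => hy.2.2 (by rw [← ta, e, tt])
    have h2 : b ≠ t • y := fun e => hy.2.1 (by rw [← tb, e, tt])
    simp [ab, hy.2.1.symm, hy.2.2.symm, hy.1.symm, h1, h2]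
  obtain ⟨f, f1, f2⟩ : ∃ f : Ω → Ω × Ω, (∀ y ∈ M, f y ∈ (fF.toFinset.offDiag : Set _)) ∧
      Set.InjOn f M := by
    rcases M.eq_empty_or_nonempty with e | ⟨z, hz⟩
    · exact ⟨fun _ => (a, a), by simp [e], by simp [e]⟩
    choose! g g1 g2 g3 g4 using fun y hy => h.ex4 (nd z hz) (nd y hy)
    refine ⟨fun y => (g y • c, g y • d), fun y hy => ?_, fun y hy y' hy' e => ?_⟩
    · have : t * g y = g y * t := h.ext4 (nd z hz) (by simp [mul_smul, *]) (by simp [mul_smul, *])
        (by simp [mul_smul, *]) (by simp [mul_smul, *])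
      simp [← mul_smul, this, cd]
      simp [mul_smul, tc, td]
    · rw [← g3 y hy, ← g3 y' hy', h.ext4 (a := a) (b := b) (c := c) (d := d) (by simp [*])
        ((g1 y hy).trans (g1 y' hy').symm) ((g2 y hy).trans (g2 y' hy').symm)
        (congrArg Prod.fst e) (congrArg Prod.snd e)]
  have fM : M.Finite := Set.Finite.of_injOn f1 f2 (Set.toFinite _)
  have cM := Set.ncard_le_ncard_of_injOn f f1 f2
  have u : (Set.univ : Set Ω) ⊆ insert a (insert b (fixedBy Ω t ∪ M)) := fun y _ => by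
    by_contra k
    simp only [Set.mem_insert_iff, Set.mem_union, not_or] at k
    exact k.2.2.2 ⟨k.2.2.1, k.1, k.2.1⟩
  haveI : Finite Ω := Set.finite_univ_iff.1 (((fF.union fM).insert b).insert a |>.subset u)
  have c1 := (Set.ncard_le_ncard u).trans ((Set.ncard_insert_le ..).trans (Nat.succ_le_succ
    ((Set.ncard_insert_le ..).trans (Nat.succ_le_succ (Set.ncard_union_le ..)))))
  have c2 := ncard_modEq_of_isPGroup (isPGroup_zpowers_of_pow_eq_one (p := 2) (k := 1) (x := t)
    (by simpa [pow_two] using t2)) (Set.univ : Set Ω) (Set.toFinite _) (by simp)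
  have c3 : {x | x ∈ (Set.univ : Set Ω) ∧ ∀ g ∈ zpowers t, g • x = x} = fixedBy Ω t :=
    Set.ext fun y => ⟨fun k => k.2 t (mem_zpowers t), fun k => ⟨trivial, fun g hg =>
      (zpowers_le (H := stabilizer G y)).2 k hg⟩⟩
  rw [c3] at c2
  rw [Set.ncard_coe_finset, Finset.offDiag_card] at cM
  rw [Set.ncard_univ, Set.ncard_eq_toFinset_card _ fF] at c1 c2
  unfold Nat.ModEq at c2
  generalize fF.toFinset.card = r at *
  refine ⟨inferInstance, ?_, fun ⟨m, hm⟩ => ?_⟩ <;> interval_cases r <;> omega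

theorem step [Finite Ω] {k : ℕ} (h : Sh (k + 1) G Ω) (hk : k + 1 ≤ Nat.card Ω) (a : Ω) :
    Sh k (stabilizer G a) (SubMulAction.ofStabilizer G a) := by
  haveI := h.tr
  haveI : IsPretransitive G Ω := is_one_pretransitive_iff.1
    (isMultiplyPretransitive_of_le (n := k + 1) (by omega) hk)
  refine ⟨SubMulAction.ofStabilizer.isMultiplyPretransitive.1 h.tr, fun x => eq_bot_iff.2
    fun g hg => Subtype.ext ((h.st (SubMulAction.ofStabilizer.snoc x)).le
      (Function.Embedding.ext fun i => ?_))⟩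
  change (g : G) • SubMulAction.ofStabilizer.snoc x i = _
  induction i using Fin.lastCases with
  | last => rw [SubMulAction.ofStabilizer.snoc_last]; exact g.2
  | cast i =>
    rw [SubMulAction.ofStabilizer.snoc_castSucc]
    exact congrArg Subtype.val (DFunLike.congr_fun hg i)

theorem eq_one {k : ℕ} (h : Sh k G Ω) {g : G} (s : Finset Ω) (hs : k ≤ s.card)
    (e : ∀ y ∈ s, g • y = y) : g = 1 := by
  obtain ⟨x⟩ : Nonempty (Fin k ↪ s) := Function.Embedding.nonempty_of_card_le (by simpa)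
  exact (h.st (x.trans (.subtype _))).le (Function.Embedding.ext fun i => e _ (x i).2)

theorem num [Finite Ω] {k p : ℕ} (h : Sh k G Ω) [hp : Fact p.Prime] (h1 : k ≤ p)
    (h2 : k ≤ Nat.card Ω) (h3 : Nat.card Ω < 2 * p) (h4 : p ∣ (Nat.card Ω).descFactorial k) :
    ∃ e ∈ (p - 1).divisors, p * e ∣ (Nat.card Ω).descFactorial k ∧
      (Nat.card Ω).descFactorial k / (p * e) % p = 1 % p := by
  classical
  haveI := Fintype.ofFinite Ω
  haveI := h.tr
  rw [Nat.card_eq_fintype_card] at *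
  have c := card_of_sharp h2 h.st
  have inj : Function.Injective (toPermHom G Ω) := (injective_iff_map_eq_one _).2 fun g e =>
    h.eq_one Finset.univ h2 fun y _ => DFunLike.congr_fun e y
  haveI := Finite.of_injective _ inj
  obtain ⟨x, hx⟩ := exists_prime_orderOf_dvd_card' p (c ▸ h4)
  have o := (orderOf_injective _ inj x).trans hx
  have hc := Equiv.Perm.isCycle_of_prime_order' (o ▸ hp.1) (o ▸ h3)
  obtain ⟨P, hP, hC⟩ := sylow_of_cen hx (le_antisymm (fun y hy => by
    have e : y * x = x * y := mem_centralizer_singleton_iff.1 hy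
    obtain ⟨a, ha, -⟩ := id hc
    obtain ⟨j, hj⟩ := hc.exists_zpow_eq ha (y := y • a) fun e' => ha (smul_left_cancel y (by
      rw [← e']; exact (mul_smul ..).symm.trans (e ▸ mul_smul ..)))
    refine ⟨j, inv_mul_eq_one.1 (h.eq_one (toPermHom G Ω x).support
      (by rwa [← hc.orderOf, o]) fun b hb => ?_)⟩
    obtain ⟨i, rfl⟩ := hc.exists_zpow_eq ha (Equiv.Perm.mem_support.1 hb)
    rw [← map_zpow] at hj ⊢
    change x ^ j • a = y • a at hj
    change _ • x ^ i • a = x ^ i • a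
    rw [mul_smul, inv_smul_eq_iff, smul_smul, ((show Commute y x from e).zpow_right i).eq, mul_smul,
      ← hj, smul_smul, smul_smul, zpow_mul_comm])
    (zpowers_le.2 (mem_centralizer_singleton_iff.2 rfl)))
  have e6 := relIndex_centralizer_normalizer_dvd_of_prime (P : Subgroup G) hp.1 hP
  haveI := Fintype.ofFinite G
  have c1 := card_eq_syl (P := P) rfl
  have c2 := (cen (P : Subgroup G)).card_mul_index
  rw [c1, c, show Nat.card (cen (P : Subgroup G)) = p by rw [hC]; exact hP, ← mul_assoc] at c2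
  have := hp.1.two_le
  refine ⟨_, Nat.mem_divisors.2 ⟨e6, by omega⟩, Dvd.intro _ c2, ?_⟩
  rw [← c2, Nat.mul_div_cancel_left _ (Nat.mul_pos hp.1.pos (Nat.pos_of_dvd_of_pos e6 (by omega)))]
  exact card_sylow_modEq_one p G

theorem four [Finite Ω] (h : Sh 4 G Ω) (h1 : 4 ≤ Nat.card Ω) :
    Nat.card Ω = 4 ∨ Nat.card Ω = 5 ∨ Nat.card Ω = 6 ∨ Nat.card Ω = 11 := by
  haveI := Fintype.ofFinite Ω
  haveI : Fact (Nat.Prime 5) := ⟨by norm_num⟩
  haveI : Fact (Nat.Prime 7) := ⟨by norm_num⟩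
  obtain ⟨-, a, b⟩ := h.tits (Function.Embedding.nonempty_of_card_le (by simpa using h1))
  have c5 := h.num (p := 5) (by norm_num) h1
  have c7 := h.num (p := 7) (by norm_num) h1
  generalize Nat.card Ω = n at *
  interval_cases n <;> revert b c5 c7 <;> decide +kernel

theorem five [Finite Ω] (h : Sh 5 G Ω) (h1 : 5 ≤ Nat.card Ω) :
    Nat.card Ω = 5 ∨ Nat.card Ω = 6 ∨ Nat.card Ω = 7 ∨ Nat.card Ω = 12 := by
  obtain ⟨a⟩ : Nonempty Ω := (Nat.card_pos_iff.1 (by omega)).1
  have := SubMulAction.nat_card_ofStabilizer_add_one_eq G a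
  have := (h.step h1 a).four (by omega)
  omega

end Sh

theorem Sh.six {k : ℕ} (hk : 6 ≤ k) : ∀ {G Ω : Type*} [Group G] [MulAction G Ω] [Finite Ω],
    Sh k G Ω → k ≤ Nat.card Ω → Nat.card Ω = k ∨ Nat.card Ω = k + 1 ∨ Nat.card Ω = k + 2 := by
  induction k, hk using Nat.le_induction with
  | base =>
    intro G Ω _ _ _ h h1
    haveI : Fact (Nat.Prime 13) := ⟨by norm_num⟩
    obtain ⟨a⟩ : Nonempty Ω := (Nat.card_pos_iff.1 (by omega)).1
    have := SubMulAction.nat_card_ofStabilizer_add_one_eq G a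
    have := (h.step h1 a).five (by omega)
    have : Nat.card Ω ≠ 13 := fun e => absurd (e ▸ h.num (p := 13) (by norm_num) h1 (by omega)
      (by rw [e]; decide +kernel) :) (by decide +kernel)
    omega
  | succ k hk ih =>
    intro G Ω _ _ _ h h1
    obtain ⟨a⟩ : Nonempty Ω := (Nat.card_pos_iff.1 (by omega)).1
    have := SubMulAction.nat_card_ofStabilizer_add_one_eq G a
    have := ih (h.step h1 a) (by omega)
    omega

end H8
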