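import Mathlib
import Cfsg.Agent.H8.FieldAut

set_option autoImplicit false

namespace H8
open Finset

variable {F : Type*} [Field F] [Fintype F] [CharP F 2] {K : Type*} [Group K]

omit [Fintype F] [CharP F 2] in
theorem exists_chi (χ : K ≃* Fˣ) {x y : F} (hx : x ≠ 0) (hy : y ≠ 0) : ∃ k, χ k * x = y :=
  ⟨χ.symm (Units.mk0 (y / x) (div_ne_zero hy hx)), by simp [hx]⟩

theorem alt_zero (ω : F →+ F →+ F) (alt : ∀ x, ω x x = 0) {χ₁ χ₃ : K ≃* Fˣ}
    (hω : ∀ k x y, ω (χ₁ k * x) (χ₁ k * y) = χ₃ k * ω x y) (s : F →+ F)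
    (hs : ∀ x, s x = 0 → x = 0) (hs' : ∀ k x, s (χ₁ k * x) = χ₃ k * s x) (x y : F) : ω x y = 0 := by
  have hb : Function.Bijective s :=
    Finite.injective_iff_bijective.1 ((injective_iff_map_eq_zero s).2 hs)
  let e := AddEquiv.ofBijective s hb
  let f : F → F → F := fun x y => e.symm (ω x y)
  have hf : ∀ μ x y, μ ≠ 0 → f (μ * x) (μ * y) = μ * f x y := fun μ x y hμ => by
    obtain ⟨k, hk⟩ := exists_chi χ₁ one_ne_zero hμ
    rw [mul_one] at hk
    rw [← hk]
    apply e.injective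
    simp only [f, AddEquiv.apply_symm_apply, hω]
    exact ((hs' k _).trans (congrArg _ (e.apply_symm_apply _))).symm
  have hadd : ∀ x y z, f x (y + z) = f x y + f x z := fun x y z => by simp [f]
  have hsym : ∀ x y, f x y = f y x := fun x y => by
    have h1 := alt (x + y)
    simp only [map_add, AddMonoidHom.add_apply, alt, zero_add, add_zero] at h1
    simp only [f]
    rw [CharTwo.add_eq_zero.1 h1]
  have h11 : f 1 1 = 0 := by simp [f, alt]
  have hinv : ∀ z, z ≠ 0 → f 1 z = z * f 1 z⁻¹ := fun z hz => by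
    rw [← hf _ _ _ hz, mul_one, mul_inv_cancel₀ hz, hsym]
  have h2 : (2 : F) = 0 := CharTwo.two_eq_zero
  have hsq : ∀ z, f 1 (z * z) = 0 := fun z => by
    by_cases hz : z = 0
    · simp [hz, f]
    by_cases hz1 : z + 1 = 0
    · rw [CharTwo.add_eq_zero.1 hz1, mul_one, h11]
    have a1 := hinv z hz
    have a2 := hinv (z + 1) hz1
    have a3 := hinv (z * (z + 1)) (mul_ne_zero hz hz1)
    have a4 : (z * (z + 1))⁻¹ = z⁻¹ + (z + 1)⁻¹ := by
      field_simp; linear_combination -z * h2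
    rw [a4, hadd, mul_add z z, mul_one, hadd] at a3
    rw [hadd, h11] at a2
    linear_combination a3 - (z + 1) * a1 - z * a2 + z * f 1 z * h2
  have h1 : ∀ z, f 1 z = 0 := fun z => by
    obtain ⟨w, rfl⟩ := (bijective_frobenius F 2).2 z
    rw [frobenius_def, sq, hsq]
  by_cases hx : x = 0
  · simp [hx]
  have := hf x 1 (y / x) hx
  rw [mul_one, mul_div_cancel₀ _ hx, h1, mul_zero] at this
  simpa [f] using this

theorem eta_par (η : F →+ F →+ F) {χ₁ χ₂ : K ≃* Fˣ}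
    (hη : ∀ k c v, η (χ₁ k * c) (χ₂ k * v) = χ₂ k * η c v) {c₀ v₀ : F} (hv : v₀ ≠ 0)
    (h : η c₀ v₀ = v₀) : (∀ c, η c v₀ = 0 → c = 0) ∧ ∀ w, w ≠ 0 → η c₀ w = w → w = v₀ := by
  classical
  have hc : c₀ ≠ 0 := by rintro rfl; exact hv (by simpa using h.symm)
  let Fx : AddSubgroup F := (η c₀ - AddMonoidHom.id F).ker
  let J : AddSubgroup F := (η.flip v₀).ker
  have mF : ∀ v, v ∈ Fx ↔ η c₀ v = v := fun v => by simp [Fx, sub_eq_zero]
  have mJ : ∀ c, c ∈ J ↔ η c v₀ = 0 := fun c => Iff.rfl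
  let g : K → F := fun k => χ₂ k * v₀
  let g' : K → F := fun k => χ₁ k⁻¹ * c₀ - c₀
  have hg : Function.Injective g := fun a b e =>
    χ₂.injective (Units.ext (mul_right_cancel₀ hv e))
  have hg' : Function.Injective g' := fun a b e =>
    inv_injective (χ₁.injective (Units.ext (mul_right_cancel₀ hc (sub_left_injective e))))
  have h1 : ∀ k, g k ∈ Fx ↔ g' k ∈ J := fun k => by
    have h2 := hη k (χ₁ k⁻¹ * c₀) v₀
    rw [← mul_assoc, ← Units.val_mul, ← map_mul, mul_inv_cancel, map_one, Units.val_one,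
      one_mul] at h2
    rw [mF, mJ, map_sub, AddMonoidHom.sub_apply, h, sub_eq_zero, h2]
    exact (Units.mul_right_inj _)
  have e1 : (Fx : Set F) = insert 0 (g '' {k | g k ∈ Fx}) := by
    ext v
    refine ⟨fun hv' => ?_, ?_⟩
    · by_cases h0 : v = 0
      · exact Or.inl h0
      · obtain ⟨k, rfl⟩ := exists_chi χ₂ hv h0
        exact Or.inr ⟨k, hv', rfl⟩
    · rintro (rfl | ⟨k, hk, rfl⟩)
      · exact zero_mem _
      · exact hk
  have e2 : (J : Set F) = g' '' {k | g k ∈ Fx} := by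
    ext c
    refine ⟨fun hc' => ?_, ?_⟩
    · obtain ⟨k, hk⟩ := exists_chi χ₁ hc (y := c + c₀) (fun e => hv (by
        rw [← h, eq_neg_of_add_eq_zero_right e, map_neg, AddMonoidHom.neg_apply, (mJ c).1 hc',
          neg_zero]))
      have : g' k⁻¹ = c := by simp only [g', inv_inv, hk, add_sub_cancel_right]
      exact ⟨k⁻¹, (h1 _).2 (this ▸ hc'), this⟩
    · rintro ⟨k, hk, rfl⟩
      exact (h1 k).1 hk
  have e3 : Nat.card Fx = Nat.card J + 1 := by
    change Nat.card (Fx : Set F) = Nat.card (J : Set F) + 1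
    rw [Nat.card_coe_set_eq, Nat.card_coe_set_eq, e2, Set.ncard_image_of_injective _ hg']
    nth_rewrite 1 [e1]
    rw [Set.ncard_insert_of_notMem (by
      rintro ⟨k, -, e⟩
      exact mul_ne_zero (Units.ne_zero _) hv e), Set.ncard_image_of_injective _ hg]
  have ev : ∀ (U : AddSubgroup F) (u : F), u ∈ U → u ≠ 0 → 2 ∣ Nat.card U := fun U u hu h0 => by
    rw [← addOrderOf_eq_prime (p := 2) (x := u) (by rw [two_nsmul, CharTwo.add_self_eq_zero]) h0]
    exact U.addOrderOf_dvd_natCard hu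
  have h3 := ev Fx v₀ ((mF _).2 h) hv
  have h4 : ∀ c, η c v₀ = 0 → c = 0 := fun c hc' => by
    by_contra h0
    have := ev J c hc' h0
    omega
  refine ⟨h4, fun w hw h5 => ?_⟩
  obtain ⟨k, rfl⟩ := exists_chi χ₂ hv hw
  have h6 := h4 _ ((h1 k).1 ((mF _).2 h5))
  have h7 : k = 1 := hg' (by rw [h6]; simp [g'])
  simp [h7]

theorem eta_inj (η : F →+ F →+ F) {χ₁ χ₂ : K ≃* Fˣ}
    (hη : ∀ k c v, η (χ₁ k * c) (χ₂ k * v) = χ₂ k * η c v) {c₀ v₀ : F} (hv : v₀ ≠ 0)
    (h : η c₀ v₀ = v₀) {c v : F} (hc : c ≠ 0) (h0 : η c v = 0) : v = 0 := by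
  by_contra hv'
  obtain ⟨k, hk⟩ := exists_chi χ₂ hv' hv
  have := (eta_par η hη hv h).1 (χ₁ k * c) (by rw [← hk, hη, h0, mul_zero])
  exact mul_ne_zero (Units.ne_zero _) hc this

theorem eta_idem (η : F →+ F →+ F) {χ₁ χ₂ : K ≃* Fˣ} [Nontrivial K]
    (hη : ∀ k c v, η (χ₁ k * c) (χ₂ k * v) = χ₂ k * η c v)
    (hi : ∀ c v, η c (η c v) = η c v) (c v : F) : η c v = 0 := by
  by_contra h0
  have h1 : ∀ c' : F, c' ≠ 0 → η c' 1 = 1 := fun c' hc' =>
    sub_eq_zero.1 (eta_inj η hη h0 (hi c v) hc' (by rw [map_sub, hi, sub_self]))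
  obtain ⟨k, hk⟩ := exists_ne (1 : K)
  have h2 : (χ₁ k : F) + 1 ≠ 0 := fun e =>
    hk (χ₁.injective (Units.ext (by rw [CharTwo.add_eq_zero.1 e]; simp)))
  have h3 := h1 _ h2
  rw [map_add, AddMonoidHom.add_apply, h1 _ (Units.ne_zero _), h1 _ one_ne_zero] at h3
  simp at h3

omit [CharP F 2] in
theorem odd_of_inj {θ : F ≃+* F} (h : ∀ u : F, u * θ u = 1 → u = 1) : Odd (orderOf θ) := by
  classical
  by_contra hev
  obtain ⟨m, hm⟩ := Nat.not_odd_iff_even.1 hev
  haveI : Finite (F ≃+* F) := Finite.of_injective (fun σ => (σ : F → F)) DFunLike.coe_injective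
  have h0 := orderOf_pos θ
  have h1 : ∀ w : F, ∑ i ∈ range m, (θ ^ (2 * i + 1)) w = ∑ i ∈ range m, (θ ^ (2 * i)) w := by
    intro w
    set z := ∑ i ∈ range m, (θ ^ (2 * i)) w with hz
    have e1 : θ z = ∑ i ∈ range m, (θ ^ (2 * i + 1)) w := by
      simp only [hz, map_sum, pow_succ', RingAut.mul_apply]
    have e2 : θ (θ z) = z := by
      have := sum_range_succ' (fun i => (θ ^ (2 * i)) w) m
      rw [sum_range_succ, show 2 * m = orderOf θ by omega, pow_orderOf_eq_one] at this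
      simp only [mul_zero, pow_zero, add_left_inj] at this
      rw [e1, map_sum, hz, this]
      exact sum_congr rfl fun i _ => by rw [show 2 * (i + 1) = 2 * i + 1 + 1 by ring,
        pow_succ' _ (2 * i + 1), RingAut.mul_apply]
    rw [← e1]
    by_cases z0 : z = 0
    · simp [z0]
    have := h (θ z / z) (by rw [map_div₀, e2]; field_simp [z0])
    rwa [div_eq_one_iff_eq z0] at this
  have h2 := linearIndependent_iff'.1 ((aut_li (F := F)).comp (fun i : Fin (orderOf θ) => θ ^ (i : ℕ))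
    (fun i j e => Fin.ext (pow_injOn_Iio_orderOf i.2 j.2 e))) univ (fun i => (-1) ^ (i : ℕ))
    (funext fun w => by
      rw [Finset.sum_apply]
      change ∑ i : Fin (orderOf θ), (-1) ^ (i : ℕ) * (θ ^ (i : ℕ)) w = 0
      rw [Fin.sum_univ_eq_sum_range (fun i => (-1) ^ i * (θ ^ i) w), hm, ← two_mul]
      have : ∀ n : ℕ, ∑ i ∈ range (2 * n), (-1) ^ i * (θ ^ i) w =
          ∑ i ∈ range n, (θ ^ (2 * i)) w - ∑ i ∈ range n, (θ ^ (2 * i + 1)) w := fun n => by
        induction n with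
        | zero => simp
        | succ n ih =>
          rw [mul_add, mul_one, sum_range_succ, sum_range_succ, ih, sum_range_succ, sum_range_succ]
          simp only [pow_succ, pow_mul]
          simp; ring
      rw [this, h1, sub_self]) ⟨0, h0⟩ (mem_univ _)
  simp at h2

theorem typeA_char (Q : F → F) (B : F →+ F →+ F) (hB : ∀ x y, Q (x + y) = Q x + Q y + B x y)
    (hB0 : ∃ x y, B x y ≠ 0) {χ₁ χ₂ : K ≃* Fˣ} (hQ : ∀ k x, Q (χ₁ k * x) = χ₂ k * Q x) :
    ∃ σ θ : F ≃+* F, θ ≠ 1 ∧ Odd (orderOf θ) ∧ ∀ k, (χ₂ k : F) = σ (χ₁ k * θ (χ₁ k)) := by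
  obtain ⟨c, hc, hc'⟩ := biadd_equiv B (a := fun k => χ₁ k) (b := fun k => χ₁ k)
    (e := fun k => χ₂ k) (fun k x y => by
      have := hB (χ₁ k * x) (χ₁ k * y)
      rw [← mul_add, hQ, hQ, hQ, hB] at this
      linear_combination -this)
  obtain ⟨p, hp⟩ : ∃ p, c p ≠ 0 := by
    by_contra h
    push Not at h
    obtain ⟨x, y, hxy⟩ := hB0
    exact hxy (by simp [hc, h])
  have h1 : ∀ k, (χ₂ k : F) = p.1 (χ₁ k * (p.1⁻¹ * p.2) (χ₁ k)) := fun k => by
    rw [map_mul, ← RingAut.mul_apply, mul_inv_cancel_left, hc' p hp]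
  refine ⟨p.1, p.1⁻¹ * p.2, fun e => ?_, odd_of_inj fun u hu => ?_, h1⟩
  · have h2 : ∀ x, Q x = p.1 (x * x) * Q 1 := fun x => by
      by_cases hx : x = 0
      · have := hB 0 0
        simp only [add_zero, map_zero, CharTwo.add_self_eq_zero] at this
        simp [hx, this]
      obtain ⟨k, rfl⟩ := exists_chi χ₁ one_ne_zero hx
      rw [hQ, h1, e, mul_one]; rfl
    obtain ⟨x, y, hxy⟩ := hB0
    have h3 := hB x y
    rw [h2, h2 x, h2 y, CharTwo.add_mul_self, map_add] at h3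
    exact hxy (by linear_combination -h3)
  · obtain ⟨k, hk⟩ := exists_chi χ₁ one_ne_zero (y := u) (by rintro rfl; simp at hu)
    rw [mul_one] at hk
    have h2 := h1 k
    rw [hk, hu, map_one] at h2
    have h3 : k = 1 := χ₂.injective (Units.ext (by simpa using h2))
    rw [← hk, h3]; simp

theorem eta_zero (Q : F → F) (B : F →+ F →+ F) (hB : ∀ x y, Q (x + y) = Q x + Q y + B x y)
    (hB0 : ∃ x y, B x y ≠ 0) {χ₁ χ₂ : K ≃* Fˣ} [Nontrivial K]
    (hQ : ∀ k x, Q (χ₁ k * x) = χ₂ k * Q x) (hQ1 : Q 1 ≠ 0)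
    (η : F →+ F →+ F) (hη : ∀ k c v, η (χ₁ k * c) (χ₂ k * v) = χ₂ k * η c v)
    (h0 : η 1 (Q 1) = 0) (x y : F) : η x y = 0 := by
  obtain ⟨σ, θ, θ1, hodd, hχ⟩ := typeA_char Q B hB hB0 hQ
  obtain ⟨c, hc, hc'⟩ := biadd_equiv η hη
  let φ : F ≃+* F := frobeniusEquiv F 2
  have hφ : ∀ x, φ x = x * x := fun x => by simp [φ, frobenius_def, sq]
  have φ1 : φ ≠ 1 := fun e => by
    obtain ⟨k, hk⟩ := exists_ne (1 : K)
    have := hφ (χ₁ k)
    rw [e] at this
    exact hk (χ₁.injective (Units.ext (by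
      simpa using mul_right_cancel₀ (Units.ne_zero (χ₁ k)) (this.symm.trans (one_mul _).symm))))
  letI : CommGroup (F ≃+* F) := { (inferInstance : Group (F ≃+* F)) with mul_comm := aut_comm }
  have key : ∀ p, c p ≠ 0 → (φ = θ ^ 2 ∧ p = (θ⁻¹ * σ, θ⁻¹)) ∨
      (φ⁻¹ = θ ^ 2 ∧ p = (θ ^ 2 * σ, θ)) := by
    rintro ⟨α, γ⟩ hp
    have h1 : ∀ x, α x * (γ * σ) x * (γ * σ * θ) x = σ x * (σ * θ) x := fun x => by
      by_cases hx : x = 0
      · simp [hx]
      obtain ⟨k, hk⟩ := exists_chi χ₁ one_ne_zero hx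
      have := hc' _ hp k
      rw [mul_one] at hk
      rw [hχ, hk] at this
      simpa [mul_assoc] using this
    rcases aut_prod3 h1 with e | e | e
    · rcases aut_prod2 (σ := φ * (γ * σ)) (τ := γ * σ * θ) (σ' := σ) (τ' := σ * θ)
        (fun x => by rw [← h1, e, RingAut.mul_apply, hφ]) with ⟨e1, e2⟩ | ⟨e1, e2⟩
      · rw [mul_right_cancel e2] at e1
        exact absurd (mul_eq_right.1 e1) φ1
      · have e3 : γ = θ⁻¹ := by
          rw [mul_right_comm, mul_eq_right] at e2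
          exact eq_inv_of_mul_eq_one_left e2
        subst e3
        refine Or.inl ⟨?_, by rw [e]⟩
        rw [← mul_assoc, mul_comm σ θ, mul_left_inj, mul_inv_eq_iff_eq_mul] at e1
        rw [e1, sq]
    · rcases aut_prod2 (σ := γ * σ) (τ := φ * (γ * σ * θ)) (σ' := σ) (τ' := σ * θ)
        (fun x => by rw [← h1, e, RingAut.mul_apply φ, hφ]; ring) with ⟨e1, e2⟩ | ⟨e1, e2⟩
      · rw [e1] at e2
        exact absurd (mul_eq_right.1 e2) φ1
      · have e3 : γ = θ := by rw [mul_comm σ θ] at e1; exact mul_right_cancel e1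
        subst e3
        refine Or.inr ⟨?_, by rw [e, mul_right_comm, sq]⟩
        rw [mul_right_comm, ← mul_assoc, mul_eq_right] at e2
        rw [inv_eq_of_mul_eq_one_right e2, sq]
    · exact absurd (left_eq_mul.1 e) θ1
  have huniq : ∀ p p', c p ≠ 0 → c p' ≠ 0 → p = p' := fun p p' hp hp' => by
    have aux : φ = θ ^ 2 → φ⁻¹ = θ ^ 2 → False := fun a b => by
      have h4 : θ ^ 2 ^ 2 = 1 := by
        rw [show 2 ^ 2 = 2 + 2 by norm_num, pow_add]
        nth_rewrite 1 [← a]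
        rw [← b, mul_inv_cancel]
      exact θ1 (orderOf_eq_one_iff.1 (Nat.eq_one_of_dvd_coprimes
        ((Nat.coprime_two_right.2 hodd).pow_right 2) dvd_rfl (orderOf_dvd_of_pow_eq_one h4)))
    rcases key p hp with ⟨a, rfl⟩ | ⟨a, rfl⟩ <;> rcases key p' hp' with ⟨b, rfl⟩ | ⟨b, rfl⟩
    · rfl
    · exact (aux a b).elim
    · exact (aux b a).elim
    · rfl
  have hz : ∀ p, c p = 0 := fun p => by
    by_contra hp
    rw [hc, sum_eq_single p (fun p' _ hne => by
      rw [not_ne_iff.1 fun hp' => hne (huniq _ _ hp' hp), zero_mul]) (by simp)] at h0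
    simp [hp, hQ1] at h0
  simp [hc, hz]

end H8
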