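import Mathlib
import Cfsg.Agent.H8.SzAlg
import Cfsg.Agent.H1.Action2

set_option autoImplicit false

namespace H8
open Subgroup
open scoped commutatorElement

section
variable {F : Type*} [Field F] [Fintype F] [CharP F 2] {K : Type*} [Group K]

theorem coord_abs {W : Type*} [AddCommGroup W] [Finite W] [Nontrivial W] [Finite K]
    (hK : ∀ a b : K, a * b = b * a) (ρ : K →* AddMonoid.End W)
    (irr : ∀ U : AddSubgroup W, (∀ k, ∀ u ∈ U, ρ k u ∈ U) → U = ⊥ ∨ U = ⊤)
    (fpf : ∀ k, k ≠ 1 → ∀ w, ρ k w = w → w = 0) (h2 : ∀ w : W, w + w = 0)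
    (hF : Fintype.card F = Nat.card K + 1) :
    ∃ (e : W ≃+ F) (χ : K ≃* Fˣ), ∀ k w, e (ρ k w) = χ k * e w := by
  classical
  let R := Subring.closure (Set.range ρ)
  letI : CommRing R := Subring.closureCommRingOfComm (by
    rintro _ ⟨a, rfl⟩ _ ⟨b, rfl⟩; rw [← map_mul, hK, map_mul])
  let r : K → R := fun k => ⟨ρ k, Subring.subset_closure ⟨k, rfl⟩⟩
  have hc : ∀ (a b : R) (w : W), a.1 (b.1 w) = b.1 (a.1 w) := fun a b w =>
    DFunLike.congr_fun (congrArg Subtype.val (mul_comm a b)) w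
  have hker : ∀ (a : R) (w : W), a.1 w = 0 → a = 0 ∨ w = 0 := fun a w h => by
    rcases irr (AddMonoidHom.ker a.1) (fun k u hu => by
      change a.1 ((r k).1 u) = 0
      rw [hc, show a.1 u = 0 from hu, map_zero]) with e | e
    · exact Or.inr (e.le h)
    · exact Or.inl (Subtype.ext (AddMonoidHom.ext fun w => e.ge (AddSubgroup.mem_top w)))
  obtain ⟨v, hv⟩ := exists_ne (0 : W)
  let ev : R →+ W := AddMonoidHom.mk' (fun a => a.1 v) fun _ _ => rfl
  have hev : Function.Bijective ev := by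
    refine ⟨(injective_iff_map_eq_zero _).2 fun a h => (hker a v h).resolve_right hv, ?_⟩
    rcases irr ev.range (by rintro k _ ⟨a, rfl⟩; exact ⟨r k * a, rfl⟩) with e | e
    · exact absurd (e.le ⟨1, rfl⟩) hv
    · exact AddMonoidHom.range_eq_top.1 e
  haveI : Finite R := Finite.of_injective _ hev.1
  haveI : Nontrivial R := hev.2.nontrivial
  haveI : NoZeroDivisors R := ⟨fun {a b} h => (hker a (b.1 v)
    (DFunLike.congr_fun (congrArg Subtype.val h) v)).imp_right fun h =>
      (hker b v h).resolve_right hv⟩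
  haveI : IsDomain R := NoZeroDivisors.to_isDomain R
  letI : Field R := (Finite.isField_of_domain R).toField
  haveI : CharP R 2 := CharTwo.of_one_ne_zero_of_two_eq_zero one_ne_zero (hev.1 (by
    rw [← one_add_one_eq_two, map_add, h2, map_zero]))
  let r' : K →* R := ⟨⟨r, Subtype.ext (map_one ρ)⟩, fun a b => Subtype.ext (map_mul ρ a b)⟩
  have hr : Function.Injective r'.toHomUnits := (injective_iff_map_eq_one _).2 fun k hk => by
    by_contra k1
    exact hv (fpf k k1 v (DFunLike.congr_fun (congrArg Subtype.val (congrArg Units.val hk)) v))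
  obtain ⟨n, -, hn⟩ := FiniteField.card F 2
  have h1 : Nat.card R ≤ 2 ^ (n : ℕ) := H1.card_le_of_forall_pow_eq
    (Nat.one_lt_pow n.ne_zero one_lt_two) fun x => by
      let T : Subring R := RingHom.eqLocus (iterateFrobenius R 2 n) (RingHom.id R)
      have : R ≤ T.map R.subtype := Subring.closure_le.2 (by
        rintro _ ⟨k, rfl⟩
        refine ⟨r' k, ?_, rfl⟩
        change r' k ^ 2 ^ (n : ℕ) = r' k
        rw [← map_pow, ← hn, hF, pow_succ, pow_card_eq_one', one_mul])
      obtain ⟨y, hy, e⟩ := this x.2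
      rw [← show y = x from Subtype.ext e]
      exact hy
  have h3 := Nat.card_le_card_of_injective _ hr
  rw [Nat.card_units] at h3
  haveI := Fintype.ofFinite R
  have h0 : 0 < Nat.card R := Nat.card_pos
  have h4 : Nat.card R = Nat.card K + 1 := by omega
  let i : R ≃+* F := FiniteField.ringEquivOfCardEq (by rw [Fintype.card_eq_nat_card, h4, hF])
  let χ := MulEquiv.ofBijective r'.toHomUnits ((Nat.bijective_iff_injective_and_card _).2
    ⟨hr, by rw [Nat.card_units]; omega⟩)
  refine ⟨(AddEquiv.ofBijective ev hev).symm.trans i.toAddEquiv,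
    χ.trans (Units.mapEquiv i.toMulEquiv), fun k w => ?_⟩
  obtain ⟨a, rfl⟩ := (AddEquiv.ofBijective ev hev).surjective w
  rw [show ρ k (AddEquiv.ofBijective ev hev a) = AddEquiv.ofBijective ev hev (r k * a) from rfl]
  simp only [AddEquiv.trans_apply, AddEquiv.symm_apply_apply]
  exact map_mul i _ _

end

variable (K : Type*) {P : Type*} [Group K] [Group P] [MulDistribMulAction K P]

/-- `K`-invariant subgroup. -/
def Iv (X : Subgroup P) : Prop := ∀ k : K, ∀ x ∈ X, k • x ∈ X

variable {K}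

/-- Field coordinate on the section `X / Y`. -/
structure Coord {F : Type*} [Field F] (X Y : Subgroup P) (π : P → F) (χ : K ≃* Fˣ) : Prop where
  add : ∀ x ∈ X, ∀ y ∈ X, π (x * y) = π x + π y
  zero : ∀ x ∈ X, π x = 0 ↔ x ∈ Y
  surj : ∀ a, ∃ x ∈ X, π x = a
  eqv : ∀ k, ∀ x ∈ X, π (k • x) = χ k * π x

theorem Iv.sup {X Y : Subgroup P} (hX : Iv K X) (hY : Iv K Y) : Iv K (X ⊔ Y) := fun k x hx => by
  have : X ⊔ Y ≤ (X ⊔ Y).comap (MulDistribMulAction.toMonoidHom P k) :=
    sup_le (fun y hy => mem_sup_left (hX k y hy)) fun y hy => mem_sup_right (hY k y hy)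
  exact this hx

theorem Iv.inf {X Y : Subgroup P} (hX : Iv K X) (hY : Iv K Y) : Iv K (X ⊓ Y) := fun k x hx =>
  ⟨hX k x hx.1, hY k x hx.2⟩

theorem iv_closure {S : Set P} (h : ∀ k : K, ∀ x ∈ S, k • x ∈ S) : Iv K (closure S) := fun k x hx => by
  have : closure S ≤ (closure S).comap (MulDistribMulAction.toMonoidHom P k) :=
    (closure_le _).2 fun y hy => subset_closure (h k y hy)
  exact this hx

theorem smul_comm_el (k : K) (x y : P) : k • ⁅x, y⁆ = ⁅k • x, k • y⁆ :=
  map_commutatorElement (MulDistribMulAction.toMonoidHom P k) x y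

theorem Iv.comm {X Y : Subgroup P} (hX : Iv K X) (hY : Iv K Y) : Iv K ⁅X, Y⁆ := by
  rw [Subgroup.commutator_def]
  refine iv_closure ?_
  rintro k _ ⟨x, hx, y, hy, rfl⟩
  exact ⟨_, hX k x hx, _, hY k y hy, (smul_comm_el k x y).symm⟩

theorem iv_bot : Iv K (⊥ : Subgroup P) := fun k x hx => by
  rw [mem_bot] at hx ⊢; rw [hx, smul_one]

theorem iv_top : Iv K (⊤ : Subgroup P) := fun _ _ _ => trivial

theorem Iv.cen {X : Subgroup P} (hX : Iv K X) : Iv K (centralizer (X : Set P)) := fun k x hx y hy => by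
  have := congrArg (k • ·) (hx _ (hX k⁻¹ y hy))
  simpa using this

variable (K P) in
/-- A 2-group with a cyclic group acting regularly on the involutions. -/
structure Sz : Prop where
  two : IsPGroup 2 P
  comm : ∀ a b : K, a * b = b * a
  fpf : ∀ k : K, k ≠ 1 → ∀ x : P, k • x = x → x = 1
  tr : ∀ x y : P, x ≠ 1 → x * x = 1 → y ≠ 1 → y * y = 1 → ∃ k : K, k • x = y
  nt : Nontrivial K
  ntP : Nontrivial P

namespace Sz
variable [Finite P] (h : Sz K P)
include h

theorem exists_invol {X : Subgroup P} (hX : X ≠ ⊥) : ∃ x ∈ X, x ≠ 1 ∧ x * x = 1 := by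
  obtain ⟨x, hx, x1⟩ := (bot_or_exists_ne_one X).resolve_left hX
  obtain ⟨k, hk⟩ := IsPGroup.iff_orderOf.1 h.two x
  rcases k with _ | k
  · exact absurd (orderOf_eq_one_iff.1 hk) x1
  refine ⟨x ^ 2 ^ k, pow_mem hx _, fun e => ?_, by
    rw [← pow_add, ← mul_two, ← pow_succ, ← hk, pow_orderOf_eq_one]⟩
  have := Nat.le_of_dvd (by positivity) (orderOf_dvd_of_pow_eq_one e)
  rw [hk] at this
  exact absurd this (Nat.pow_lt_pow_right one_lt_two (Nat.lt_succ_self k)).not_ge

theorem invol_mem {X : Subgroup P} (hi : Iv K X) (hX : X ≠ ⊥) {z : P} (hz : z * z = 1) : z ∈ X := by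
  by_cases z1 : z = 1
  · rw [z1]; exact one_mem _
  obtain ⟨x, hx, x1, x2⟩ := h.exists_invol hX
  obtain ⟨k, rfl⟩ := h.tr x z x1 x2 z1 hz
  exact hi k x hx

theorem invol_cen {z : P} (hz : z * z = 1) (y : P) : y * z = z * y := by
  haveI := h.ntP
  haveI := h.two.center_nontrivial
  refine mem_center_iff.1 (h.invol_mem (fun k x hx => mem_center_iff.2 fun y => ?_)
    ((nontrivial_iff_ne_bot _).1 inferInstance) hz) y
  simpa using congrArg (k • ·) (mem_center_iff.1 hx (k⁻¹ • y))

/-- The subgroup of elements of order at most two. -/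
def Z : Subgroup P where
  carrier := {z | z * z = 1}
  one_mem' := mul_one 1
  mul_mem' := fun {a b} ha hb => by
    change a * b * (a * b) = 1
    rw [mul_assoc, ← mul_assoc b, h.invol_cen ha b, mul_assoc, hb, mul_one, ha]
  inv_mem' := fun {a} ha => by
    change a⁻¹ * a⁻¹ = 1
    rw [← mul_inv_rev, ha, inv_one]

theorem mem_Z {z : P} : z ∈ h.Z ↔ z * z = 1 := Iff.rfl

theorem iv_Z : Iv K h.Z := fun k x hx => by rw [mem_Z, ← smul_mul', hx, smul_one]

theorem Z_le {X : Subgroup P} (hi : Iv K X) (hX : X ≠ ⊥) : h.Z ≤ X := fun _ hz =>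
  h.invol_mem hi hX hz

theorem Z_ne_bot : h.Z ≠ ⊥ := fun e => by
  haveI := h.ntP
  obtain ⟨x, -, x1, x2⟩ := h.exists_invol (X := ⊤) top_ne_bot
  exact x1 (e.le x2)

theorem finK : Finite K := by
  haveI := h.ntP
  obtain ⟨x, x1⟩ := exists_ne (1 : P)
  refine Finite.of_injective (fun k : K => k • x) fun a b e => ?_
  by_contra hab
  exact x1 (h.fpf (b⁻¹ * a) (fun e => hab (inv_mul_eq_one.1 e).symm) x
    (by rw [mul_smul, show a • x = b • x from e, inv_smul_smul]))

theorem card_Z : Nat.card h.Z = Nat.card K + 1 := by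
  obtain ⟨x, -, x1, x2⟩ := h.exists_invol h.Z_ne_bot
  have hi : Function.Injective fun k : K => k • x := fun a b e => by
    by_contra hab
    exact x1 (h.fpf (b⁻¹ * a) (fun e => hab (inv_mul_eq_one.1 e).symm) x
      (by rw [mul_smul, show a • x = b • x from e, inv_smul_smul]))
  have e : (h.Z : Set P) = insert 1 (Set.range fun k : K => k • x) := by
    ext z
    refine ⟨fun hz => or_iff_not_imp_left.2 fun z1 => h.tr x z x1 x2 z1 hz, ?_⟩
    rintro (rfl | ⟨k, rfl⟩)
    · exact one_mem _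
    · exact h.iv_Z k x x2
  change Nat.card (h.Z : Set P) = _
  rw [Nat.card_coe_set_eq, e, Set.ncard_insert_of_notMem (by
    rintro ⟨k, hk⟩
    exact x1 ((smul_eq_iff_eq_inv_smul k).1 hk |>.trans (smul_one _))),
    Set.ncard_range_of_injective hi]

theorem fpf_sec {Y : Subgroup P} (hY : Iv K Y) {k : K} (hk : k ≠ 1) {x : P}
    (hx : x⁻¹ * k • x ∈ Y) : x ∈ Y := by
  let f : Y → Y := fun y => ⟨(y : P)⁻¹ * k • (y : P), mul_mem (inv_mem y.2) (hY k y y.2)⟩
  have aux : ∀ a b : P, a⁻¹ * k • a = b⁻¹ * k • b → a = b := fun a b e => by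
    refine mul_inv_eq_one.1 (h.fpf k hk _ ?_)
    rw [inv_mul_eq_iff_eq_mul] at e
    rw [smul_mul', smul_inv', e]; group
  obtain ⟨y, hy⟩ := Finite.surjective_of_injective (f := f)
    (fun a b e => Subtype.ext (aux _ _ (congrArg Subtype.val e))) ⟨_, hx⟩
  exact aux _ _ (congrArg Subtype.val hy) ▸ y.2

theorem coord {F : Type*} [Field F] [Fintype F] [CharP F 2] (hF : Fintype.card F = Nat.card K + 1)
    {X Y : Subgroup P} (hX : Iv K X) (hY : Iv K Y) (hYX : Y < X)
    (hc : ∀ x ∈ X, ∀ y ∈ X, ⁅x, y⁆ ∈ Y) (hs : ∀ x ∈ X, x * x ∈ Y)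
    (hm : ∀ U, Iv K U → Y ≤ U → U ≤ X → U = Y ∨ U = X) :
    ∃ (π : P → F) (χ : K ≃* Fˣ), Coord X Y π χ := by
  classical
  haveI := h.finK
  let N := Y.subgroupOf X
  haveI : N.Normal := ⟨fun n hn g => by
    have := mul_mem (hc g g.2 n n.2) (show (n : P) ∈ Y from hn)
    rw [commutatorElement_def, inv_mul_cancel_right] at this
    exact this⟩
  letI : CommGroup (X ⧸ N) := { (inferInstance : Group (X ⧸ N)) with
    mul_comm := fun a b => by
      obtain ⟨a, rfl⟩ := QuotientGroup.mk_surjective a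
      obtain ⟨b, rfl⟩ := QuotientGroup.mk_surjective b
      rw [← commutatorElement_eq_one_iff_mul_comm]
      exact (QuotientGroup.eq_one_iff ⁅a, b⁆).2 (hc a a.2 b b.2) }
  let s : K → X →* X := fun k =>
    ((MulDistribMulAction.toMonoidHom P k).comp X.subtype).codRestrict X fun x => hX k x x.2
  let t : K → X ⧸ N →* X ⧸ N := fun k => QuotientGroup.map N N (s k) fun x hx => hY k x hx
  let ρ : K →* AddMonoid.End (Additive (X ⧸ N)) :=
    { toFun := fun k => (t k).toAdditive
      map_one' := AddMonoidHom.ext fun w => by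
        obtain ⟨x, hx⟩ := QuotientGroup.mk_surjective w.toMul
        change t 1 w.toMul = w.toMul
        rw [← hx]
        exact congrArg QuotientGroup.mk (Subtype.ext (one_smul K (x : P)))
      map_mul' := fun a b => AddMonoidHom.ext fun w => by
        obtain ⟨x, hx⟩ := QuotientGroup.mk_surjective w.toMul
        change t (a * b) w.toMul = t a (t b w.toMul)
        rw [← hx]
        exact congrArg QuotientGroup.mk (Subtype.ext (mul_smul a b (x : P))) }
  haveI : Nontrivial (X ⧸ N) := QuotientGroup.nontrivial_iff.2 fun e =>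
    hYX.not_ge (subgroupOf_eq_top.1 e)
  obtain ⟨e, χ, he⟩ := coord_abs (F := F) h.comm ρ (fun U hU => by
      let U' := (U.toSubgroup'.comap (QuotientGroup.mk' N)).map X.subtype
      rcases hm U' (by rintro k _ ⟨x, hx, rfl⟩; exact ⟨s k x, hU k _ hx, rfl⟩)
        (fun y hy => ⟨⟨y, hYX.le hy⟩, by
          change (QuotientGroup.mk' N _) ∈ U.toSubgroup'
          rw [QuotientGroup.mk'_apply, (QuotientGroup.eq_one_iff _).2 (by exact hy)]
          exact one_mem _, rfl⟩) (map_subtype_le _) with e | e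
      · refine Or.inl (eq_bot_iff.2 fun w hw => ?_)
        obtain ⟨x, hx⟩ := QuotientGroup.mk_surjective w.toMul
        exact hx.symm.trans ((QuotientGroup.eq_one_iff x).2 (e.le ⟨x, by
          change (QuotientGroup.mk' N _) ∈ U.toSubgroup'
          rw [QuotientGroup.mk'_apply, hx]; exact hw, rfl⟩))
      · refine Or.inr (eq_top_iff.2 fun w _ => ?_)
        obtain ⟨x, hx⟩ := QuotientGroup.mk_surjective w.toMul
        obtain ⟨y, hy, e'⟩ := e.ge x.2
        rw [show y = x from Subtype.ext e'] at hy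
        change w.toMul ∈ U.toSubgroup'
        rw [← hx]; exact hy)
    (fun k hk w hw => by
      obtain ⟨x, hx⟩ := QuotientGroup.mk_surjective w.toMul
      have h1 : t k w.toMul = w.toMul := hw
      rw [← hx] at h1
      exact hx.symm.trans ((QuotientGroup.eq_one_iff x).2
        (h.fpf_sec hY hk (x := x) (show x⁻¹ * s k x ∈ N from QuotientGroup.eq.1 h1.symm))))
    (fun w => by
      obtain ⟨x, hx⟩ := QuotientGroup.mk_surjective w.toMul
      change w.toMul * w.toMul = 1
      rw [← hx]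
      exact (QuotientGroup.eq_one_iff (x * x)).2 (hs x x.2)) hF
  refine ⟨fun x => if hx : x ∈ X then e (Additive.ofMul (QuotientGroup.mk ⟨x, hx⟩)) else 0, χ,
    fun x hx y hy => ?_, fun x hx => ?_, fun a => ?_, fun k x hx => ?_⟩
  · rw [dif_pos hx, dif_pos hy, dif_pos (mul_mem hx hy), ← map_add]; rfl
  · rw [dif_pos hx, map_eq_zero_iff _ e.injective]
    exact QuotientGroup.eq_one_iff (⟨x, hx⟩ : X)
  · obtain ⟨x, hx⟩ := QuotientGroup.mk_surjective (e.symm a).toMul
    exact ⟨x, x.2, by rw [dif_pos x.2, hx]; simp⟩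
  · rw [dif_pos hx, dif_pos (hX k x hx), ← he]; rfl

end Sz
end H8
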