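import Mathlib
import Cfsg.Agent.H8.Sz1
import Cfsg.Agent.H1.Fitting
import Cfsg.Agent.H1.Misc

set_option autoImplicit false

namespace H8
open Subgroup
open scoped commutatorElement

open Finset in
theorem quad_isotropic {F W : Type*} [Field F] [Fintype F] [CharP F 2] [AddCommGroup W] [Finite W]
    (h2 : ∀ w : W, w + w = 0) (Q : W → F) (h0 : Q 0 = 0)
    (hQ : ∀ x y z, Q (x + y + z) + (Q x + Q y + Q z) = Q (x + y) + Q (y + z) + Q (x + z))
    (hc : Fintype.card F ^ 2 < Nat.card W) : ∃ w, w ≠ 0 ∧ Q w = 0 := by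
  classical
  letI := ZMod.algebra F 2
  letI : Module (ZMod 2) W := AddCommGroup.zmodModule (fun w => by rw [two_nsmul, h2])
  have hs : ∀ a : ZMod 2, a = 0 ∨ a = 1 := by decide
  let Q' : QuadraticMap (ZMod 2) W F := QuadraticMap.ofPolar Q
    (fun a x => by rcases hs a with rfl | rfl <;> simp [h0])
    (fun x x' y => by
      simp only [QuadraticMap.polar]
      linear_combination hQ x x' y)
    (fun a x y => by rcases hs a with rfl | rfl <;> simp [h0, QuadraticMap.polar])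
  obtain ⟨B, hB⟩ := LinearMap.BilinMap.toQuadraticMap_surjective Q'
  let bW := Module.finBasis (ZMod 2) W
  let bF := Module.finBasis (ZMod 2) F
  let f : Fin (Module.finrank (ZMod 2) F) → MvPolynomial (Fin (Module.finrank (ZMod 2) W)) (ZMod 2) :=
    fun i => ∑ j, ∑ k, MvPolynomial.C (bF.repr (B (bW j) (bW k)) i) *
      (MvPolynomial.X j * MvPolynomial.X k)
  have hd : ∀ i, (f i).totalDegree ≤ 2 := fun i => by
    refine MvPolynomial.totalDegree_finsetSum_le fun j _ =>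
      MvPolynomial.totalDegree_finsetSum_le fun k _ => ?_
    refine (MvPolynomial.totalDegree_mul _ _).trans ?_
    have := MvPolynomial.totalDegree_mul (MvPolynomial.X j : MvPolynomial _ (ZMod 2)) (MvPolynomial.X k)
    simp only [MvPolynomial.totalDegree_X, MvPolynomial.totalDegree_C] at this ⊢
    omega
  have hlt : ∑ i, (f i).totalDegree < Fintype.card (Fin (Module.finrank (ZMod 2) W)) := by
    refine (sum_le_card_nsmul _ _ 2 fun i _ => hd i).trans_lt ?_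
    rw [Module.natCard_eq_pow_finrank (K := ZMod 2), Module.card_eq_pow_finrank (K := ZMod 2),
      ← pow_mul, Nat.card_zmod, ZMod.card] at hc
    simpa using (Nat.pow_lt_pow_iff_right one_lt_two).1 hc
  have h3 := char_dvd_card_solutions_of_fintype_sum_lt 2 hlt
  have hev : ∀ x i, MvPolynomial.eval x (f i) = bF.repr (Q (bW.equivFun.symm x)) i := fun x i => by
    rw [show Q (bW.equivFun.symm x) = B (bW.equivFun.symm x) (bW.equivFun.symm x) from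
      (DFunLike.congr_fun hB _).symm]
    simp only [f, map_sum, map_mul, MvPolynomial.eval_C, MvPolynomial.eval_X,
      Module.Basis.equivFun_symm_apply, LinearMap.sum_apply, map_smul, LinearMap.smul_apply,
      Finsupp.coe_finsetSum, Finset.sum_apply, Finsupp.smul_apply, smul_eq_mul, mul_sum]
    rw [sum_comm]
    exact sum_congr rfl fun j _ => sum_congr rfl fun k _ => by ring
  by_contra hn
  push Not at hn
  have hz : ∀ i, MvPolynomial.eval 0 (f i) = 0 := by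
    intro i; rw [hev, map_zero, h0, map_zero]; rfl
  have h4 : ∀ x, (∀ i, MvPolynomial.eval x (f i) = 0) → x = 0 := fun x hx => by
    by_contra h
    refine hn (bW.equivFun.symm x) (by rwa [Ne, map_eq_zero_iff _ bW.equivFun.symm.injective])
      (bF.repr.injective ?_)
    ext i
    rw [← hev, hx i]; simp
  rw [Fintype.card_eq_nat_card, Nat.card_eq_one_iff_exists.2
    ⟨⟨0, hz⟩, fun x => Subtype.ext (h4 _ x.2)⟩] at h3
  omega

section comm
variable {P : Type*} [Group P]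

theorem cm_mul_left (x y a : P) : ⁅x * y, a⁆ = ⁅x, ⁅y, a⁆⁆ * ⁅y, a⁆ * ⁅x, a⁆ := by
  simp only [commutatorElement_def]; group

theorem cm_mul_right (x a b : P) : ⁅x, a * b⁆ = ⁅x, a⁆ * (a * ⁅x, b⁆ * a⁻¹) := by
  simp only [commutatorElement_def]; group

theorem sq_mul' (x y : P) : x * y * (x * y) = x * x * ⁅x⁻¹, y⁆ * (y * y) := by
  simp only [commutatorElement_def]; group

theorem cm_mem_sq (x y : P) : ⁅x, y⁆ ∈ closure (Set.range fun z : P => z * z) := by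
  have : ⁅x, y⁆ = (x⁻¹ * x⁻¹)⁻¹ * (x⁻¹ * y * (x⁻¹ * y)) * (y * y)⁻¹ := by
    simp only [commutatorElement_def]; group
  rw [this]
  exact mul_mem (mul_mem (inv_mem (subset_closure ⟨_, rfl⟩)) (subset_closure ⟨_, rfl⟩))
    (inv_mem (subset_closure ⟨_, rfl⟩))

theorem normal_of_cm {N : Subgroup P} (h : ∀ x y : P, ⁅x, y⁆ ∈ N) : N.Normal := ⟨fun n hn g => by
  have := mul_mem (h g n) hn
  rwa [commutatorElement_def, inv_mul_cancel_right] at this⟩

end comm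

variable {K P : Type*} [Group K] [Group P] [MulDistribMulAction K P]
  {F : Type*} [Field F]

namespace Coord
variable {X Y X' Y' : Subgroup P} {π π' : P → F} {χ χ' : K ≃* Fˣ}

theorem one (c : Coord X Y π χ) : π 1 = 0 := by simpa using c.add 1 (one_mem _) 1 (one_mem _)

theorem inv (c : Coord X Y π χ) {x : P} (hx : x ∈ X) : π x⁻¹ = -π x := by
  have := c.add x hx _ (inv_mem hx)
  rw [mul_inv_cancel, c.one] at this
  exact (neg_eq_of_add_eq_zero_right this.symm).symm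

theorem eq_iff (c : Coord X Y π χ) {x y : P} (hx : x ∈ X) (hy : y ∈ X) :
    π x = π y ↔ x⁻¹ * y ∈ Y := by
  rw [← c.zero _ (mul_mem (inv_mem hx) hy), c.add _ (inv_mem hx) _ hy, c.inv hx, neg_add_eq_zero]

theorem desc (c : Coord X Y π χ) {M : Type*} [AddCommGroup M] (g : P → M)
    (hg : ∀ x ∈ X, ∀ y ∈ X, g (x * y) = g x + g y) (h0 : ∀ x ∈ X, x ∈ Y → g x = 0) :
    ∃ s : F →+ M, ∀ x ∈ X, s (π x) = g x := by
  choose r hr hr' using c.surj
  have key : ∀ x ∈ X, g (r (π x)) = g x := fun x hx => by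
    have h1 := mul_mem (inv_mem (hr (π x))) hx
    have := hg _ (hr (π x)) _ h1
    rw [mul_inv_cancel_left, h0 _ h1 ((c.eq_iff (hr _) hx).1 (hr' _)), add_zero] at this
    exact this.symm
  exact ⟨AddMonoidHom.mk' (fun a => g (r a)) fun a b => by
    rw [← hg _ (hr a) _ (hr b), ← key _ (mul_mem (hr a) (hr b)), c.add _ (hr a) _ (hr b), hr', hr'],
    key⟩

theorem desc2 (c : Coord X Y π χ) (c' : Coord X' Y' π' χ') (f : P → P → F)
    (h1 : ∀ x ∈ X, ∀ y ∈ X, ∀ z ∈ X', f (x * y) z = f x z + f y z)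
    (h2 : ∀ x ∈ X, ∀ y ∈ X', ∀ z ∈ X', f x (y * z) = f x y + f x z)
    (h3 : ∀ x ∈ X, x ∈ Y → ∀ z ∈ X', f x z = 0) (h4 : ∀ x ∈ X, ∀ z ∈ X', z ∈ Y' → f x z = 0)
    {e : K → F} (hX : Iv K X) (hX' : Iv K X')
    (h5 : ∀ k : K, ∀ x ∈ X, ∀ z ∈ X', f (k • x) (k • z) = e k * f x z) :
    ∃ B : F →+ F →+ F, (∀ x ∈ X, ∀ z ∈ X', B (π x) (π' z) = f x z) ∧
      ∀ k a b, B (χ k * a) (χ' k * b) = e k * B a b := by
  classical
  choose s hs using fun x : X => c'.desc (f x) (h2 x x.2) (h4 x x.2)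
  have ext : ∀ {u v : F →+ F}, (∀ z ∈ X', u (π' z) = v (π' z)) → u = v := fun h =>
    AddMonoidHom.ext fun b => by obtain ⟨z, hz, rfl⟩ := c'.surj b; exact h z hz
  obtain ⟨B, hB⟩ := c.desc (fun x => if hx : x ∈ X then s ⟨x, hx⟩ else 0)
    (fun x hx y hy => ext fun z hz => by
      simp only [dif_pos hx, dif_pos hy, dif_pos (mul_mem hx hy), AddMonoidHom.add_apply, hs _ _ hz,
        h1 x hx y hy z hz])
    (fun x hx hy => ext fun z hz => by
      simp only [dif_pos hx, hs _ _ hz, h3 x hx hy z hz, AddMonoidHom.zero_apply])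
  have hB' : ∀ x ∈ X, ∀ z ∈ X', B (π x) (π' z) = f x z := fun x hx z hz => by
    rw [hB x hx, dif_pos hx, hs _ _ hz]
  refine ⟨B, hB', fun k a b => ?_⟩
  obtain ⟨x, hx, rfl⟩ := c.surj a
  obtain ⟨z, hz, rfl⟩ := c'.surj b
  rw [← c.eqv k x hx, ← c'.eqv k z hz, hB' _ (hX k x hx) _ (hX' k z hz), h5 k x hx z hz,
    hB' x hx z hz]

theorem card [Finite P] (c : Coord X Y π χ) (hYX : Y ≤ X) :
    Nat.card X = Nat.card F * Nat.card Y := by
  let f : X →* Multiplicative F := MonoidHom.mk' (fun x => Multiplicative.ofAdd (π x))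
    fun x y => congrArg Multiplicative.ofAdd (c.add x x.2 y y.2)
  have h1 : f.ker = Y.subgroupOf X := by ext x; exact c.zero x x.2
  have h2 : f.range = ⊤ := MonoidHom.range_eq_top.2 fun a => by
    obtain ⟨x, hx, e⟩ := c.surj a.toAdd
    exact ⟨⟨x, hx⟩, congrArg Multiplicative.ofAdd e⟩
  rw [← f.ker.index_mul_card, index_ker, h2, h1, card_top,
    Nat.card_congr (subgroupOfEquivOfLe hYX).toEquiv]
  rfl

end Coord

/-- `Ω`-series of an abelian subgroup. -/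
def Om2 (A : Subgroup P) (hA : ∀ a ∈ A, ∀ b ∈ A, a * b = b * a) (j : ℕ) : Subgroup P where
  carrier := {a | a ∈ A ∧ a ^ 2 ^ j = 1}
  one_mem' := ⟨one_mem _, one_pow _⟩
  mul_mem' := fun {a b} ha hb => ⟨mul_mem ha.1 hb.1, by
    rw [Commute.mul_pow (hA a ha.1 b hb.1), ha.2, hb.2, mul_one]⟩
  inv_mem' := fun {a} ha => ⟨inv_mem ha.1, by rw [inv_pow, ha.2, inv_one]⟩

namespace Sz
variable [Finite P] (h : Sz K P)
include h

theorem le_of_cen {M Y : Subgroup P} (hM : Iv K M) (hY : Iv K Y) (h4 : ∀ x ∈ M, x * x ∈ h.Z)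
    {c : P} (hc : c ∈ M) (hcY : c ∈ Y) (hcc : ∀ x ∈ M, x * c = c * x) (h2 : c ∉ h.Z) : M ≤ Y := by
  have hZ : h.Z ≤ Y := h.Z_le hY fun e => h2 (by rw [e, mem_bot] at hcY; rw [hcY]; exact one_mem _)
  intro x hx
  by_cases hx2 : x * x = 1
  · exact hZ hx2
  obtain ⟨k, hk⟩ := h.tr _ _ h2 (h4 c hc) hx2 (h4 x hx)
  have h5 : x * k • c = k • c * x := by simpa using congrArg (k • ·) (hcc _ (hM k⁻¹ x hx))
  have h6 : x * (k • c)⁻¹ ∈ h.Z := by
    rw [mem_Z, ← sq, Commute.mul_pow (Commute.inv_right h5), inv_pow, sq, sq, ← smul_mul', hk,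
      mul_inv_cancel]
  simpa using mul_mem (hZ h6) (hY k c hcY)

theorem root {A : Subgroup P} (hA : ∀ a ∈ A, ∀ b ∈ A, a * b = b * a) (hi : Iv K A) {e : ℕ}
    (he : ∃ a ∈ A, a ^ 2 ^ e ≠ 1) (j : ℕ) : j ≤ e → ∀ a ∈ A, a ^ 2 ^ j = 1 → ∃ b ∈ A, a = b * b := by
  let T : Subgroup P :=
    { carrier := {x | ∃ b ∈ A, b ^ 2 ^ e = x}
      one_mem' := ⟨1, one_mem _, one_pow _⟩
      mul_mem' := by
        rintro _ _ ⟨a, ha, rfl⟩ ⟨b, hb, rfl⟩
        exact ⟨_, mul_mem ha hb, Commute.mul_pow (hA a ha b hb) _⟩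
      inv_mem' := by rintro _ ⟨a, ha, rfl⟩; exact ⟨_, inv_mem ha, inv_pow _ _⟩ }
  have hT : h.Z ≤ T := h.Z_le (by rintro k _ ⟨a, ha, rfl⟩; exact ⟨_, hi k a ha, (smul_pow' _ _ _).symm⟩)
    fun e => by obtain ⟨a, ha, h1⟩ := he; exact h1 (e.le ⟨a, ha, rfl⟩)
  induction j with
  | zero => exact fun _ a _ h1 => ⟨1, one_mem _, by simpa using h1⟩
  | succ j ih =>
    intro hj a ha h1
    obtain ⟨b, hb, h2⟩ := hT (x := a ^ 2 ^ j) (by rw [mem_Z, ← pow_add, ← mul_two, ← pow_succ, h1])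
    obtain ⟨i, rfl⟩ := Nat.exists_eq_add_of_le' hj
    have hb' := pow_mem hb (2 ^ i)
    obtain ⟨c, hc, h3⟩ := ih (by omega) (a * (b ^ 2 ^ i * b ^ 2 ^ i)⁻¹)
      (mul_mem ha (inv_mem (mul_mem hb' hb'))) (by
        rw [Commute.mul_pow (hA _ ha _ (inv_mem (mul_mem hb' hb'))), ← h2, inv_pow, ← pow_add,
          ← pow_mul, mul_inv_eq_one]
        congr 1; ring)
    refine ⟨c * b ^ 2 ^ i, mul_mem hc hb', ?_⟩
    rw [mul_inv_eq_iff_eq_mul] at h3
    rw [h3, ← sq, ← sq, ← sq, Commute.mul_pow (hA _ hc _ hb')]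

theorem root' {A : Subgroup P} (hA : ∀ a ∈ A, ∀ b ∈ A, a * b = b * a) (hi : Iv K A) {e : ℕ}
    (he : ∃ a ∈ A, a ^ 2 ^ e ≠ 1) (i : ℕ) :
    ∀ j, i + j ≤ e + 1 → ∀ a ∈ A, a ^ 2 ^ j = 1 → ∃ b ∈ A, a = b ^ 2 ^ i := by
  induction i with
  | zero => exact fun _ _ a ha _ => ⟨a, ha, by simp⟩
  | succ i ih =>
    intro j hj a ha h1
    obtain ⟨b, hb, rfl⟩ := h.root hA hi he j (by omega) a ha h1
    obtain ⟨c, hc, rfl⟩ := ih (j + 1) (by omega) b hb (by rw [pow_succ', pow_mul, sq, h1])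
    exact ⟨c, hc, by rw [← pow_add, ← mul_two, ← pow_succ]⟩

theorem coord_Om {A : Subgroup P} (hA : ∀ a ∈ A, ∀ b ∈ A, a * b = b * a) (hi : Iv K A) {e : ℕ}
    (he : ∃ a ∈ A, a ^ 2 ^ e ≠ 1) {π : P → F} {χ : K ≃* Fˣ} (c : Coord h.Z ⊥ π χ) {j : ℕ}
    (hj : j ≤ e) : Coord (Om2 A hA (j + 1)) (Om2 A hA j) (fun x => π (x ^ 2 ^ j)) χ := by
  have hz : ∀ x ∈ Om2 A hA (j + 1), x ^ 2 ^ j ∈ h.Z := fun x hx => by
    rw [mem_Z, ← pow_add, ← mul_two, ← pow_succ, hx.2]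
  refine ⟨fun x hx y hy => ?_, fun x hx => ?_, fun a => ?_, fun k x hx => ?_⟩
  · rw [Commute.mul_pow (hA x hx.1 y hy.1), c.add _ (hz x hx) _ (hz y hy)]
  · rw [c.zero _ (hz x hx), mem_bot]
    exact ⟨fun e => ⟨hx.1, e⟩, fun e => e.2⟩
  · obtain ⟨z, hz, rfl⟩ := c.surj a
    obtain ⟨b, hb, rfl⟩ := h.root' hA hi he j 1 (by omega) z (h.Z_le hi (by
      rintro rfl; obtain ⟨a, ha, h1⟩ := he; rw [mem_bot] at ha; simp [ha] at h1) hz)
      (by rw [pow_one, sq]; exact hz)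
    exact ⟨b, ⟨hb, by rw [pow_succ, pow_mul, sq]; exact hz⟩, rfl⟩
  · rw [← smul_pow', c.eqv k _ (hz x hx)]

end Sz

theorem cm_pow {A : Subgroup P} [hn : A.Normal] (hA : ∀ a ∈ A, ∀ b ∈ A, a * b = b * a) (x : P)
    {a : P} (ha : a ∈ A) (n : ℕ) : ⁅x, a ^ n⁆ = ⁅x, a⁆ ^ n := by
  rw [commutatorElement_def, commutatorElement_def,
    Commute.mul_pow (hA _ (hn.conj_mem a ha x) _ (inv_mem ha)), conj_pow, inv_pow]

theorem cm_mem {A : Subgroup P} [hn : A.Normal] (x : P) {a : P} (ha : a ∈ A) : ⁅x, a⁆ ∈ A :=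
  mul_mem (hn.conj_mem a ha x) (inv_mem ha)

theorem Om2_iv {A : Subgroup P} (hA : ∀ a ∈ A, ∀ b ∈ A, a * b = b * a) (hi : Iv K A) (j : ℕ) :
    Iv K (Om2 A hA j) := fun k x hx => ⟨hi k x hx.1, by rw [← smul_pow', hx.2, smul_one]⟩

theorem Om2_conj {A : Subgroup P} [hn : A.Normal] (hA : ∀ a ∈ A, ∀ b ∈ A, a * b = b * a) {j : ℕ}
    {a : P} (ha : a ∈ Om2 A hA j) (x : P) : x * a * x⁻¹ ∈ Om2 A hA j :=
  ⟨hn.conj_mem a ha.1 x, by rw [conj_pow, ha.2, mul_one, mul_inv_cancel]⟩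

namespace Sz
variable [Finite P] (h : Sz K P)
include h

theorem cm_Om {A : Subgroup P} [A.Normal] (hA : ∀ a ∈ A, ∀ b ∈ A, a * b = b * a) {j : ℕ}
    {a : P} (ha : a ∈ Om2 A hA (j + 1)) (x : P) : ⁅x, a⁆ ∈ Om2 A hA j :=
  ⟨cm_mem x ha.1, by
    rw [← cm_pow hA x ha.1, commutatorElement_eq_one_iff_mul_comm]
    exact h.invol_cen (by rw [← pow_add, ← mul_two, ← pow_succ, ha.2]) x⟩

theorem conj_pow_Om {A : Subgroup P} (hA : ∀ a ∈ A, ∀ b ∈ A, a * b = b * a) {j : ℕ}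
    {a : P} (ha : a ∈ Om2 A hA (j + 1)) (x : P) : (x * a * x⁻¹) ^ 2 ^ j = a ^ 2 ^ j := by
  rw [conj_pow, h.invol_cen (z := a ^ 2 ^ j) (by rw [← pow_add, ← mul_two, ← pow_succ, ha.2]),
    mul_inv_cancel_right]

theorem exists_eta {A : Subgroup P} [A.Normal] (hA : ∀ a ∈ A, ∀ b ∈ A, a * b = b * a)
    (hi : Iv K A) {d : ℕ} (he : ∃ a ∈ A, a ^ 2 ^ (d + 1) ≠ 1) (hd : ∀ a ∈ A, a ^ 2 ^ (d + 2) = 1)
    {π : P → F} {χ : K ≃* Fˣ} (c : Coord h.Z ⊥ π χ) {X : Subgroup P} (hX : Iv K X) {ρ : P → F}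
    {χ' : K ≃* Fˣ} (c' : Coord X A ρ χ') :
    ∃ η : F →+ F →+ F, (∀ x ∈ X, ∀ a ∈ A, η (ρ x) (π (a ^ 2 ^ (d + 1))) = π (⁅x, a⁆ ^ 2 ^ d)) ∧
      ∀ k a b, η (χ' k * a) (χ k * b) = χ k * η a b := by
  have c0 := h.coord_Om hA hi he c le_rfl
  have c1 := h.coord_Om hA hi he c (Nat.le_succ d)
  obtain ⟨η, h1, h2⟩ := c'.desc2 c0 (fun x a => π (⁅x, a⁆ ^ 2 ^ d)) (fun x _ y _ a ha => by
      have a1 := h.cm_Om hA ha y
      have a2 := h.cm_Om hA a1 x
      have a3 : ⁅x, ⁅y, a⁆⁆ ∈ Om2 A hA (d + 1) := ⟨a2.1, by rw [pow_succ, pow_mul, a2.2, one_pow]⟩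
      rw [cm_mul_left, c1.add _ (mul_mem a3 a1) _ (h.cm_Om hA ha x), c1.add _ a3 _ a1,
        (c1.zero _ a3).2 a2, zero_add, add_comm])
    (fun x _ a ha b hb => by
      have a1 := h.cm_Om hA hb x
      rw [cm_mul_right, c1.add _ (h.cm_Om hA ha x) _ (Om2_conj hA a1 a), h.conj_pow_Om hA a1])
    (fun x _ hx a ha => by
      rw [commutatorElement_eq_one_iff_mul_comm.2 (hA x hx a ha.1), one_pow, c.one])
    (fun x _ a ha ha' => by rw [(h.cm_Om hA ha' x).2, c.one]) hX (Om2_iv hA hi _)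
    (fun k x _ a ha => by rw [← smul_comm_el]; exact c1.eqv k _ (h.cm_Om hA ha x))
  exact ⟨η, fun x hx a ha => h1 x hx a ⟨ha, hd a ha⟩, h2⟩

end Sz
end H8
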