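import Mathlib
import Cfsg.Agent.H8.Sz2

set_option autoImplicit false

namespace H8
open Subgroup
open scoped commutatorElement

universe u

variable {K P : Type*} [Group K] [Group P] [MulDistribMulAction K P]
  {F : Type*} [Field F] [Fintype F] [CharP F 2]

namespace Sz
variable [Finite P] (h : Sz K P)
include h

theorem exists_exp {A : Subgroup P} {a : P} (ha : a ∈ A) (h2 : a * a ≠ 1) :
    ∃ d, (∃ a ∈ A, a ^ 2 ^ (d + 1) ≠ 1) ∧ ∀ a ∈ A, a ^ 2 ^ (d + 2) = 1 := by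
  classical
  obtain ⟨n, hn⟩ := IsPGroup.iff_card.1 h.two
  have hex : ∃ n, ∀ a ∈ A, a ^ 2 ^ n = 1 := ⟨n, fun a _ => by rw [← hn, pow_card_eq_one']⟩
  have h1 := Nat.find_spec hex
  have h3 : 1 < Nat.find hex := by
    rw [Nat.lt_find_iff]
    intro m hm e
    interval_cases m
    · exact h2 (by simp [show a = 1 by simpa using e a ha])
    · exact h2 (by simpa [sq] using e a ha)
  obtain ⟨d, hd⟩ := Nat.exists_eq_add_of_le' (show 2 ≤ Nat.find hex from h3)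
  refine ⟨d, ?_, hd ▸ h1⟩
  have := Nat.find_min hex (m := d + 1) (by omega)
  push Not at this
  exact this

theorem coord_Z (hF : Fintype.card F = Nat.card K + 1) :
    ∃ (π : P → F) (χ : K ≃* Fˣ), Coord h.Z ⊥ π χ :=
  h.coord hF h.iv_Z iv_bot (bot_lt_iff_ne_bot.2 h.Z_ne_bot)
    (fun x _ _ hy => commutatorElement_eq_one_iff_mul_comm.2 (h.invol_cen hy x)) (fun _ hx => hx)
    fun _ hU _ hUZ => or_iff_not_imp_left.2 fun e => hUZ.antisymm (h.Z_le hU e)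

theorem not_abel_max (hF : Fintype.card F = Nat.card K + 1) {A : Subgroup P}
    (hA : ∀ a ∈ A, ∀ b ∈ A, a * b = b * a) (hi : Iv K A) {ρ : P → F} {χ' : K ≃* Fˣ}
    (c' : Coord ⊤ A ρ χ') (hnc : ∃ x y : P, x * y ≠ y * x) (h8 : ∃ u : P, u * u ∉ h.Z) : False := by
  haveI := h.nt
  have ha : ∀ x y, ρ (x * y) = ρ x + ρ y := fun x y => c'.add x trivial y trivial
  have hz : ∀ x, ρ x = 0 ↔ x ∈ A := fun x => c'.zero x trivial
  have hinv : ∀ x, ρ x⁻¹ = ρ x := fun x => by rw [c'.inv trivial, CharTwo.neg_eq]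
  have hsq : ∀ x, x * x ∈ A := fun x => (hz _).1 (by rw [ha, CharTwo.add_self_eq_zero])
  have hcm : ∀ x y, ⁅x, y⁆ ∈ A := fun x y => (closure_le A).2 (by
    rintro _ ⟨z, rfl⟩; exact hsq z) (cm_mem_sq x y)
  haveI := normal_of_cm hcm
  obtain ⟨u₀, hu₀⟩ := h8
  obtain ⟨d, he, hd⟩ := h.exists_exp (hsq u₀) hu₀
  obtain ⟨π, χ, c⟩ := h.coord_Z hF
  obtain ⟨η, hη, hη'⟩ := h.exists_eta hA hi he hd c iv_top c'
  have c0 := h.coord_Om hA hi he c le_rfl
  have c1 := h.coord_Om hA hi he c (Nat.le_succ d)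
  have mO : ∀ {a}, a ∈ A → a ∈ Om2 A hA (d + 2) := fun ha => ⟨ha, hd _ ha⟩
  have form : ∀ j, j ≤ d + 1 → (∀ x y : P, ⁅x, y⁆ ∈ Om2 A hA (j + 1)) →
      (∀ a ∈ A, ∀ y, ⁅y, a⁆ ∈ Om2 A hA j) → ∃ ω : F →+ F →+ F,
        (∀ x y, ω (ρ x) (ρ y) = π (⁅x, y⁆ ^ 2 ^ j)) ∧
        ∀ k a b, ω (χ' k * a) (χ' k * b) = χ k * ω a b := fun j hj h1 h2 => by
    have cj := h.coord_Om hA hi he c hj
    obtain ⟨ω, a1, a2⟩ := c'.desc2 c' (fun x y => π (⁅x, y⁆ ^ 2 ^ j)) (fun x _ y _ z _ => by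
        rw [cm_mul_left, cj.add _ (mul_mem (h1 _ _) (h1 _ _)) _ (h1 _ _), cj.add _ (h1 _ _) _ (h1 _ _),
          (cj.zero _ (h1 _ _)).2 (h.cm_Om hA (h1 y z) x), zero_add, add_comm])
      (fun x _ y _ z _ => by
        rw [cm_mul_right, cj.add _ (h1 _ _) _ (Om2_conj hA (h1 _ _) _), h.conj_pow_Om hA (h1 _ _)])
      (fun x _ hx z _ => (cj.zero _ (h1 _ _)).2 (by
        rw [← commutatorElement_inv]; exact inv_mem (h2 x hx z)))
      (fun x _ z _ hz => (cj.zero _ (h1 _ _)).2 (h2 z hz x)) iv_top iv_top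
      (fun k x _ z _ => by rw [← smul_comm_el]; exact cj.eqv k _ (h1 _ _))
    exact ⟨ω, fun x y => a1 x trivial y trivial, a2⟩
  obtain ⟨B, hB, -⟩ := form (d + 1) le_rfl (fun x y => mO (hcm x y)) fun a ha y => h.cm_Om hA (mO ha) y
  choose r hr hr' using c'.surj
  let Q : F → F := fun a => π ((r a * r a) ^ 2 ^ (d + 1))
  have hQ0 : ∀ x y, π ((x * y * (x * y)) ^ 2 ^ (d + 1)) =
      π ((x * x) ^ 2 ^ (d + 1)) + π ((y * y) ^ 2 ^ (d + 1)) + B (ρ x) (ρ y) := fun x y => by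
    rw [sq_mul', c0.add _ (mul_mem (mO (hsq _)) (mO (hcm _ _))) _ (mO (hsq _)),
      c0.add _ (mO (hsq _)) _ (mO (hcm _ _)), ← hB, hinv, add_right_comm]
  have hQ : ∀ x, Q (ρ x) = π ((x * x) ^ 2 ^ (d + 1)) := fun x => by
    have h1 : (r (ρ x))⁻¹ * x ∈ A := (c'.eq_iff trivial trivial).1 (hr' _)
    have h2 := hQ0 (r (ρ x)) ((r (ρ x))⁻¹ * x)
    rw [mul_inv_cancel_left, (hz _).2 h1, map_zero, add_zero, ← sq ((r (ρ x))⁻¹ * x), ← pow_mul,
      ← pow_succ', hd _ h1, c.one, add_zero] at h2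
    exact h2.symm
  have hQB : ∀ a b, Q (a + b) = Q a + Q b + B a b := fun a b => by
    rw [← hr' a, ← hr' b, ← ha, hQ, hQ, hQ, hQ0]
  have hQk : ∀ k a, Q (χ' k * a) = χ k * Q a := fun k a => by
    rw [← hr' a, ← c'.eqv k _ trivial, hQ, hQ, ← smul_mul']
    exact c0.eqv k _ (mO (hsq _))
  have hη0 : (∀ a b, η a b = 0) → ∀ x, ∀ a ∈ A, ⁅x, a⁆ ∈ Om2 A hA d := fun h0 x a ha =>
    (c1.zero _ (h.cm_Om hA (mO ha) x)).1 ((hη x trivial a ha).symm.trans (h0 _ _))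
  have hQ1 : Q 1 ≠ 0 := by
    intro h0
    have h1 : ∀ x : P, (x * x) ^ 2 ^ (d + 1) = 1 := fun x => by
      refine ((c0.zero _ (mO (hsq x))).1 ((hQ x).symm.trans ?_)).2
      by_cases hx : ρ x = 0
      · rw [hx.trans c'.one.symm, hQ, mul_one, one_pow, c.one]
      obtain ⟨k, hk⟩ := exists_chi χ' one_ne_zero hx
      rw [← hk, hQk, h0, mul_zero]
    rcases d with _ | d
    · exact hu₀ (by simpa [sq, mem_Z] using h1 u₀)
    have h2 := hη0 (eta_idem η hη' fun a b => by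
      obtain ⟨y, hy, rfl⟩ := c0.surj b
      rw [← hr' a]
      generalize r a = x
      obtain ⟨b, hb, e1⟩ := h.root hA hi he _ le_rfl _ (cm_mem x hy.1) (h.cm_Om hA hy x).2
      obtain ⟨b', hb', e2⟩ := h.root hA hi he _ le_rfl _ (cm_mem x hb) (h.cm_Om hA (mO hb) x).2
      have e3 : ∀ z : P, (z * z) ^ 2 ^ (d + 1) = z ^ 2 ^ (d + 1 + 1) := fun z => by
        rw [← sq, ← pow_mul, ← pow_succ']
      rw [hη x trivial y hy.1, e1, e3, hη x trivial b hb, e2, e3, ← CharTwo.add_eq_zero,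
        ← c0.add _ (mO hb') _ (mO hb)]
      have e4 := cm_mul_left x x y
      rw [commutatorElement_eq_one_iff_mul_comm.2 (hA _ (hsq x) _ hy.1), e1, ← sq b, cm_pow hA x hb,
        e2, ← sq b', ← pow_mul, mul_assoc, ← pow_add, ← Commute.mul_pow (hA _ hb' _ hb)] at e4
      rw [show 2 ^ (d + 1 + 1) = (2 + 2) * 2 ^ d by ring, pow_mul, ← e4, one_pow, c.one])
    have h3 : ∀ j, j ≤ d + 2 → ∀ w : P, (w * w) ^ 2 ^ j = 1 → w ∈ A := fun j => by
      induction j with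
      | zero =>
        intro _ w hw
        refine h.Z_le hi (fun e => hu₀ ?_) (by simpa [mem_Z] using hw)
        have := hsq u₀
        rw [e, mem_bot] at this
        rw [this]; exact one_mem _
      | succ j ih =>
        intro hj w hw
        obtain ⟨b, hb, e1⟩ := h.root hA hi he _ hj _ (hsq w) hw
        obtain ⟨i, hi'⟩ := Nat.exists_eq_add_of_le (show j ≤ d + 1 by omega)
        obtain ⟨a, ha, rfl⟩ := h.root' hA hi he i (j + 2) (by omega) b hb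
          (by rw [pow_succ', pow_mul, sq, ← e1, hw])
        have := ih (by omega) (w * (a ^ 2 ^ i)⁻¹) (by
          rw [sq_mul', hA _ (mul_mem (hsq w) (hcm _ _)) _ (hsq _), ← mul_assoc, e1, ← mul_inv_rev,
            inv_mul_cancel, one_mul, ← inv_pow, cm_pow hA _ (inv_mem ha), ← pow_mul, ← pow_add,
            add_comm, ← hi']
          exact (h2 _ _ (inv_mem ha)).2)
        simpa using mul_mem this hb
    have := (hz _).2 (h3 _ le_rfl (r 1) (h1 _))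
    rw [hr'] at this
    exact one_ne_zero this
  have hsqc : ∀ x y : P, ⁅x, y⁆ ^ 2 = ⁅x, ⁅x, y⁆⁆⁻¹ * ⁅y, x * x⁆⁻¹ := fun x y => by
    rw [commutatorElement_inv y, cm_mul_left, mul_assoc, inv_mul_cancel_left, sq]
  by_cases hB0 : ∃ a b, B a b ≠ 0
  · have h2 := hη0 (eta_zero Q B hQB hB0 hQk hQ1 η hη' (by
      rw [← hr' 1, hQ, hη _ trivial _ (hsq _), commutatorElement_eq_one_iff_mul_comm.2
        (mul_assoc _ _ _).symm, one_pow, c.one]))
    obtain ⟨a, b, hab⟩ := hB0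
    rw [← hr' a, ← hr' b, hB, pow_succ', pow_mul, hsqc] at hab
    exact hab (by rw [(mul_mem (inv_mem (h2 _ _ (hcm _ _))) (inv_mem (h2 _ _ (hsq _)))).2, c.one])
  push Not at hB0
  let s : F →+ F := AddMonoidHom.mk' Q fun a b => by rw [hQB, hB0, add_zero]
  have hs : ∀ a, s a = 0 → a = 0 := fun a h0 => by
    by_contra h1
    obtain ⟨k, hk⟩ := exists_chi χ' h1 one_ne_zero
    exact hQ1 (by rw [← hk, hQk, show Q a = 0 from h0, mul_zero])
  have key : ∀ i j, i + j = d + 1 → ∀ x y : P, ⁅x, y⁆ ∈ Om2 A hA j := fun i => by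
    induction i with
    | zero =>
      intro j hj x y
      obtain rfl : j = d + 1 := by omega
      exact (c0.zero _ (mO (hcm x y))).1 ((hB x y).symm.trans (hB0 _ _))
    | succ i ih =>
      intro j hj
      have h1 := ih (j + 1) (by omega)
      have h2 : ∀ x y : P, ⁅y, x * x⁆ ∈ Om2 A hA j := fun x y => by
        rw [← commutatorElement_inv, cm_mul_left, mul_assoc]
        exact inv_mem (mul_mem (h.cm_Om hA (h1 _ _) _) ⟨mul_mem (hcm _ _) (hcm _ _), by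
          rw [← sq, ← pow_mul, ← pow_succ', (h1 x y).2]⟩)
      obtain ⟨ω, a1, a2⟩ := form j (by omega) h1 fun a ha y => by
        obtain ⟨v, hv⟩ := Finite.surjective_of_injective ((injective_iff_map_eq_zero s).2 hs)
          (π (a ^ 2 ^ (d + 1)))
        have h3 := (c0.eq_iff (mO (hsq (r v))) (mO ha)).1 hv
        obtain ⟨b, -, e⟩ := h.root hA hi he _ le_rfl _ h3.1 h3.2
        rw [inv_mul_eq_iff_eq_mul.1 e, cm_mul_right]
        exact mul_mem (h2 _ _) (Om2_conj hA (h2 _ _) _)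
      intro x y
      exact ((h.coord_Om hA hi he c (show j ≤ d + 1 by omega)).zero _ (h1 x y)).1
        ((a1 x y).symm.trans (alt_zero ω (fun a => by
          rw [← hr' a, a1, commutatorElement_self, one_pow, c.one]) a2 s hs hQk _ _))
  obtain ⟨x, y, hxy⟩ := hnc
  exact hxy (commutatorElement_eq_one_iff_mul_comm.1 (by simpa using (key (d + 1) 0 rfl x y).2))

theorem exists_coord (hF : Fintype.card F = Nat.card K + 1) {X Y : Subgroup P} (hX : Iv K X)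
    (hY : Iv K Y) (hYX : Y < X) (hs : ∀ x, x * x ∈ Y) :
    ∃ M, Iv K M ∧ Y < M ∧ M ≤ X ∧ ∃ (π : P → F) (χ : K ≃* Fˣ), Coord M Y π χ := by
  obtain ⟨M, ⟨h1, h2, h3⟩, hm⟩ := Set.Finite.exists_minimal
    (s := {M | Iv K M ∧ Y < M ∧ M ≤ X}) (Set.toFinite _) ⟨X, hX, hYX, le_rfl⟩
  refine ⟨M, h1, h2, h3, h.coord hF h1 hY h2 (fun x _ y _ => (closure_le Y).2 (by
    rintro _ ⟨z, rfl⟩; exact hs z) (cm_mem_sq x y)) (fun x _ => hs x) fun U a1 a2 a3 => ?_⟩
  exact or_iff_not_imp_left.2 fun e => a3.antisymm (hm ⟨a1, a2.lt_of_ne' e, a3.trans h3⟩ a3)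

theorem step (hF : Fintype.card F = Nat.card K + 1)
    (ih : ∀ X : Subgroup P, Iv K X → X ≠ ⊤ → (∀ a ∈ X, ∀ b ∈ X, a * b = b * a) ∨
      ∀ a ∈ X, a * a ∈ h.Z) : (∀ x y : P, x * y = y * x) ∨ ∀ x : P, x * x ∈ h.Z := by
  by_contra hc
  push Not at hc
  obtain ⟨hnc, u₀, hu₀⟩ := hc
  haveI := h.ntP
  haveI := h.nt
  set B := closure (Set.range fun z : P => z * z) with hBd
  have hsq : ∀ x, x * x ∈ B := fun x => subset_closure ⟨x, rfl⟩
  have hBi : Iv K B := iv_closure (by rintro k _ ⟨x, rfl⟩; exact ⟨k • x, (smul_mul' _ _ _).symm⟩)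
  haveI : B.Normal := normal_of_cm cm_mem_sq
  have hBt : B ≠ ⊤ := fun e => by
    have : B ≤ frattini P := (closure_le _).2 (by
      rintro _ ⟨z, rfl⟩; simpa [sq] using H1.pow_mem_frattini_of_isPGroup h.two z)
    exact top_ne_bot (frattini_nongenerating (K := ⊥) (by rw [bot_sup_eq, eq_top_iff, ← e]; exact this)).symm
  have hZB : h.Z < B := lt_of_le_of_ne (h.Z_le hBi fun e => hu₀ (by
    have := hsq u₀; rw [e, mem_bot] at this; rw [this]; exact one_mem _)) fun e => hu₀ (e ▸ hsq u₀)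
  have cenB : ∀ c : P, (∀ y, ⁅y, c⁆ ∈ h.Z) → ∀ b ∈ B, b * c = c * b := fun c hc b hb => by
    have : B ≤ centralizer {c} := (closure_le _).2 (by
      rintro _ ⟨z, rfl⟩
      rw [SetLike.mem_coe, mem_centralizer_singleton_iff, ← commutatorElement_eq_one_iff_mul_comm,
        cm_mul_left, commutatorElement_eq_one_iff_mul_comm.2 (h.invol_cen (hc z) z), one_mul]
      exact hc z)
    exact mem_centralizer_singleton_iff.1 (this hb)
  haveI : h.Z.Normal := ⟨fun z hz g => by rwa [h.invol_cen hz, mul_inv_cancel_right]⟩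
  have hA : ∀ a ∈ B, ∀ b ∈ B, a * b = b * a := by
    refine (ih B hBi hBt).elim id fun h4 => ?_
    obtain ⟨c, hc, hcZ, hcc, -⟩ := H1.exists_central_mod_of_isPGroup (S := ⊤) (h.two.to_subgroup _)
      hZB le_top le_normalizer_of_normal le_normalizer_of_normal
    have h5 := cenB c fun y => by
      rw [← commutatorElement_inv]
      exact inv_mem (hcc (commutator_mem_commutator (mem_zpowers c) trivial))
    exact fun a ha b hb => h.le_of_cen hBi hBi.cen h4 hc h5 h5 hcZ hb a ha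
  obtain ⟨M, ⟨m1, m2, m3⟩, hm⟩ := Set.Finite.exists_maximal
    (s := {M | Iv K M ∧ B ≤ M ∧ M ≠ ⊤}) (Set.toFinite _) ⟨B, hBi, le_rfl, hBt⟩
  obtain ⟨ρ, χ', c'⟩ := h.coord hF iv_top m1 m3.lt_top (fun x _ y _ => m2 (cm_mem_sq x y))
    (fun x _ => m2 (hsq x)) fun U a1 a2 _ =>
      or_iff_not_imp_right.2 fun e => (hm ⟨a1, m2.trans a2, e⟩ a2).antisymm a2
  by_cases hMa : ∀ a ∈ M, ∀ b ∈ M, a * b = b * a
  · exact h.not_abel_max hF hMa m1 c' hnc ⟨u₀, hu₀⟩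
  have h4 := (ih M m1 m3).resolve_left hMa
  obtain ⟨M₁, n1, n2, n3, ρ₁, χ₁, c₁⟩ := h.exists_coord hF m1 hBi
    (lt_of_le_of_ne m2 fun e => hMa (e ▸ hA)) hsq
  obtain ⟨π, χ, c⟩ := h.coord_Z hF
  have he : ∃ a ∈ B, a ^ 2 ^ (0 + 1) ≠ 1 := ⟨_, hsq u₀, by simpa [sq, mem_Z] using hu₀⟩
  have hd : ∀ a ∈ B, a ^ 2 ^ (0 + 2) = 1 := fun a ha => by
    rw [show 2 ^ (0 + 2) = 2 * 2 by norm_num, pow_mul, sq, sq]; exact h4 a (m2 ha)
  have mO : ∀ {a}, a ∈ B → a ∈ Om2 B hA 2 := fun ha => ⟨ha, hd _ ha⟩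
  have mZ : ∀ {a}, a ∈ Om2 B hA 1 ↔ a ∈ h.Z := fun {a} =>
    ⟨fun ha => by simpa [sq, mem_Z] using ha.2, fun ha => ⟨hZB.le ha, by simpa [sq, mem_Z] using ha⟩⟩
  obtain ⟨η, hη, hη'⟩ := h.exists_eta hA hBi he hd c n1 c₁
  have c0 := h.coord_Om hA hBi he c le_rfl
  have hMZ : ∀ x ∈ M, ∀ y ∈ M, ⁅x, y⁆ ∈ h.Z := fun x hx y hy => by
    have : ⁅x, y⁆ = (x⁻¹ * x⁻¹)⁻¹ * (x⁻¹ * y * (x⁻¹ * y)) * (y * y)⁻¹ := by
      simp only [commutatorElement_def]; group
    rw [this]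
    exact mul_mem (mul_mem (inv_mem (h4 _ (inv_mem hx))) (h4 _ (mul_mem (inv_mem hx) hy)))
      (inv_mem (h4 _ hy))
  have h1 : ∀ x y : P, ⁅x, y⁆ ∈ Om2 B hA 2 := fun x y => mO (cm_mem_sq x y)
  obtain ⟨δ, hδ, hδ'⟩ := c₁.desc2 c' (fun x y => π (⁅x, y⁆ ^ 2 ^ 1)) (fun x _ y _ z _ => by
      rw [cm_mul_left, c0.add _ (mul_mem (h1 _ _) (h1 _ _)) _ (h1 _ _), c0.add _ (h1 _ _) _ (h1 _ _),
        (c0.zero _ (h1 _ _)).2 (h.cm_Om hA (h1 y z) x), zero_add, add_comm])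
    (fun x _ y _ z _ => by
      rw [cm_mul_right, c0.add _ (h1 _ _) _ (Om2_conj hA (h1 _ _) _), h.conj_pow_Om hA (h1 _ _)])
    (fun x _ hx z _ => (c0.zero _ (h1 _ _)).2 (by
      rw [← commutatorElement_inv]; exact inv_mem (h.cm_Om hA (mO hx) z)))
    (fun x hx z _ hz => (c0.zero _ (h1 _ _)).2 (mZ.2 (hMZ x (n3 hx) z hz))) n1 iv_top
    (fun k x _ z _ => by rw [← smul_comm_el]; exact c0.eqv k _ (h1 _ _))
  have hfix : ∀ a b, η a (δ a b) = δ a b := fun a b => by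
    obtain ⟨x, hx, rfl⟩ := c₁.surj a
    obtain ⟨y, -, rfl⟩ := c'.surj b
    rw [hδ x hx y trivial, hη x hx _ (cm_mem_sq x y)]
    have e4 := cm_mul_left x x y
    rw [commutatorElement_eq_one_iff_mul_comm.2 (h.invol_cen (h4 x (n3 hx)) y).symm, mul_assoc,
      eq_comm, mul_eq_one_iff_eq_inv] at e4
    rw [e4, pow_zero, pow_one, pow_one, sq, c.inv (h4 _ (m2 (cm_mem_sq x y))), CharTwo.neg_eq]
  have hδ0 : ∀ a b, δ a b = 0 := fun a b => by
    by_contra h0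
    have b0 : b ≠ 0 := by rintro rfl; simp at h0
    have a0 : a ≠ 0 := by rintro rfl; simp at h0
    obtain ⟨b', hb', e⟩ : ∃ b', b' ≠ 0 ∧ δ a b' = 0 := by
      obtain ⟨k, hk⟩ := exists_ne (1 : K)
      by_cases h5 : δ a (χ' k * b) = 0
      · exact ⟨_, mul_ne_zero (Units.ne_zero _) b0, h5⟩
      refine ⟨χ' k * b - b, fun e => hk (χ'.injective (Units.ext ?_)), ?_⟩
      · simpa using mul_right_cancel₀ b0 ((sub_eq_zero.1 e).trans (one_mul b).symm)
      · rw [map_sub, (eta_par η hη' h0 (hfix a b)).2 _ h5 (hfix _ _), sub_self]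
    obtain ⟨k, hk⟩ := exists_chi χ' hb' b0
    have h5 : δ (χ₁ k * a) b = 0 := by rw [← hk, hδ', e, mul_zero]
    have h6 := hfix (a + χ₁ k * a) b
    rw [map_add δ, AddMonoidHom.add_apply, h5, add_zero, map_add, AddMonoidHom.add_apply, hfix,
      add_eq_left] at h6
    exact mul_ne_zero (Units.ne_zero _) a0 ((eta_par η hη' h0 (hfix a b)).1 _ h6)
  refine n2.not_ge (h.le_of_cen n1 hBi (fun x hx => h4 x (n3 hx)) (n2.le (hsq u₀)) (hsq u₀)
    (fun x hx => (cenB x (fun y => ?_) _ (hsq u₀)).symm) hu₀)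
  rw [← commutatorElement_inv]
  exact inv_mem (mZ.1 ((c0.zero _ (h1 _ _)).1 ((hδ x hx y trivial).symm.trans (hδ0 _ _))))

end Sz

/-- Restricting the action to an invariant subgroup. -/
abbrev Iv.act {X : Subgroup P} (hX : Iv K X) : MulDistribMulAction K X where
  smul k x := ⟨k • (x : P), hX k x x.2⟩
  one_smul x := Subtype.ext (one_smul K (x : P))
  mul_smul a b x := Subtype.ext (mul_smul a b (x : P))
  smul_mul k x y := Subtype.ext (smul_mul' k (x : P) y)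
  smul_one k := Subtype.ext (smul_one k)

theorem sz_main (hF : Fintype.card F = Nat.card K + 1) (n : ℕ) :
    ∀ (P : Type u) [Group P] [Finite P] [MulDistribMulAction K P], Nat.card P = n → Sz K P →
      (∀ x y : P, x * y = y * x) ∨ ∀ x : P, x * x * (x * x) = 1 := by
  induction n using Nat.strong_induction_on with
  | _ n ih =>
  intro P _ _ _ hn h
  refine h.step hF fun X hX hXt => ?_
  by_cases hb : X = ⊥
  · left
    intro a ha b _
    rw [hb, mem_bot] at ha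
    simp [ha]
  letI := hX.act
  rcases ih (Nat.card X) (by
    rw [← hn, ← card_top (G := P)]; exact H1.card_lt_of_lt hXt.lt_top) X rfl
    ⟨h.two.to_subgroup X, h.comm, fun k hk x e => Subtype.ext (h.fpf k hk x (congrArg Subtype.val e)),
      fun x y x1 x2 y1 y2 => (h.tr x y (fun e => x1 (Subtype.ext e))
        (congrArg Subtype.val x2) (fun e => y1 (Subtype.ext e)) (congrArg Subtype.val y2)).imp
        fun k hk => Subtype.ext hk, h.nt, (nontrivial_iff_ne_bot X).2 hb⟩ with e | e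
  · exact Or.inl fun a ha b hb => congrArg Subtype.val (e ⟨a, ha⟩ ⟨b, hb⟩)
  · exact Or.inr fun a ha => congrArg Subtype.val (e ⟨a, ha⟩)

end H8
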