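import Mathlib
import Cfsg.Prelude.Def_LieRecognition
import Cfsg.Agent.H8.Sz3

set_option autoImplicit false

namespace H8
open Subgroup Cfsg
open scoped commutatorElement

variable {K P : Type*} [Group K] [Group P] [MulDistribMulAction K P]

theorem sz_of (hP : IsSuzukiTwoGroup P) : Finite P ∧ (∃ x y : P, x * y ≠ y * x) ∧
    ∃ K : Subgroup (MulAut P), Sz K P := by
  obtain ⟨hf, h2, hnc, ⟨x, y, hxy, x1, x2, y1, y2⟩, K, hK, hr⟩ := hP
  refine ⟨hf, hnc, K, h2, fun a b => mul_comm' a b, fun k hk z hz => ?_,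
    fun x y a b c d => (hr x y a b c d).exists, ?_, ⟨x, 1, x1⟩⟩
  · by_contra z1
    obtain ⟨n, hn⟩ := IsPGroup.iff_orderOf.1 h2 z
    rcases n with _ | n
    · exact z1 (orderOf_eq_one_iff.1 hn)
    have h1 : z ^ 2 ^ n ≠ 1 := fun e => by
      have := Nat.le_of_dvd (by positivity) (orderOf_dvd_of_pow_eq_one e)
      rw [hn] at this
      exact absurd this (Nat.pow_lt_pow_right one_lt_two (Nat.lt_succ_self n)).not_ge
    have h3 : z ^ 2 ^ n * z ^ 2 ^ n = 1 := by
      rw [← pow_add, ← mul_two, ← pow_succ, ← hn, pow_orderOf_eq_one]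
    exact hk ((hr _ _ h1 h3 h1 h3).unique (by
      rw [map_pow]; exact congrArg (· ^ 2 ^ n) hz) rfl)
  · obtain ⟨k, hk, -⟩ := hr x y x1 x2 y1 y2
    exact ⟨k, 1, by rintro rfl; exact hxy hk⟩

namespace Sz
variable [Finite P] (h : Sz K P)
include h

theorem exists_field : ∃ n, 2 ≤ n ∧ ∃ _ : Fintype (GaloisField 2 n), Nat.card K + 1 = 2 ^ n ∧
    Fintype.card (GaloisField 2 n) = Nat.card K + 1 := by
  obtain ⟨n, hn⟩ := IsPGroup.iff_card.1 (h.two.to_subgroup h.Z)
  rw [h.card_Z] at hn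
  haveI := h.nt
  haveI := h.finK
  have h1 : 1 < Nat.card K := Finite.one_lt_card
  have h2 : 2 ≤ n := by
    by_contra hc
    interval_cases n <;> omega
  exact ⟨n, h2, Fintype.ofFinite _, hn, by
    rw [Fintype.card_eq_nat_card, GaloisField.card 2 n (by omega), hn]⟩

theorem sq_mem (hnc : ∃ x y : P, x * y ≠ y * x) (x : P) : x * x ∈ h.Z := by
  obtain ⟨n, -, _, -, hF⟩ := h.exists_field
  obtain ⟨a, b, hab⟩ := hnc
  exact (sz_main hF _ P rfl h).resolve_left (fun e => hab (e a b)) x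

theorem cm_mem_Z (hnc : ∃ x y : P, x * y ≠ y * x) (x y : P) : ⁅x, y⁆ ∈ h.Z :=
  (closure_le h.Z).2 (by rintro _ ⟨z, rfl⟩; exact h.sq_mem hnc z) (cm_mem_sq x y)

theorem center_eq (hnc : ∃ x y : P, x * y ≠ y * x) : center P = h.Z := by
  refine le_antisymm (fun c hc => ?_) fun z hz => mem_center_iff.2 fun y => h.invol_cen hz y
  by_contra h1
  obtain ⟨a, b, hab⟩ := id hnc
  exact hab (h.le_of_cen (Y := centralizer ((⊤ : Subgroup P) : Set P)) iv_top iv_top.cen
    (fun x _ => h.sq_mem hnc x) trivial (fun x _ => mem_center_iff.1 hc x)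
    (fun x _ => mem_center_iff.1 hc x) h1 (mem_top b) a trivial)

theorem Z_ne_top (hnc : ∃ x y : P, x * y ≠ y * x) : h.Z ≠ ⊤ := fun e => by
  obtain ⟨a, b, hab⟩ := hnc
  exact hab (h.invol_cen (e.ge (mem_top b)) a)

theorem card_le (hnc : ∃ x y : P, x * y ≠ y * x) : Nat.card P ≤ (Nat.card K + 1) ^ 3 := by
  obtain ⟨n, -, _, -, hF⟩ := h.exists_field
  obtain ⟨π, χ, c⟩ := h.coord_Z hF
  haveI := normal_of_cm (h.cm_mem_Z hnc)
  letI : CommGroup (P ⧸ h.Z) := { (inferInstance : Group (P ⧸ h.Z)) with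
    mul_comm := fun a b => by
      obtain ⟨a, rfl⟩ := QuotientGroup.mk_surjective a
      obtain ⟨b, rfl⟩ := QuotientGroup.mk_surjective b
      rw [← commutatorElement_eq_one_iff_mul_comm]
      exact (QuotientGroup.eq_one_iff ⁅a, b⁆).2 (h.cm_mem_Z hnc a b) }
  have hs := h.sq_mem hnc
  have hc := h.cm_mem_Z hnc
  let Q : Additive (P ⧸ h.Z) → GaloisField 2 n := fun w =>
    Quotient.liftOn' w.toMul (fun x => π (x * x)) fun a b hab => by
      rw [QuotientGroup.leftRel_apply] at hab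
      rw [show b = a * (a⁻¹ * b) by group, sq_mul' a, hab,
        commutatorElement_eq_one_iff_mul_comm.2 (h.invol_cen hab _), mul_one, mul_one]
  have h1 : ∀ x y, π (x * y * (x * y)) = π (x * x) + π ⁅x⁻¹, y⁆ + π (y * y) := fun x y => by
    rw [sq_mul', c.add _ (mul_mem (hs _) (hc _ _)) _ (hs _), c.add _ (hs _) _ (hc _ _)]
  by_contra hlt
  obtain ⟨w, w0, hw⟩ := quad_isotropic (F := GaloisField 2 n) (W := Additive (P ⧸ h.Z)) (fun w => by
      obtain ⟨x, hx⟩ := QuotientGroup.mk_surjective w.toMul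
      change w.toMul * w.toMul = 1
      rw [← hx]
      exact (QuotientGroup.eq_one_iff (x * x)).2 (hs x)) Q
    (by change π (1 * 1) = 0; rw [mul_one, c.one]) (fun x y z => by
      obtain ⟨x, rfl⟩ := QuotientGroup.mk_surjective (α := P) x
      obtain ⟨y, rfl⟩ := QuotientGroup.mk_surjective (α := P) y
      obtain ⟨z, rfl⟩ := QuotientGroup.mk_surjective (α := P) z
      change π (x * y * z * (x * y * z)) + (π (x * x) + π (y * y) + π (z * z)) =
        π (x * y * (x * y)) + π (y * z * (y * z)) + π (x * z * (x * z))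
      rw [h1, h1, h1, h1, mul_inv_rev, cm_mul_left,
        commutatorElement_eq_one_iff_mul_comm.2 (h.invol_cen (hc _ _) _), one_mul,
        c.add _ (hc _ _) _ (hc _ _)]
      ring) (by
      have := card_eq_card_quotient_mul_card_subgroup h.Z
      rw [h.card_Z] at this
      change _ < Nat.card (P ⧸ h.Z)
      rw [hF]
      by_contra h2
      exact hlt (by rw [this, pow_succ]; exact Nat.mul_le_mul_right _ (not_lt.1 h2)))
  obtain ⟨x, hx⟩ := QuotientGroup.mk_surjective w.toMul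
  refine w0 (hx.symm.trans ((QuotientGroup.eq_one_iff x).2 ((c.zero _ (hs x)).1 ?_)))
  rw [← hw, show w = Additive.ofMul (x : P ⧸ h.Z) from hx.symm]
  rfl

theorem card_eq (hnc : ∃ x y : P, x * y ≠ y * x) :
    Nat.card P = (Nat.card K + 1) ^ 2 ∨ Nat.card P = (Nat.card K + 1) ^ 3 := by
  obtain ⟨n, -, _, -, hF⟩ := h.exists_field
  have hF' := Fintype.card_eq_nat_card.symm.trans hF
  have hs := h.sq_mem hnc
  obtain ⟨M, m1, m2, -, π, χ, c⟩ := h.exists_coord hF iv_top h.iv_Z (h.Z_ne_top hnc).lt_top hs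
  have e1 := c.card m2.le
  rw [hF', h.card_Z, ← sq] at e1
  by_cases e : M = ⊤
  · exact Or.inl (by rw [← e1, e, card_top])
  obtain ⟨N, n1, n2, -, π, χ, c⟩ := h.exists_coord hF iv_top m1 (Ne.lt_top e) fun x => m2.le (hs x)
  have e2 := c.card n2.le
  rw [hF', e1, ← pow_succ'] at e2
  exact Or.inr ((h.card_le hnc).antisymm (e2 ▸ card_le_card_group N))

end Sz

/-- The type A matrix. -/
def tA {F : Type*} [Field F] (φ : F →+* F) (x y : F) : GL (Fin 3) F :=
  Matrix.GeneralLinearGroup.mkOfDetNeZero !![1, 0, 0; x, 1, 0; y, φ x, 1]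
    (by simp [Matrix.det_fin_three])

theorem tA_mul {F : Type*} [Field F] (φ : F →+* F) (x y x' y' : F) :
    tA φ x y * tA φ x' y' = tA φ (x + x') (y + y' + φ x * x') := by
  ext i j
  fin_cases i <;> fin_cases j <;>
    simp [tA, Matrix.mul_apply, Fin.sum_univ_three, add_comm, add_left_comm, add_assoc]

theorem exists_equiv_typeA {F : Type*} [Field F] (φ : F →+* F) (a b : P → F)
    (ha : ∀ x y, a (x * y) = a x + a y) (hb : ∀ x y, b (x * y) = b x + b y + φ (a x) * a y)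
    (hi : ∀ x, a x = 0 → b x = 0 → x = 1) (hs : ∀ u v, ∃ x, a x = u ∧ b x = v) :
    Nonempty (P ≃* suzukiTypeA F φ) := by
  let f : P →* GL (Fin 3) F := MonoidHom.mk' (fun x => tA φ (a x) (b x)) fun x y => by
    rw [tA_mul, ha, hb]
  have hf : Function.Injective f := (injective_iff_map_eq_one f).2 fun x hx => by
    have h1 := congrArg (fun g : GL (Fin 3) F => (g : Matrix (Fin 3) (Fin 3) F) 1 0) hx
    have h2 := congrArg (fun g : GL (Fin 3) F => (g : Matrix (Fin 3) (Fin 3) F) 2 0) hx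
    exact hi x (by simpa [f, tA] using h1) (by simpa [f, tA] using h2)
  have hr : f.range = suzukiTypeA F φ := by
    refine le_antisymm ?_ ((closure_le _).2 ?_)
    · rintro _ ⟨x, rfl⟩
      exact subset_closure ⟨a x, b x, rfl⟩
    · rintro g ⟨u, v, hg⟩
      obtain ⟨x, rfl, rfl⟩ := hs u v
      exact ⟨x, Units.ext hg.symm⟩
  exact ⟨(MonoidHom.ofInjective hf).trans (MulEquiv.subgroupCongr hr)⟩

/-- Twisting a central extension by a bilinear cocycle. -/
def Tw (P : Type*) := P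

theorem Sz.typeA [Finite P] (h : Sz K P) (hnc : ∃ x y : P, x * y ≠ y * x)
    (hc : Nat.card P = (Nat.card K + 1) ^ 2) {F : Type*} [Field F] [Fintype F] [CharP F 2]
    (hF : Fintype.card F = Nat.card K + 1) :
    ∃ φ : F ≃+* F, φ ≠ 1 ∧ Odd (orderOf φ) ∧ Nonempty (P ≃* suzukiTypeA F (φ : F →+* F)) := by
  have hs := h.sq_mem hnc
  have hcm := h.cm_mem_Z hnc
  obtain ⟨M, m1, m2, -, ρ, χ', c'⟩ := h.exists_coord hF iv_top h.iv_Z (h.Z_ne_top hnc).lt_top hs
  obtain rfl : M = ⊤ := eq_top_of_card_eq _ (by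
    rw [c'.card m2.le, ← Fintype.card_eq_nat_card, hF, h.card_Z, hc, sq])
  obtain ⟨π, χ, c⟩ := h.coord_Z hF
  have ha : ∀ x y, ρ (x * y) = ρ x + ρ y := fun x y => c'.add x trivial y trivial
  have hz : ∀ x, ρ x = 0 ↔ x ∈ h.Z := fun x => c'.zero x trivial
  have cz : ∀ {z}, z ∈ h.Z → ∀ y, ⁅y, z⁆ = 1 := fun hz y =>
    commutatorElement_eq_one_iff_mul_comm.2 (h.invol_cen hz y)
  obtain ⟨B, hB, -⟩ := c'.desc2 c' (fun x y => π ⁅x, y⁆) (e := fun k => χ k) (fun x _ y _ z _ => by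
      rw [cm_mul_left, cz (hcm _ _), one_mul, c.add _ (hcm _ _) _ (hcm _ _), add_comm])
    (fun x _ y _ z _ => by
      rw [cm_mul_right, h.invol_cen (hcm _ _), mul_inv_cancel_right, c.add _ (hcm _ _) _ (hcm _ _)])
    (fun x _ hx z _ => by rw [← commutatorElement_inv, cz hx, inv_one, c.one])
    (fun x _ z _ hz => by rw [cz hz, c.one]) iv_top iv_top
    (fun k x _ z _ => by rw [← smul_comm_el]; exact c.eqv k _ (hcm _ _))
  choose r hr hr' using c'.surj
  let Q : F → F := fun a => π (r a * r a)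
  have hQ0 : ∀ x y, π (x * y * (x * y)) = π (x * x) + π (y * y) + B (ρ x) (ρ y) := fun x y => by
    rw [sq_mul', c.add _ (mul_mem (hs _) (hcm _ _)) _ (hs _), c.add _ (hs _) _ (hcm _ _),
      ← hB _ trivial _ trivial, c'.inv trivial, CharTwo.neg_eq, add_right_comm]
  have hQ : ∀ x, Q (ρ x) = π (x * x) := fun x => by
    have h1 : (r (ρ x))⁻¹ * x ∈ h.Z := (c'.eq_iff trivial trivial).1 (hr' _)
    have h2 := hQ0 (r (ρ x)) ((r (ρ x))⁻¹ * x)
    rw [mul_inv_cancel_left, (hz _).2 h1, map_zero, add_zero, h1, c.one, add_zero] at h2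
    exact h2.symm
  have hQk : ∀ k a, Q (χ' k * a) = χ k * Q a := fun k a => by
    rw [← hr' a, ← c'.eqv k _ trivial, hQ, hQ, ← smul_mul']
    exact c.eqv k _ (hs _)
  obtain ⟨σ, θ, θ1, hodd, hχ⟩ := typeA_char Q B (fun a b => by
    rw [← hr' a, ← hr' b, ← ha, hQ, hQ, hQ, hQ0]) (by
      obtain ⟨x, y, hxy⟩ := hnc
      exact ⟨ρ x, ρ y, by
        rw [hB _ trivial _ trivial, Ne, c.zero _ (hcm _ _), mem_bot,
          commutatorElement_eq_one_iff_mul_comm]
        exact hxy⟩) hQk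
  have hQ1 : Q 1 ≠ 0 := fun e => one_ne_zero ((hr' 1).symm.trans ((hz _).2 ((c.zero _ (hs _)).1 e)))
  let π' : P → F := fun z => σ.symm (π z / Q 1)
  have a1 : ∀ x ∈ h.Z, ∀ y ∈ h.Z, π' (x * y) = π' x + π' y := fun x hx y hy => by
    simp only [π', c.add x hx y hy, add_div, map_add]
  have a2 : ∀ x ∈ h.Z, ∀ y ∈ h.Z, π' x = π' y → x = y := fun x hx y hy e =>
    inv_mul_eq_one.1 ((c.eq_iff hx hy).1 ((div_left_inj' hQ1).1 (σ.symm.injective e)))
  have a3 : ∀ a, ∃ z ∈ h.Z, π' z = a := fun a => by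
    obtain ⟨z, hz, e⟩ := c.surj (σ a * Q 1)
    exact ⟨z, hz, by simp [π', e, hQ1]⟩
  have a4 : ∀ x, π' (x * x) = θ (ρ x) * ρ x := fun x => by
    simp only [π', ← hQ]
    by_cases hx : ρ x = 0
    · rw [hx.trans c'.one.symm, hQ, mul_one, c.one, c'.one]; simp
    obtain ⟨k, hk⟩ := exists_chi χ' one_ne_zero hx
    rw [← hk, hQk, hχ, mul_div_cancel_right₀ _ hQ1, RingEquiv.symm_apply_apply, mul_one, mul_comm]
  choose ι hι hι' using a3
  have ι1 : ∀ a b, ι (a + b) = ι a * ι b := fun a b =>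
    a2 _ (hι _) _ (mul_mem (hι _) (hι _)) (by rw [a1 _ (hι _) _ (hι _), hι', hι', hι'])
  have ι0 : ι 0 = 1 := by simpa using ι1 0 0
  have ιc : ∀ a x, x * ι a = ι a * x := fun a x => h.invol_cen (hι a) x
  have ιρ : ∀ x a, ρ (x * ι a) = ρ x := fun x a => by rw [ha, (hz _).2 (hι a), add_zero]
  let m : P → P → P := fun x y => x * y * ι (θ (ρ x) * ρ y)
  have hm : ∀ x, m x x = 1 := fun x => by
    change x * x * ι _ = 1
    rw [← a4, a2 _ (hι _) _ (hs x) (hι' _)]; exact hs x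
  letI : AddGroup (Tw P) := @AddGroup.ofLeftAxioms _ ⟨m⟩ ⟨id⟩ ⟨(1 : P)⟩
    (fun x y z : P => by
      change m (m x y) z = m x (m y z)
      simp only [m]
      rw [ιρ, ← mul_assoc x, ιρ (y * z), mul_assoc (x * y), ← ιc, ← mul_assoc, mul_assoc (x * y * z),
        ← mul_assoc x, mul_assoc (x * y * z), ← ι1, ← ι1, ha, ha, map_add]
      congr 2; ring)
    (fun x : P => by change m 1 x = x; simp [m, c'.one, ι0]) hm
  have h2 : ∀ x : Tw P, x + x = 0 := hm
  letI : AddCommGroup (Tw P) := { (inferInstance : AddGroup (Tw P)) with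
    add_comm := fun x y => by
      have e : ∀ z : Tw P, -z = z := fun z => neg_eq_of_add_eq_zero_right (h2 z)
      rw [← e (x + y), neg_add_rev, e, e] }
  letI : Module (ZMod 2) (Tw P) := AddCommGroup.zmodModule (fun w => by rw [two_nsmul, h2])
  letI := ZMod.algebra F 2
  let j : F →+ Tw P := AddMonoidHom.mk' ι fun a b => by
    change _ = m _ _
    simp only [m, (hz _).2 (hι _), mul_zero, ι0, mul_one, ι1]
  obtain ⟨g, hg⟩ := (j.toZModLinearMap 2).exists_leftInverse_of_injective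
    (LinearMap.ker_eq_bot.2 fun a b e => by rw [← hι' a, show ι a = ι b from e, hι'])
  have hg' : ∀ a, g (ι a) = a := fun a => LinearMap.congr_fun hg a
  have hg2 : ∀ x y : P, g (x * y) = g x + g y + θ (ρ x) * ρ y := fun x y => by
    have e : ∀ x y : P, g (m x y) = g x + g y := fun x y : Tw P => map_add g x y
    rw [← e, ← hg' (θ (ρ x) * ρ y), ← e]
    congr 1
    simp only [m, (hz _).2 (hι _), mul_zero, ι0, mul_one, mul_assoc]
    rw [hι _, mul_one]
  refine ⟨θ, θ1, hodd, exists_equiv_typeA _ ρ (fun x => g x) ha hg2 (fun x h1 h2 => ?_)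
    fun u v => ⟨r u * ι (v - g (r u)), by rw [ιρ, hr'], ?_⟩⟩
  · rw [← a2 _ (hι _) _ ((hz x).1 h1) (hι' _)] at h2 ⊢
    rw [hg'] at h2
    rw [h2, ι0]
  · simp only [hg2, (hz _).2 (hι _), hg']; ring

end H8
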