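import Mathlib

/-! Certificates by tables: homomorphisms and regular linear groups. -/

namespace H8

open Subgroup

/-- A function compatible with right multiplication by generators is a homomorphism. -/
theorem exists_hom_of_table {G M : Type*} [Group G] [Monoid M] (S : List G) (φ : G → M) (r : G → ℕ)
    (h1 : φ 1 = 1) (hm : ∀ g, ∀ s ∈ S, φ (g * s) = φ g * φ s)
    (hr : ∀ g, g = 1 ∨ ∃ s ∈ S, r (g * s⁻¹) < r g) : ∃ f : G →* M, ∀ g, f g = φ g := by
  have key : ∀ n g, r g = n → ∀ x, φ (x * g) = φ x * φ g := by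
    intro n
    induction n using Nat.strong_induction_on with
    | _ n ih =>
      intro g hg x
      rcases hr g with rfl | ⟨s, hs, h⟩
      · simp [h1]
      · have e1 := hm (g * s⁻¹) s hs
        have e2 := hm (x * (g * s⁻¹)) s hs
        rw [inv_mul_cancel_right] at e1
        rw [mul_assoc, inv_mul_cancel_right] at e2
        rw [e2, ih _ (hg ▸ h) _ rfl, e1, mul_assoc]
  exact ⟨⟨⟨φ, h1⟩, fun x g => key _ g rfl x⟩, fun _ => rfl⟩

theorem closure_eq_top_of_rank {G : Type*} [Group G] (S : Set G) (r : G → ℕ)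
    (hr : ∀ g, g = 1 ∨ ∃ s ∈ S, r (g * s) < r g) : closure S = ⊤ := by
  have key : ∀ n g, r g = n → g ∈ closure S := by
    intro n
    induction n using Nat.strong_induction_on with
    | _ n ih =>
      intro g hg
      rcases hr g with rfl | ⟨s, hs, h⟩
      · exact one_mem _
      · exact (mul_mem_cancel_right (subset_closure hs)).1 (ih _ (hg ▸ h) _ rfl)
  exact eq_top_iff.2 fun g _ => key _ g rfl

/-- the `i`-th `w`-bit entry of a table packed in a natural number -/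
def tget (T w i : ℕ) : ℕ := (T >>> (w * i)) % 2 ^ w

open Matrix in
/-- A subgroup of `GL₂(F)` acting regularly on the non-zero vectors, certified by a table. -/
theorem regular_of_table {F : Type*} [Field F] [Fintype F] [DecidableEq F]
    (S : Set (GL (Fin 2) F)) (L : List (F × F × F × F))
    (hS : ∀ g ∈ S, ∃ t ∈ L, (g : Matrix (Fin 2) (Fin 2) F) = !![t.1, t.2.1; t.2.2.1, t.2.2.2])
    (hL : ∀ t ∈ L, ∃ g ∈ S, (g : Matrix (Fin 2) (Fin 2) F) = !![t.1, t.2.1; t.2.2.1, t.2.2.2])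
    (W1 W2 : F → F → F) (r : F → F → ℕ) (h0 : W1 1 0 = 0 ∧ W2 1 0 = 1)
    (hw : ∀ x y : F, (x ≠ 0 ∨ y ≠ 0) → (∀ t ∈ L,
      W1 (t.1 * x + t.2.1 * y) (t.2.2.1 * x + t.2.2.2 * y) = t.1 * W1 x y + t.2.1 * W2 x y ∧
      W2 (t.1 * x + t.2.1 * y) (t.2.2.1 * x + t.2.2.2 * y) = t.2.2.1 * W1 x y + t.2.2.2 * W2 x y) ∧
      ((x = 1 ∧ y = 0) ∨ ∃ t ∈ L, r (t.1 * x + t.2.1 * y) (t.2.2.1 * x + t.2.2.2 * y) < r x y)) :
    Nat.card (closure S) = Fintype.card F ^ 2 - 1 ∧ ∀ v w : Fin 2 → F, v ≠ 0 → w ≠ 0 →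
      ∃! h : closure S, Matrix.mulVec ((h : GL (Fin 2) F) : Matrix (Fin 2) (Fin 2) F) v = w := by
  have hne : ∀ v : Fin 2 → F, v ≠ 0 → v 0 ≠ 0 ∨ v 1 ≠ 0 := by
    intro v hv
    by_contra h
    push Not at h
    exact hv (funext fun i => by fin_cases i <;> simp [h.1, h.2])
  have hmul : ∀ (t : F × F × F × F) (v : Fin 2 → F), !![t.1, t.2.1; t.2.2.1, t.2.2.2] *ᵥ v =
      ![t.1 * v 0 + t.2.1 * v 1, t.2.2.1 * v 0 + t.2.2.2 * v 1] := by
    intro t v
    funext i; fin_cases i <;> simp [mulVec, dotProduct, Fin.sum_univ_two]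
  have hinj : ∀ (g : GL (Fin 2) F) (v : Fin 2 → F), v ≠ 0 → (g : Matrix (Fin 2) (Fin 2) F) *ᵥ v ≠ 0 := by
    intro g v hv h
    apply hv
    have := congrArg ((g⁻¹ : GL (Fin 2) F) : Matrix (Fin 2) (Fin 2) F).mulVec h
    rwa [mulVec_mulVec, ← Units.val_mul, inv_mul_cancel, Units.val_one, one_mulVec, mulVec_zero] at this
  let w : (Fin 2 → F) → Fin 2 → F := fun v => ![W1 (v 0) (v 1), W2 (v 0) (v 1)]
  have h1 : ∀ g ∈ closure S, ∀ v : Fin 2 → F, v ≠ 0 →
      w ((g : Matrix (Fin 2) (Fin 2) F) *ᵥ v) = (g : Matrix (Fin 2) (Fin 2) F) *ᵥ w v := by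
    intro g hg
    induction hg using closure_induction with
    | mem g hg =>
      intro v hv
      obtain ⟨t, ht, e⟩ := hS g hg
      have := (hw _ _ (hne v hv)).1 t ht
      rw [e, hmul, hmul]
      simp [w, this.1, this.2]
    | one => simp
    | mul a b _ _ ha hb =>
      intro v hv
      rw [Units.val_mul, ← mulVec_mulVec, ha _ (hinj b v hv), hb v hv, mulVec_mulVec]
    | inv a _ ha =>
      intro v hv
      have := ha _ (hinj a⁻¹ v hv)
      rw [mulVec_mulVec, ← Units.val_mul, mul_inv_cancel, Units.val_one, one_mulVec] at this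
      rw [this, mulVec_mulVec, ← Units.val_mul, inv_mul_cancel, Units.val_one, one_mulVec]
  have he : (![1, 0] : Fin 2 → F) ≠ 0 := fun h => by simpa using congrFun h 0
  have h2 : ∀ g ∈ closure S, (g : Matrix (Fin 2) (Fin 2) F) *ᵥ ![1, 0] = ![1, 0] → g = 1 := by
    intro g hg h
    have h3 := h1 g hg _ he
    rw [h] at h3
    simp only [w, cons_val_zero, cons_val_one, h0.1, h0.2] at h3
    have a := congrFun h 0
    have b := congrFun h 1
    have c := congrFun h3 0
    have d := congrFun h3 1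
    simp [mulVec, dotProduct, Fin.sum_univ_two] at a b c d
    ext i j
    fin_cases i <;> fin_cases j <;> simp [a, b, ← c, ← d]
  have h3 : ∀ n, ∀ v : Fin 2 → F, v ≠ 0 → r (v 0) (v 1) = n →
      ∃ g ∈ closure S, (g : Matrix (Fin 2) (Fin 2) F) *ᵥ v = ![1, 0] := by
    intro n
    induction n using Nat.strong_induction_on with
    | _ n ih =>
      intro v hv hn
      rcases (hw _ _ (hne v hv)).2 with h | ⟨t, ht, h⟩
      · exact ⟨1, one_mem _, by
          rw [Units.val_one, one_mulVec]; funext i; fin_cases i <;> simp [h.1, h.2]⟩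
      · obtain ⟨s, hs, e⟩ := hL t ht
        obtain ⟨g, hg, h'⟩ := ih _ (hn ▸ h) _ (hinj s v hv) (by rw [e, hmul]; simp)
        exact ⟨g * s, mul_mem hg (subset_closure hs), by rw [Units.val_mul, ← mulVec_mulVec, h']⟩
  have h4 : ∀ v w : Fin 2 → F, v ≠ 0 → w ≠ 0 →
      ∃! h : closure S, Matrix.mulVec ((h : GL (Fin 2) F) : Matrix (Fin 2) (Fin 2) F) v = w := by
    intro v u hv hu
    obtain ⟨a, ha, ea⟩ := h3 _ v hv rfl
    obtain ⟨b, hb, eb⟩ := h3 _ u hu rfl
    refine ⟨⟨b⁻¹ * a, mul_mem (inv_mem hb) ha⟩, ?_, fun h hh => ?_⟩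
    · show ((b⁻¹ * a : GL (Fin 2) F) : Matrix (Fin 2) (Fin 2) F) *ᵥ v = u
      rw [Units.val_mul, ← mulVec_mulVec, ea, ← eb, mulVec_mulVec, ← Units.val_mul, inv_mul_cancel,
        Units.val_one, one_mulVec]
    · have := h2 (b * h * a⁻¹) (mul_mem (mul_mem hb h.2) (inv_mem ha)) (by
        rw [← ea, mulVec_mulVec, ← Units.val_mul, inv_mul_cancel_right, Units.val_mul,
          ← mulVec_mulVec, hh, eb, ea])
      apply Subtype.ext
      rw [mul_inv_eq_one] at this
      exact eq_inv_mul_of_mul_eq this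
  refine ⟨?_, h4⟩
  have e : closure S ≃ {v : Fin 2 → F // v ≠ 0} := Equiv.ofBijective
    (fun h => ⟨_, hinj h _ he⟩) ⟨fun a b hab => (h4 _ _ he (hinj b _ he)).unique
      (congrArg Subtype.val hab) rfl, fun v => by
        obtain ⟨h, hh⟩ := (h4 _ _ he v.2).exists
        exact ⟨h, Subtype.ext hh⟩⟩
  rw [Nat.card_congr e, Nat.card_eq_fintype_card]
  simp

end H8
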