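import Cfsg.Agent.H8.Cm2
import Cfsg.Agent.H3.Galois

/-! Primitive groups of degree `2p`: characters. -/

set_option autoImplicit false
set_option linter.style.haveILetI false
set_option linter.unusedSectionVars false

namespace H8
open Cfsg H3 Module MulAction Matrix Subgroup
open scoped ComplexConjugate

theorem one_of_sum {ι : Type*} {s : Finset ι} {m r : ι → ℕ} (h : ∑ i ∈ s, m i * r i = 1) :
    ∃ j ∈ s, m j = 1 ∧ r j = 1 ∧ ∀ i ∈ s, i ≠ j → m i = 0 ∨ r i = 0 := by
  classical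
  obtain ⟨j, hj, h0⟩ := Finset.exists_ne_zero_of_sum_ne_zero (h.trans_ne one_ne_zero)
  rw [← Finset.add_sum_erase _ _ hj] at h
  have h1 : m j * r j = 1 := by omega
  refine ⟨j, hj, Nat.eq_one_of_mul_eq_one_right h1, Nat.eq_one_of_mul_eq_one_left h1, fun i hi e =>
    mul_eq_zero.1 (Finset.sum_eq_zero_iff.1 (show ∑ i ∈ s.erase j, m i * r i = 0 by omega) i
      (Finset.mem_erase.2 ⟨e, hi⟩))⟩

noncomputable abbrev pc (G Ω : Type*) [Group G] [MulAction G Ω] : G → ℂ :=
  fun g => (Nat.card (fixedBy Ω g) : ℂ)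

variable {G : Type*} [Group G] [Fintype G] {Ω : Type*} [Fintype Ω] [DecidableEq Ω] [MulAction G Ω]
  {p : ℕ} [hp : Fact p.Prime] {P : Subgroup G} [Fintype P]

theorem pc_one : pc G Ω 1 = Fintype.card Ω := by simp [pc]

theorem sum_mr {K : Subgroup G} [Fintype K] {f : G → ℂ} (hf : IsClassFunction G f) (l : K → ℂ) :
    classInner (fun u : K => f u) l =
      ∑ θ : IrrCharacter G, classInner f θ * classInner (fun u : K => θ.1 u) l := by
  simp_rw [← H3.inner_smul_left, ← inner_sum_left]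
  congr 1
  ext u
  simp [hf.apply_eq_sum u]

theorem inner_res_van (hP : Nat.card P = p) {f : G → ℂ} (hf : ∀ u ∈ P, u ≠ 1 → f u = 0)
    (l : P → ℂ) : p * classInner (fun u : P => f u) l = f 1 * conj (l 1) := by
  rw [← hP, card_mul_inner, Finset.sum_eq_single 1 (fun u _ e => by
    rw [hf u u.2 fun e' => e (Subtype.ext e'), zero_mul]) (by simp)]
  rfl

structure S2p (Ω : Type*) [Fintype Ω] [MulAction G Ω] (p : ℕ) (P : Subgroup G) : Prop where
  cP : Nat.card P = p
  sr : ∀ u ∈ P, u ≠ 1 → ∀ y : Ω, u • y ≠ y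
  cΩ : Fintype.card Ω = 2 * p
  prim : IsPreprimitive G Ω

structure W2p (Ω : Type*) [Fintype Ω] [MulAction G Ω] (p : ℕ) (P : Subgroup G)
    (χ : IrrCharacter G) : Prop extends S2p Ω p P where
  deg : χ.1 1 = p
  van : ∀ u ∈ P, u ≠ 1 → χ.1 u = 0
  mult : classInner (pc G Ω) χ = 1
  gal : ∀ (σ : ℂ ≃+* ℂ) g, σ (χ.1 g) = χ.1 g

namespace S2p
variable (h : S2p Ω p P)
include h

theorem ne : Nonempty Ω := Fintype.card_pos_iff.1 (by have := hp.1.pos; have := h.cΩ; omega)

theorem comm (a b : P) : a * b = b * a := by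
  haveI := isCyclic_of_prime_card h.cP
  exact mul_comm' a b

theorem res_pc (l : IrrCharacter P) : classInner (fun u : P => pc G Ω u) l = 2 := by
  apply mul_left_cancel₀ (Nat.cast_ne_zero.2 hp.1.ne_zero : (p : ℂ) ≠ 0)
  rw [inner_res_van h.cP (fun u hu e => by
    simp [pc, Set.eq_empty_of_forall_notMem (s := fixedBy Ω u) (h.sr u hu e)]), pc_one, h.cΩ,
    l.2.deg_eq_one_of_comm h.comm]
  simp [mul_comm]

theorem exists_W : IsMultiplyPretransitive G Ω 2 ∨ ∃ χ, W2p Ω p P χ := by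
  classical
  haveI := h.ne
  haveI := h.prim
  have c : IsCharacter G (pc G Ω) := isCharacter_fixedBy Ω
  choose m hm using fun θ : IrrCharacter G => c.inner_nat θ.2.isCharacter
  choose r hr using fun θ : IrrCharacter G => (θ.2.isCharacter.res P).inner_nat isCharacter_one
  let t : IrrCharacter G := ⟨_, isIrrCharacter_one⟩
  have mt : m t = 1 := Nat.cast_injective (R := ℂ) ((hm t).symm.trans (inner_perm_one.trans (by simp)))
  have rt : r t = 1 := Nat.cast_injective (R := ℂ) ((hr t).symm.trans (inner_one_one.trans (by simp)))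
  have s := (sum_mr c.isClassFunction _).symm.trans (h.res_pc ⟨_, isIrrCharacter_one⟩)
  simp only [hm, hr] at s
  rw [← Finset.add_sum_erase _ _ (Finset.mem_univ t), mt, rt] at s
  obtain ⟨χ, h1, h2, h3, h4⟩ := one_of_sum (s := Finset.univ.erase t) (m := m) (r := r)
    (by norm_cast at s; omega)
  have h1 := Finset.ne_of_mem_erase h1
  have gal : ∀ (σ : ℂ ≃+* ℂ) g, σ (χ.1 g) = χ.1 g := fun σ g => by
    let ψ : IrrCharacter G := ⟨_, χ.2.gal σ.toRingHom⟩
    have a := inner_gal (pc G Ω) χ.2.isCharacter.isGen σ.toRingHom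
    have b := inner_gal (fun u : P => χ.1 u) isCharacter_one.isGen σ.toRingHom
    simp only [map_natCast, map_one, hm, hr, h2, h3] at a b
    have a' : m ψ = 1 := Nat.cast_injective (R := ℂ) ((hm ψ).symm.trans a)
    have b' : r ψ = 1 := Nat.cast_injective (R := ℂ) ((hr ψ).symm.trans b)
    refine congrFun (congrArg Subtype.val (by_contra fun e : ψ ≠ χ => ?_)) g
    have := h4 ψ (Finset.mem_erase.2 ⟨fun e => h1 (Subtype.ext (funext fun g => σ.injective ?_)),
      Finset.mem_univ _⟩) e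
    · omega
    · exact (congrFun (congrArg Subtype.val e) g).trans (map_one σ).symm
  haveI : Nontrivial P := Finite.one_lt_card_iff_nontrivial.1 (h.cP ▸ hp.1.one_lt)
  obtain ⟨x, x1⟩ := exists_ne (1 : P)
  have ox : orderOf (x : G) = p := (orderOf_coe x).trans (orderOf_eq_prime
    (h.cP ▸ pow_card_eq_one') x1)
  have k : ∀ u ∈ P, u ≠ 1 → χ.1 u = χ.1 x := fun u hu e => by
    obtain ⟨j, hj⟩ := mem_powers_of_prime_card h.cP x1 (g' := ⟨u, hu⟩)
    obtain rfl : (x : G) ^ j = u := congrArg Subtype.val hj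
    obtain ⟨σ, hσ⟩ := exists_gal_pow_orderOf (x : G) (k := j) (by
      rw [ox]
      exact ((Nat.Prime.coprime_iff_not_dvd hp.1).2 fun d => e
        (orderOf_dvd_iff_pow_eq_one.1 (ox ▸ d))).symm)
    rw [← hσ _ χ.2.isCharacter.isGen, gal]
  obtain ⟨z, hz⟩ := exists_int_of_fixed (χ.2.isCharacter.isIntegral x) fun σ => gal σ x
  obtain ⟨d, d0, hd⟩ := χ.2.exists_deg
  have e1 := card_mul_inner (fun u : P => χ.1 u) fun _ => 1
  rw [hr, h3, ← Finset.add_sum_erase _ _ (Finset.mem_univ 1), Finset.sum_congr rfl fun u hu => by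
    rw [k u u.2 fun e => Finset.ne_of_mem_erase hu (Subtype.ext e), hz]] at e1
  simp only [OneMemClass.coe_one, hd, map_one, mul_one, Finset.sum_const, nsmul_eq_mul,
    Finset.card_erase_of_mem (Finset.mem_univ _), Finset.card_univ, ← Nat.card_eq_fintype_card, h.cP,
    Nat.cast_one, Nat.cast_pred hp.1.pos] at e1
  choose D D0 hD using fun θ : IrrCharacter G => θ.2.exists_deg
  have e2 := c.isClassFunction.apply_eq_sum 1
  simp only [pc_one, h.cΩ, hm, hD] at e2
  have le : ∀ s : Finset (IrrCharacter G), ∑ θ ∈ s, m θ * D θ ≤ 2 * p := fun s => by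
    norm_cast at e2
    exact e2 ▸ Finset.sum_le_sum_of_subset (Finset.subset_univ s)
  have Dχ : D χ = d := Nat.cast_injective (R := ℂ) ((hD χ).symm.trans hd)
  have l1 := le {χ, t}
  rw [Finset.sum_pair h1, h2, mt, Dχ] at l1
  have := D0 t
  have p2 := hp.1.two_le
  have e3 : (p : ℤ) = d + (p - 1) * z := by exact_mod_cast e1
  obtain rfl | rfl | rfl : z = 1 ∨ z = 0 ∨ z = -1 := by
    have : z < 2 := by nlinarith
    have : -2 < z := by nlinarith
    omega
  · obtain ⟨a⟩ := h.ne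
    haveI : Nontrivial Ω := Fintype.one_lt_card_iff_nontrivial.1 (by have := h.cΩ; omega)
    have d1 : d = 1 := by omega
    have i := (hm χ).trans (congrArg _ h2)
    rw [show pc G Ω = _ from card_fixedBy_eq_indFun Ω a, inner_indFun_left _ _ χ.2.isClassFunction] at i
    have j := isIrrCharacter_one.eq_of_inner_ne_zero ((χ.2.isCharacter.res _).isIrr_of_deg_one
      (hd.trans (by simp [d1]))) (by rw [i]; simp)
    have := (IsPreprimitive.isCoatom_stabilizer_of_isPreprimitive G a).2 (charKer χ.1)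
      (lt_of_le_of_ne (fun g hg => χ.2.isCharacter.mem_charKer.2 ((congrFun j ⟨g, hg⟩).symm.trans
        (by simp [hd, d1]))) fun e => h.sr x x.2 (fun e => x1 (Subtype.ext e)) a
          (e.ge (χ.2.isCharacter.mem_charKer.2 (by simp [hz, hd, d1]))))
    exact (h1 (Subtype.ext (χ.2.eq_one_of_const fun g =>
      χ.2.isCharacter.mem_charKer.1 (this.ge trivial)))).elim
  · exact .inr ⟨χ, h, hd.trans (by congr 1; omega), fun u hu e => by simp [k u hu e, hz],
      (hm χ).trans (by simp [h2]), gal⟩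
  refine .inl (is_two_pretransitive_iff.2 fun {a b c' d'} h5 h6 => ?_)
  obtain ⟨g, rfl⟩ := exists_smul_eq G a c'
  have dv := dvd_subdeg (G := G) (f := d) (fun θ hθ n1 n2 => ⟨1, by
    by_cases e : (⟨θ, hθ⟩ : IrrCharacter G) = χ
    · rw [← e] at hd
      simpa using hd
    have n3 : (⟨θ, hθ⟩ : IrrCharacter G) ≠ t := fun e => n1 (congrArg Subtype.val e)
    have := le {⟨θ, hθ⟩, χ, t}
    rw [Finset.sum_insert (by simp [e, n3]), Finset.sum_pair h1, h2, mt, Dχ] at this
    have := Nat.mul_pos (Nat.pos_of_ne_zero (Nat.cast_ne_zero.1 ((hm ⟨θ, hθ⟩).symm.trans_ne n2)))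
      (D0 ⟨θ, hθ⟩)
    omega⟩) h5.symm
  have := Set.eq_of_subset_of_ncard_le (show orbit (stabilizer G a) b ⊆ {a}ᶜ from
    fun _ ⟨k, hk⟩ e => h5 (smul_left_cancel (k : G) (k.2.trans (hk.trans e).symm))) (by
      rw [Set.ncard_compl, Set.ncard_singleton, Nat.card_eq_fintype_card, h.cΩ]
      exact le_trans (by omega) (Nat.le_of_dvd (Nat.card_pos_iff.2
        ⟨⟨_, mem_orbit_self b⟩, inferInstance⟩) dv))
  obtain ⟨k, hk⟩ := this.ge (show g⁻¹ • d' ∈ ({a}ᶜ : Set Ω) from fun e => h6 (inv_smul_eq_iff.1 e).symm)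
  exact ⟨g * k, by rw [mul_smul, k.2], by rw [mul_smul]; exact (eq_inv_smul_iff.1 hk)⟩

end S2p
end H8
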