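import Cfsg.Agent.H8.W2p

/-! Primitive groups of degree `2p`: the centraliser ring. -/

set_option autoImplicit false
set_option linter.style.haveILetI false
set_option linter.unusedSectionVars false

namespace H8
open Cfsg H3 Module MulAction Matrix Subgroup
open scoped ComplexConjugate

theorem IsCm.tf_ee_mul {G : Type*} [Group G] [Fintype G] {V : Type*} [AddCommGroup V] [Module ℂ V]
    [FiniteDimensional ℂ V] {ρ : Representation ℂ G V} {S : End ℂ V} (hS : IsCm ρ S)
    (χ : IrrCharacter G) (h : classInner (tf ρ S) χ = 0) : tf ρ (EE ρ χ * S) = 0 := funext fun x => by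
  have c := hS.cls
  have k : ∀ ψ : IrrCharacter G, ψ ≠ χ → ∑ g, conj (χ.1 g) * ψ.1 (g * x) = 0 := fun ψ e => by
    have := ψ.2.central_formula χ.2.isClassFunction.conj x
    rw [show ∑ g, conj (χ.1 g) * ψ.1 g = _ from (Finset.sum_congr rfl fun _ _ => mul_comm _ _).trans
      (card_mul_inner ..).symm, inner_irr, if_neg e] at this
    simpa [ψ.2.deg_ne_zero] using this
  have : tf ρ (EE ρ χ * S) x = ∑ g, conj (χ.1 g) * tf ρ S (g * x) := by
    simp only [tf_apply, EE, Finset.mul_sum, Finset.sum_mul, mul_smul_comm, smul_mul_assoc, map_sum,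
      map_smul, ← mul_assoc, ← map_mul ρ, smul_eq_mul]
    exact Finset.sum_congr rfl fun g _ => congrArg _ (c.mul_comm x g)
  rw [this]
  simp_rw [c.apply_eq_sum (_ * x), Finset.mul_sum, mul_left_comm (conj _)]
  rw [Finset.sum_comm]
  simp_rw [← Finset.mul_sum]
  exact Finset.sum_eq_zero fun ψ _ => by by_cases e : ψ = χ <;> simp [e, h, k]

variable {G : Type*} [Group G] [Fintype G] {Ω : Type*} [Fintype Ω] [DecidableEq Ω] [MulAction G Ω]
  {p : ℕ} [hp : Fact p.Prime] {P : Subgroup G} [Fintype P] {χ : IrrCharacter G}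

theorem inner_tf_transpose {M : Matrix Ω Ω ℂ} (h : MInv G M) (hr : ∀ x y, conj (M x y) = M x y)
    {θ : G → ℂ} (hθ : IsCharacter G θ) : classInner (tf (permRep ℂ G Ω) (toLin' Mᵀ)) θ =
      conj (classInner (tf (permRep ℂ G Ω) (toLin' M)) θ) := by
  rw [H3.inner_conj_symm, ← mul_right_inj' (card_ne_zero G), card_mul_inner, card_mul_inner]
  refine Fintype.sum_equiv (Equiv.inv G) _ _ fun g => ?_
  simp only [tf_toLin', Equiv.inv_apply, hθ.map_inv, map_sum, hr, mul_comm, transpose_apply, inv_inv]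
  congr 1
  exact Finset.sum_congr rfl fun x _ => by rw [← h g, smul_inv_smul]

theorem fourier (hP : Nat.card P = p) {ω : P →* ℂˣ} (hω : ω ≠ 1) {f : P → ℤ}
    (h : ∑ u, (f u : ℂ) * ω u = 0) (u : P) : f u = f 1 := by
  classical
  obtain ⟨x, hx⟩ := DFunLike.ne_iff.1 hω
  have x1 : x ≠ 1 := by rintro rfl; simp at hx
  have ox : orderOf x = p := orderOf_eq_prime (hP ▸ pow_card_eq_one') x1
  have b : Function.Bijective fun i : Fin p => x ^ i.1 := (Fintype.bijective_iff_injective_and_card _).2
    ⟨fun i j e => Fin.ext (pow_injOn_Iio_orderOf (ox ▸ i.2) (ox ▸ j.2) e), by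
      rw [Fintype.card_fin, ← hP, Nat.card_eq_fintype_card]⟩
  have z : IsPrimitiveRoot (ω x : ℂ) p := by
    rw [← orderOf_eq_prime (x := (ω x : ℂ)) (p := p) (by
      rw [← Units.val_pow_eq_pow_val, ← map_pow, ← ox, pow_orderOf_eq_one, map_one, Units.val_one])
      (by simpa using hx)]
    exact IsPrimitiveRoot.orderOf _
  have := (z.sum_eq_zero_iff_forall_eq_int hp.1 fun i => f (x ^ i.1)).1
    (by simpa using (b.sum_comp fun u => (f u : ℂ) * ω u).trans h)
  obtain ⟨i, rfl⟩ := b.2 u
  simpa using this i ⟨0, hp.1.pos⟩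

theorem S2p.exists_reps (h : S2p Ω p P) :
    ∃ y : Bool → Ω, Function.Bijective fun t : P × Bool => (t.1 : G) • y t.2 := by
  obtain ⟨a⟩ := h.ne
  obtain ⟨b, hb⟩ : ∃ b, ∀ u : P, (u : G) • a ≠ b := by
    by_contra! k
    have := Fintype.card_le_of_surjective _ k
    have := hp.1.pos
    rw [h.cΩ, ← Nat.card_eq_fintype_card, h.cP] at *
    omega
  refine ⟨fun j => cond j a b, (Fintype.bijective_iff_injective_and_card _).2 ⟨?_, by
    rw [Fintype.card_prod, h.cΩ, ← Nat.card_eq_fintype_card, h.cP, Fintype.card_bool, mul_comm]⟩⟩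
  have k : ∀ (u v : P) (y : Ω), (u : G) • y = (v : G) • y → u = v := fun u v y e => by_contra fun n =>
    h.sr _ (v⁻¹ * u).2 (fun e => n (inv_mul_eq_one.1 (Subtype.ext e)).symm) y
      (by simp [mul_smul, e])
  rintro ⟨u, _ | _⟩ ⟨v, _ | _⟩ e
  · rw [k u v _ e]
  · exact (hb (u⁻¹ * v) (by simpa [mul_smul, inv_smul_eq_iff] using e.symm)).elim
  · exact (hb (v⁻¹ * u) (by simpa [mul_smul, inv_smul_eq_iff] using e)).elim
  · rw [k u v _ e]

theorem hat_mul {y : Bool → Ω} (hy : Function.Bijective fun t : P × Bool => (t.1 : G) • y t.2)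
    (ω : P →* ℂˣ) (M : Matrix Ω Ω ℂ) {N : Matrix Ω Ω ℂ} (hN : MInv G N) (j k : Bool) :
    ∑ u : P, (M * N) (y j) ((u : G) • y k) * ω u = ∑ l, (∑ u : P, M (y j) ((u : G) • y l) * ω u) *
      ∑ u : P, N (y l) ((u : G) • y k) * ω u := by
  simp only [mul_apply, Finset.sum_mul]
  simp only [Finset.mul_sum]
  rw [Finset.sum_comm, ← hy.sum_comp, Fintype.sum_prod_type_right]
  refine Finset.sum_congr rfl fun l _ => Finset.sum_congr rfl fun v _ =>
    Fintype.sum_equiv (Equiv.mulLeft v⁻¹) _ _ fun u => ?_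
  rw [← hN (v : G) (y l)]
  simp [mul_smul]
  field_simp

namespace W2p
variable (h : W2p Ω p P χ)
include h

theorem res_chi (l : IrrCharacter P) : classInner (fun u : P => χ.1 u) l = 1 := by
  apply mul_left_cancel₀ (Nat.cast_ne_zero.2 hp.1.ne_zero : (p : ℂ) ≠ 0)
  rw [inner_res_van h.cP h.van, h.deg, l.2.deg_eq_one_of_comm h.comm, map_one]

theorem uniq (l : IrrCharacter P) : ∃ j ≠ χ, classInner (pc G Ω) j = 1 ∧
    classInner (fun u : P => j.1 u) l = 1 ∧ ∀ i ≠ χ, i ≠ j →
      classInner (pc G Ω) i = 0 ∨ classInner (fun u : P => i.1 u) l = 0 := by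
  classical
  have c : IsCharacter G (pc G Ω) := isCharacter_fixedBy Ω
  choose m hm using fun θ : IrrCharacter G => c.inner_nat θ.2.isCharacter
  choose r hr using fun θ : IrrCharacter G => (θ.2.isCharacter.res P).inner_nat l.2.isCharacter
  have s := (sum_mr c.isClassFunction _).symm.trans (h.res_pc l)
  rw [← Finset.add_sum_erase _ _ (Finset.mem_univ χ), h.mult, h.res_chi] at s
  simp only [hm, hr] at s ⊢
  obtain ⟨j, h1, h2, h3, h4⟩ := one_of_sum (s := Finset.univ.erase χ) (m := m) (r := r)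
    (by norm_cast at s; omega)
  exact ⟨j, Finset.ne_of_mem_erase h1, by simp [h2], by simp [h3], fun i a b => by
    simpa using h4 i (by simp [a]) b⟩

theorem mf (θ : G → ℂ) (hθ : IsIrrCharacter G θ) : classInner (permRep ℂ G Ω).character θ = 0 ∨
    classInner (permRep ℂ G Ω).character θ = 1 := by
  rw [char_perm]
  obtain ⟨l, hl, e⟩ := exists_irr_under P hθ
  obtain ⟨j, -, h1, -, h2⟩ := h.uniq ⟨l, hl⟩
  by_cases a : (⟨θ, hθ⟩ : IrrCharacter G) = χ
  · exact .inr (by subst a; exact h.mult)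
  by_cases b : (⟨θ, hθ⟩ : IrrCharacter G) = j
  · exact .inr (by subst b; exact h1)
  exact .inl ((h2 _ a b).resolve_right e)

theorem norm {f : G → ℂ} (hf : IsClassFunction G f)
    (h0 : ∀ θ : IrrCharacter G, classInner (pc G Ω) θ = 0 → classInner f θ = 0) :
    ∑ θ : IrrCharacter G, θ.1 1 * classInner f θ * conj (classInner f θ) =
      p * classInner f χ * conj (classInner f χ) + classInner
        (fun u : P => f u - classInner f χ * χ.1 u) (fun u => f u - classInner f χ * χ.1 u) := by
  classical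
  have k : ∀ l : IrrCharacter P, classInner (fun u : P => f u - classInner f χ * χ.1 u) l *
      conj (classInner (fun u : P => f u - classInner f χ * χ.1 u) l) = ∑ θ ∈ Finset.univ.erase χ,
        classInner (fun u : P => θ.1 u) l * classInner f θ * conj (classInner f θ) := fun l => by
    obtain ⟨j, h1, -, h3, h4⟩ := h.uniq l
    have a := (inner_sub_left (fun u : P => f u) (classInner f χ • fun u : P => χ.1 u) l).trans (by
      rw [H3.inner_smul_left, sum_mr hf, ← Finset.add_sum_erase _ _ (Finset.mem_univ χ),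
        add_sub_cancel_left, Finset.sum_eq_single_of_mem j (by simp [h1]) fun i hi e => by
          rcases h4 i (Finset.ne_of_mem_erase hi) e with e | e <;> simp [e, h0], h3, mul_one])
    rw [show classInner (fun u : P => f u - classInner f χ * χ.1 u) l = _ from a,
      Finset.sum_eq_single_of_mem j (by simp [h1]) fun i hi e => by
        rcases h4 i (Finset.ne_of_mem_erase hi) e with e | e <;> simp [e, h0], h3, one_mul]
  rw [(isClassFunction_of_comm h.comm _).inner_eq_sum, Finset.sum_congr rfl fun l _ => k l,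
    Finset.sum_comm, ← Finset.add_sum_erase _ _ (Finset.mem_univ χ), h.deg]
  congr 1
  refine Finset.sum_congr rfl fun θ _ => ?_
  rw [← Finset.sum_mul, ← Finset.sum_mul,
    show θ.1 1 = _ from (θ.2.isClassFunction.res P).apply_eq_sum 1]
  simp only [fun l : IrrCharacter P => l.2.deg_eq_one_of_comm h.comm, mul_one]

theorem res_one {f : G → ℂ} (hf : IsClassFunction G f)
    (h0 : ∀ θ : IrrCharacter G, classInner (pc G Ω) θ = 0 → classInner f θ = 0) :
    classInner (fun u : P => f u) (fun _ => 1) = classInner f (fun _ => 1) + classInner f χ := by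
  classical
  haveI := h.ne
  haveI := h.prim
  obtain ⟨j, h1, -, h3, h4⟩ := h.uniq ⟨_, isIrrCharacter_one⟩
  have n : (⟨_, isIrrCharacter_one⟩ : IrrCharacter G) ≠ χ := fun e => by
    have := h.deg
    rw [← e] at this
    exact hp.1.ne_one (by simpa using this.symm)
  obtain rfl : ⟨_, isIrrCharacter_one⟩ = j := by_contra fun e => by
    rcases h4 _ n e with e | e
    · exact one_ne_zero (inner_perm_one.symm.trans e)
    · exact one_ne_zero (inner_one_one.symm.trans e)
  rw [sum_mr hf, ← Finset.add_sum_erase _ _ (Finset.mem_univ χ), h.res_chi ⟨_, isIrrCharacter_one⟩,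
    Finset.sum_eq_single_of_mem _ (Finset.mem_erase.2 ⟨h1, Finset.mem_univ _⟩) fun i hi e => by
      rcases h4 i (Finset.ne_of_mem_erase hi) e with e | e <;> simp [e, h0], h3]
  ring

end W2p
end H8
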