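import Cfsg.Agent.H8.W2q

/-! Primitive groups of degree `2p`: the subdegrees. -/

set_option autoImplicit false
set_option linter.style.haveILetI false
set_option linter.unusedSectionVars false

namespace H8
open Cfsg H3 Module MulAction Matrix Subgroup
open scoped ComplexConjugate

theorem two_of_sum {ι : Type*} {s : Finset ι} {L : ι → ℤ} (h0 : ∀ i ∈ s, L i ≠ 0 ∧ L i ≠ -1)
    (h1 : ∑ i ∈ s, L i = -1) (h2 : ∑ i ∈ s, (L i : ℝ) / (2 * L i + 1) = 1) : s.card = 2 ∧
      ∃ a : ℕ, 0 < a ∧ (∀ i ∈ s, L i = a ∨ L i = -(a + 1)) ∧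
        ∑ i ∈ s, L i * (2 * L i + 1) = (2 * a + 1) ^ 2 := by
  classical
  obtain ⟨j, hj, j0⟩ : ∃ j ∈ s, L j < 0 := by
    by_contra! k
    have := Finset.sum_nonneg k
    omega
  have k : ∀ i ∈ s, (1 / 3 : ℝ) ≤ L i / (2 * L i + 1) ∧
      (L i < 0 → (1 / 2 : ℝ) ≤ L i / (2 * L i + 1)) := fun i hi => by
    obtain ⟨a, b⟩ := h0 i hi
    rcases lt_or_gt_of_ne a with c | c
    · have : (L i : ℝ) ≤ -2 := by exact_mod_cast (by omega : L i ≤ -2)
      have : (1 / 2 : ℝ) ≤ L i / (2 * L i + 1) := by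
        rw [le_div_iff_of_neg (by linarith)]; linarith
      exact ⟨by linarith, fun _ => this⟩
    · have : (1 : ℝ) ≤ L i := by exact_mod_cast c
      exact ⟨by rw [le_div_iff₀ (by linarith)]; linarith, fun e => by omega⟩
  rw [← Finset.add_sum_erase _ _ hj] at h1 h2
  have a := Finset.card_nsmul_le_sum (s.erase j) _ _ fun i hi => (k i (Finset.mem_of_mem_erase hi)).1
  have b := (k j hj).2 j0
  have c : (s.erase j).card < 2 := by
    rw [nsmul_eq_mul] at a
    exact_mod_cast (by linarith : ((s.erase j).card : ℝ) < 2)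
  have d : (s.erase j).card ≠ 0 := fun e => by
    rw [Finset.card_eq_zero.1 e] at h1
    exact (h0 j hj).2 (by simpa using h1)
  obtain ⟨i, hi⟩ := Finset.card_eq_one.1 (show (s.erase j).card = 1 by omega)
  have e := Finset.insert_erase hj
  have n : j ≠ i := fun e => by simpa [e] using hi.ge (Finset.mem_singleton_self i)
  rw [hi] at e h1
  subst e
  obtain ⟨a, ha⟩ := Int.eq_ofNat_of_zero_le (show 0 ≤ L i by simp at h1; omega)
  have := h0 i (by simp)
  have lj : L j = -(a + 1) := by simp at h1; omega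
  refine ⟨Finset.card_pair n, a, by omega, by simp [ha, lj], ?_⟩
  rw [show insert j {i} = ({j, i} : Finset ι) from rfl, Finset.sum_pair n, ha, lj]
  ring

variable {G : Type*} [Group G] [Fintype G] {Ω : Type*} [Fintype Ω] [DecidableEq Ω] [MulAction G Ω]
  {p : ℕ} [hp : Fact p.Prime] {P : Subgroup G} [Fintype P] {χ : IrrCharacter G} {y : Bool → Ω}

noncomputable abbrev em (Ω : Type*) [Fintype Ω] [DecidableEq Ω] [MulAction G Ω] (χ : G → ℂ) :
    Matrix Ω Ω ℂ := LinearMap.toMatrix' (EE (permRep ℂ G Ω) χ)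

theorem em_inv (χ : IrrCharacter G) : MInv G (em Ω χ.1) := (ee_cm χ.2.isClassFunction).inv

theorem tr_toLin' (M N : Matrix Ω Ω ℂ) :
    LinearMap.trace ℂ _ (toLin' M * toLin' N) = ∑ x, ∑ y, M x y * N y x := by
  rw [End.mul_eq_comp, ← toLin'_mul, Matrix.trace_toLin'_eq]
  rfl

theorem adj_cases (a b x z : Ω) : adj G a b x z = 0 ∨
    adj G a b x z = 1 ∧ ∀ M : Matrix Ω Ω ℂ, MInv G M → M x z = M a b := by
  by_cases e : ∃ g : G, g • a = x ∧ g • b = z
  · refine .inr ⟨if_pos e, fun M h => ?_⟩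
    obtain ⟨g, rfl, rfl⟩ := e
    exact h g a b
  · exact .inl (if_neg e)

namespace W2p
variable (h : W2p Ω p P χ)
include h

theorem real (g : G) : conj (χ.1 g) = χ.1 g := h.gal (starRingAut (R := ℂ)) g

theorem em_symm (a b : Ω) : em Ω χ.1 a b = em Ω χ.1 b a := by
  have := ee_transpose (Ω := Ω) χ.2.isCharacter
  rw [funext h.real] at this
  exact (congrFun (congrFun this a) b).symm

theorem em_int (a b : Ω) : ∃ z : ℤ, em Ω χ.1 a b = z := by
  choose z hz using fun g => exists_int_of_fixed (χ.2.isCharacter.isIntegral g) fun σ => h.gal σ g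
  exact ⟨∑ g, if g • b = a then z g else 0, (ee_apply ..).trans (by simp [hz])⟩

variable (hy : Function.Bijective fun t : P × Bool => (t.1 : G) • y t.2)
include hy

theorem tf_res {M : Matrix Ω Ω ℂ} (hM : MInv G M) (u : P) : tf (permRep ℂ G Ω) (toLin' M) u =
    p * (M (y true) ((u : G) • y true) + M (y false) ((u : G) • y false)) := by
  have : ∀ (v : P) z, M ((u : G)⁻¹ • (v : G) • z) ((v : G) • z) = M z ((u : G) • z) := fun v z => by
    rw [← hM u, smul_inv_smul, smul_smul, show (u : G) * v = v * u from congrArg Subtype.val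
      (h.comm u v), mul_smul, hM]
  rw [tf_toLin', ← hy.sum_comp, Fintype.sum_prod_type]
  simp [this, ← Nat.card_eq_fintype_card, h.cP, mul_add]

theorem em_opp {u : P} (hu : u ≠ 1) :
    em Ω χ.1 (y true) ((u : G) • y true) + em Ω χ.1 (y false) ((u : G) • y false) = 0 := by
  have := h.tf_res hy (em_inv χ) u
  rw [toLin'_toMatrix', tf_ee, Pi.smul_apply, h.van u u.2 fun e => hu (Subtype.ext e), smul_zero] at this
  exact (mul_eq_zero.1 this.symm).resolve_left (Nat.cast_ne_zero.2 hp.1.ne_zero)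

theorem orb {a b : Ω} (hab : b ≠ a) : ∃ (L : ℤ) (s : Bool → P → ℤ),
    (∀ j (u : P), adj G a b (y j) ((u : G) • y j) = s j u) ∧
    classInner (tf (permRep ℂ G Ω) (toLin' (adj G a b))) χ = L ∧
    2 * p * Nat.card (orbit (stabilizer G a) b) * em Ω χ.1 a b = Nat.card G * L ∧
    ∑ u, (s true u + s false u) = Nat.card (orbit (stabilizer G a) b) + L ∧
    ∑ u, (s true u + s false u) ^ 2 + 2 * L ^ 2 = 2 * Nat.card (orbit (stabilizer G a) b) := by
  classical
  haveI := h.ne
  haveI := h.prim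
  have p0 : (p : ℂ) ≠ 0 := Nat.cast_ne_zero.2 hp.1.ne_zero
  choose s hs using fun j (u : P) => show ∃ z : ℤ, adj G a b (y j) ((u : G) • y j) = z from
    (adj_cases a b _ _).elim (fun e => ⟨0, e.trans (by simp)⟩) fun e => ⟨1, e.1.trans (by simp)⟩
  have i := adj_inv (G := G) a b
  have c := i.cm
  have h0 : ∀ θ : IrrCharacter G, classInner (pc G Ω) θ = 0 →
      classInner (tf (permRep ℂ G Ω) (toLin' (adj G a b))) θ = 0 := fun θ e =>
    (c.integral (adj_integral a b) θ.2.isCharacter).2 (by rwa [char_perm])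
  have t := fun u => h.tf_res hy i u
  simp only [hs] at t
  set n := Nat.card (orbit (stabilizer G a) b)
  have e1 := (card_mul_inner ..).symm.trans (congrArg ((Nat.card P : ℂ) * ·) (h.res_one c.cls h0))
  simp only [i.inner_one (adj_row a b), t, map_one, mul_one, h.cP,
    ← Finset.mul_sum, mul_right_inj' p0] at e1
  obtain ⟨L, hL⟩ : ∃ L : ℤ, classInner (tf (permRep ℂ G Ω) (toLin' (adj G a b))) χ = L :=
    ⟨∑ u, (s true u + s false u) - n, by push_cast; rw [e1]; simp [n]⟩
  refine ⟨L, s, hs, hL, ?_, by rw [hL] at e1; exact_mod_cast e1, ?_⟩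
  · rw [← hL, ← tr_ee_mul, LinearMap.trace_mul_comm, ← toLin'_toMatrix' (EE _ _), tr_toLin']
    have : ∀ x z, adj G a b x z * em Ω χ.1 z x = adj G a b x z * em Ω χ.1 a b := fun x z => by
      rcases adj_cases (G := G) a b x z with e | e
      · simp [e]
      · rw [h.em_symm, e.2 _ (em_inv χ)]
    simp only [this, ← Finset.sum_mul, adj_row]
    simp [h.cΩ, n]
  have r : ∀ x z, conj (adj G a b x z) = adj G a b x z := fun x z => by
    rcases adj_cases (G := G) a b x z with e | e <;> simp [e]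
  have e2 := c.tr_mul h.mf (toLin' (adj G a b)ᵀ)
  have : ∀ x z, adj G a b x z * adj G a b x z = adj G a b x z := fun x z => by
    rcases adj_cases (G := G) a b x z with e | e <;> simp [e]
  simp only [tr_toLin', transpose_apply, this, adj_row, fun θ : IrrCharacter G =>
    inner_tf_transpose i r θ.2.isCharacter] at e2
  rw [h.norm c.cls h0, ← mul_right_inj' p0, mul_add, ← h.cP, card_mul_inner, h.cP,
    ← Finset.add_sum_erase _ _ (Finset.mem_univ (1 : P)), Finset.sum_congr (s₁ := Finset.univ.erase (1 : P))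
      rfl fun u hu => by
        rw [h.van u u.2 fun e => Finset.ne_of_mem_erase hu (Subtype.ext e), t]] at e2
  have s1 : ∀ j, s j 1 = 0 := fun j => Int.cast_injective (α := ℂ) (by
    rw [← hs]; simp [adj_diag hab])
  rw [← Finset.add_sum_erase _ _ (Finset.mem_univ 1), s1, s1]
  rw [t, s1, s1, hL] at e2
  simp only [OneMemClass.coe_one, h.deg, mul_zero, sub_zero, map_mul, map_add, map_sub, map_natCast,
    map_intCast, Finset.sum_const, Finset.card_univ, h.cΩ, nsmul_eq_mul] at e2
  apply Int.cast_injective (α := ℂ)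
  apply mul_left_cancel₀ (mul_ne_zero p0 p0)
  push_cast at e2 ⊢
  rw [mul_add, mul_add, Finset.mul_sum, Finset.sum_congr rfl fun u _ => show _ = p * (s true u +
    s false u : ℂ) * (p * (s true u + s false u)) by ring]
  linear_combination -e2

end W2p
end H8
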