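import Cfsg.Agent.H8.W2r
import Cfsg.Agent.H8.Perm3
import Cfsg.Agent.H3.IndHom
import Cfsg.Agent.S0707

/-! Wielandt's theorem on primitive groups of degree `2p`. -/

set_option autoImplicit false
set_option linter.style.haveILetI false
set_option linter.unusedSectionVars false

namespace H8
open Cfsg H3 Module MulAction Matrix Subgroup
open scoped ComplexConjugate

theorem subdeg_ne_one {G Ω : Type*} [Group G] [MulAction G Ω] [Finite G] (h : IsPreprimitive G Ω)
    (hΩ : ¬ (Nat.card Ω).Prime) {a b : Ω} (hab : b ≠ a) :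
    Nat.card (orbit (stabilizer G a) b) ≠ 1 := fun e => by
  haveI := isPreprimitive_range h
  have l : stabilizer G a ≤ stabilizer G b := fun g hg => congrArg Subtype.val
    ((Nat.card_eq_one_iff_unique.1 e).1.elim ⟨g • b, ⟨g, hg⟩, rfl⟩ ⟨b, mem_orbit_self b⟩)
  have := eq_of_le_of_card_ge l (Nat.le_of_eq (Nat.eq_of_mul_eq_mul_right
    (Nat.pos_of_ne_zero (stabilizer G a).index_ne_zero_of_finite) (by
      rw [card_mul_index, index_stabilizer_of_transitive, ← index_stabilizer_of_transitive G b,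
        card_mul_index])))
  refine Agent.S0707.result (toPermHom G Ω).range (.inl hΩ) hab (Subgroup.ext ?_)
  rintro ⟨_, g, rfl⟩
  exact (Subgroup.ext_iff.1 this g).symm

theorem sd_pos {K Ω : Type*} [Group K] [MulAction K Ω] [Finite Ω] (b : Ω) :
    0 < Nat.card (orbit K b) := Nat.card_pos_iff.2 ⟨⟨_, mem_orbit_self b⟩, inferInstance⟩

theorem sum_orbits {K Ω : Type*} [Group K] [MulAction K Ω] [Fintype Ω]
    [Fintype (orbitRel.Quotient K Ω)] {F : Ω → ℂ} (hF : ∀ (k : K) x, F (k • x) = F x) :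
    ∑ x, F x = ∑ q : orbitRel.Quotient K Ω, Nat.card (orbit K q.out) * F q.out := by
  classical
  rw [← Finset.sum_fiberwise Finset.univ (Quotient.mk'' : Ω → orbitRel.Quotient K Ω)]
  refine Finset.sum_congr rfl fun q _ => ?_
  have k : ∀ x, Quotient.mk'' x = q ↔ x ∈ orbit K q.out := fun x => by
    rw [← orbitRel_apply, ← Quotient.eq'', Quotient.out_eq']
  rw [Finset.sum_congr rfl fun x hx => show F x = F q.out by
    obtain ⟨g, rfl⟩ := (k x).1 (Finset.mem_filter.1 hx).2; exact hF ..]
  simp [k, Fintype.card_subtype]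

variable {G : Type*} [Group G] [Fintype G] {Ω : Type*} [Fintype Ω] [DecidableEq Ω] [MulAction G Ω]
  {p : ℕ} [hp : Fact p.Prime] {P : Subgroup G} [Fintype P] {χ : IrrCharacter G} {y : Bool → Ω}

theorem sum_const_of_inv [IsPretransitive G Ω] {F : Ω → ℂ} (h : ∀ (g : G) x, F (g • x) = F x)
    (a : Ω) : ∑ x, F x = Fintype.card Ω * F a := by
  rw [Finset.sum_congr rfl fun x _ => show F x = F a by
    obtain ⟨g, rfl⟩ := exists_smul_eq G a x; exact h ..]
  simp

theorem MInv.row {M N : Matrix Ω Ω ℂ} (h : MInv G M) (k : MInv G N) (g : G) (x : Ω) :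
    ∑ z, M (g • x) z * N z (g • x) = ∑ z, M x z * N z x :=
  (Fintype.sum_equiv (MulAction.toPerm g) _ _ fun z => by simp [h g, k g]).symm

namespace W2p
variable (h : W2p Ω p P χ)
include h

theorem tf_em : tf (permRep ℂ G Ω) (toLin' (em Ω χ.1)) = (Nat.card G / p : ℂ) • χ.1 := by
  rw [toLin'_toMatrix', tf_ee, char_perm, h.mult, h.deg, mul_one]

theorem em_diag (a : Ω) : 2 * p * em Ω χ.1 a a = Nat.card G := by
  haveI := h.prim
  have p0 : (p : ℂ) ≠ 0 := Nat.cast_ne_zero.2 hp.1.ne_zero
  have := congrFun h.tf_em 1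
  rw [tf_toLin', inv_one, Pi.smul_apply, h.deg, smul_eq_mul, div_mul_cancel₀ _ p0] at this
  simp only [one_smul] at this
  rw [← this, sum_const_of_inv (G := G) (fun g x => em_inv χ g x x) a, h.cΩ]
  simp

theorem em_row (a : Ω) : ∑ b, em Ω χ.1 a b = 0 := by
  haveI := h.prim
  haveI := h.ne
  have n : χ ≠ ⟨_, isIrrCharacter_one⟩ := fun e => by
    have := h.deg
    rw [e] at this
    exact hp.1.ne_one (by simpa using this.symm)
  have := (em_inv χ).inner_one (k := ∑ b, em Ω χ.1 a b) fun x => by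
    obtain ⟨g, rfl⟩ := exists_smul_eq G a x
    exact (Fintype.sum_equiv (MulAction.toPerm g) _ _ fun z => (em_inv χ g a z).symm).symm
  rw [← this, h.tf_em, H3.inner_smul_left, (inner_irr χ ⟨_, isIrrCharacter_one⟩).trans (if_neg n),
    mul_zero]

theorem em_sq (a : Ω) : 2 * p ^ 2 * ∑ b, em Ω χ.1 a b ^ 2 = (Nat.card G : ℂ) ^ 2 := by
  haveI := h.prim
  have p0 : (p : ℂ) ≠ 0 := Nat.cast_ne_zero.2 hp.1.ne_zero
  have := tr_ee_mul (ρ := permRep ℂ G Ω) χ.1 (toLin' (em Ω χ.1))
  rw [h.tf_em, ← toLin'_toMatrix' (EE _ _), tr_toLin', H3.inner_smul_left, inner_irr, if_pos rfl,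
    sum_const_of_inv ((em_inv χ).row (em_inv χ)) a, h.cΩ] at this
  simp only [h.em_symm _ a, ← sq] at this
  field_simp at this
  push_cast at this
  linear_combination this

theorem sd_ne {a b : Ω} (hab : b ≠ a) : Nat.card (orbit (stabilizer G a) b) ≠ 1 :=
  subdeg_ne_one h.prim (by
    rw [Nat.card_eq_fintype_card, h.cΩ]
    exact Nat.not_prime_mul (by simp) hp.1.ne_one) hab

variable (hy : Function.Bijective fun t : P × Bool => (t.1 : G) • y t.2)
include hy

theorem em_ne {a b : Ω} (hab : b ≠ a) : em Ω χ.1 a b ≠ 0 := fun e0 => by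
  classical
  haveI := h.prim
  have p0 : (p : ℂ) ≠ 0 := Nat.cast_ne_zero.2 hp.1.ne_zero
  obtain ⟨L, s, hs, hL, e1, e2, e3⟩ := h.orb hy hab
  obtain rfl : L = 0 := by simpa [e0, card_ne_zero G] using e1
  have s01 : ∀ j u, s j u = 0 ∨ s j u = 1 := fun j u => (adj_cases (G := G) a b _ _).imp
    (fun e => by exact_mod_cast (hs j u).symm.trans e) fun e => by
      exact_mod_cast (hs j u).symm.trans e.1
  have st : ∀ u, s true u = s false u := fun u => by
    have := (Finset.sum_eq_zero_iff_of_nonneg (s := Finset.univ) (f := fun u =>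
      2 * (s true u + s false u) - (s true u + s false u) ^ 2) fun u _ => by
        rcases s01 true u with e | e <;> rcases s01 false u with e' | e' <;> simp [e, e']).1 (by
          rw [Finset.sum_sub_distrib, ← Finset.mul_sum]; omega) u (Finset.mem_univ _)
    rcases s01 true u with e | e <;> rcases s01 false u with e' | e' <;> simp_all
  have c := (adj_inv (G := G) a b).cm
  have z : EE (permRep ℂ G Ω) χ.1 * toLin' (adj G a b) = 0 := by
    have i : IsCm (permRep ℂ G Ω) (EE (permRep ℂ G Ω) χ.1 * toLin' (adj G a b)) := fun g => by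
      rw [mul_assoc, c g, ← mul_assoc, ee_cm χ.2.isClassFunction g, mul_assoc]
    apply LinearMap.toMatrix'.injective
    refine Matrix.ext_iff_trace_mul_right.2 fun T => ?_
    have := i.tr_mul h.mf (toLin' T)
    rw [c.tf_ee_mul χ (by simpa using hL), ← toLin'_toMatrix' (EE _ _ * _), End.mul_eq_comp _ (toLin' T),
      ← toLin'_mul, Matrix.trace_toLin'_eq] at this
    simpa [classInner] using this
  have z1 : em Ω χ.1 * adj G a b = 0 := by
    simpa [LinearMap.toMatrix'_mul] using congrArg LinearMap.toMatrix' z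
  have z2 : adj G a b * em Ω χ.1 = 0 := by
    simpa [LinearMap.toMatrix'_mul] using congrArg LinearMap.toMatrix' ((c.ee _).trans z)
  obtain ⟨ω, hω⟩ : ∃ ω : P →* ℂˣ, ω ≠ 1 := by
    haveI := Finite.one_lt_card_iff_nontrivial.1
      ((card_lin_of_comm' h.comm).trans h.cP ▸ hp.1.one_lt : 1 < Nat.card (P →* ℂˣ))
    exact exists_ne 1
  have a1 := hat_mul hy ω (em Ω χ.1) (adj_inv a b) true true
  have a2 := hat_mul hy ω (adj G a b) (em_inv χ) false false
  simp only [z1, z2, Fintype.sum_bool, Matrix.zero_apply, zero_mul, Finset.sum_const_zero, hs, ← st] at a1 a2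
  have s1 : s true 1 = 0 := Int.cast_injective (α := ℂ) (by rw [← hs]; simp [adj_diag hab])
  have n0 : ∑ u, (s true u : ℂ) * ω u ≠ 0 := fun e => by
    have := sd_pos (K := stabilizer G a) b
    simp only [← st, fourier h.cP hω e, s1, add_zero, Finset.sum_const_zero] at e2
    omega
  choose E hE using h.em_int
  have f := fourier h.cP hω (f := fun u => E (y true) ((u : G) • y true) -
    E (y false) ((u : G) • y false)) (by
      simp only [Int.cast_sub, ← hE, sub_mul, Finset.sum_sub_distrib]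
      exact mul_left_cancel₀ n0 (by linear_combination a2 - a1))
  have d : ∀ j (u : P), u ≠ 1 → em Ω χ.1 (y j) ((u : G) • y j) = 0 := fun j u hu => by
    have a := congrArg (Int.cast : ℤ → ℂ) (f u)
    have b := h.em_opp hy hu
    have d1 := (h.em_diag (y true)).trans (h.em_diag (y false)).symm
    simp only [Int.cast_sub, ← hE, OneMemClass.coe_one, one_smul,
      mul_left_cancel₀ (mul_ne_zero two_ne_zero p0) d1] at a
    cases j
    · linear_combination (b - a) / 2
    · linear_combination (b + a) / 2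
  obtain ⟨b', hb, e'⟩ : ∃ b' ≠ a, em Ω χ.1 a b' ≠ 0 := by
    by_contra! k
    have := h.em_diag a
    rw [← Finset.sum_eq_single a (s := Finset.univ) (f := em Ω χ.1 a) (fun b _ e => k b e) (by simp),
      h.em_row] at this
    exact card_ne_zero G (by simpa using this.symm)
  obtain ⟨L, s, hs, -, -, e2, e3⟩ := h.orb hy hb
  have : ∀ j u, s j u = 0 := fun j u => Int.cast_injective (α := ℂ) (by
    rw [← hs, Int.cast_zero]
    by_cases hu : u = 1
    · simp [hu, adj_diag hb]
    exact (adj_cases ..).resolve_right fun e => e' ((e.2 _ (em_inv χ)).symm.trans (d j u hu)))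
  have := h.sd_ne hb
  have := sd_pos (K := stabilizer G a) b'
  simp only [*, add_zero, Finset.sum_const_zero, zero_pow two_ne_zero] at e2 e3
  nlinarith [show (2 : ℤ) ≤ Nat.card (orbit (stabilizer G a) b') by omega]

theorem subdeg {a b : Ω} (hab : b ≠ a) : ∃ L : ℤ, (L ≠ 0 ∧ L ≠ -1) ∧
    Nat.card (orbit (stabilizer G a) b) = L * (2 * L + 1) ∧
    2 * p * (2 * L + 1) * em Ω χ.1 a b = Nat.card G := by
  obtain ⟨L, s, hs, -, e1, e2, e3⟩ := h.orb hy hab
  have e0 := h.em_ne hy hab
  have : ∀ u, (s true u + s false u) ^ 2 = s true u + s false u := fun u => by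
    apply Int.cast_injective (α := ℂ)
    push_cast
    rw [← hs, ← hs]
    rcases adj_cases (G := G) a b (y true) ((u : G) • y true) with e | e <;>
      rcases adj_cases (G := G) a b (y false) ((u : G) • y false) with e' | e' <;> try simp [e, e']
    by_cases hu : u = 1
    · simp [hu, adj_diag hab] at e
    have := h.em_opp hy hu
    rw [e.2 _ (em_inv χ), e'.2 _ (em_inv χ)] at this
    exact (e0 (by linear_combination this / 2)).elim
  simp only [this] at e3
  have n : (Nat.card (orbit (stabilizer G a) b) : ℤ) = L * (2 * L + 1) := by linarith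
  have := h.sd_ne hab
  have := sd_pos (K := stabilizer G a) b
  have L0 : L ≠ 0 := by rintro rfl; omega
  refine ⟨L, ⟨L0, by rintro rfl; omega⟩, n, mul_right_cancel₀ (Int.cast_ne_zero.2 L0) ?_⟩
  rw [← e1, ← Int.cast_natCast (Nat.card (orbit _ b)), n]
  push_cast
  ring

end W2p

theorem W2p.main (h : W2p Ω p P χ) (a : Ω) :
    Nat.card (orbitRel.Quotient (stabilizer G a) Ω) = 3 ∧ ∃ k : ℕ, 0 < k ∧
      p = 2 * k ^ 2 + 2 * k + 1 ∧ ∀ b, b ≠ a → Nat.card (orbit (stabilizer G a) b) = k * (2 * k + 1) ∨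
        Nat.card (orbit (stabilizer G a) b) = (k + 1) * (2 * k + 1) := by
  classical
  obtain ⟨y, hy⟩ := h.exists_reps
  haveI := Fintype.ofFinite (orbitRel.Quotient (stabilizer G a) Ω)
  let q : orbitRel.Quotient (stabilizer G a) Ω := Quotient.mk'' a
  have p0 : (p : ℂ) ≠ 0 := Nat.cast_ne_zero.2 hp.1.ne_zero
  have g0 := card_ne_zero G
  have qa : ∀ b, Quotient.mk'' b = q ↔ b = a := fun b =>
    ⟨fun e => by obtain ⟨g, h⟩ := Quotient.exact' e; exact h ▸ g.2, congrArg _⟩
  have qo : ∀ r : orbitRel.Quotient (stabilizer G a) Ω, r.out = a ↔ r = q := fun r => by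
    rw [← qa, Quotient.out_eq']
  have q1 : Nat.card (orbit (stabilizer G a) a) = 1 := by
    rw [Nat.card_coe_set_eq, Set.ncard_eq_one]
    exact ⟨a, Set.eq_singleton_iff_unique_mem.2 ⟨mem_orbit_self a, fun _ ⟨g, h⟩ => h ▸ g.2⟩⟩
  choose! L L0 Ln Le using fun (r : orbitRel.Quotient (stabilizer G a) Ω)
    (hr : r ∈ Finset.univ.erase q) => h.subdeg hy (a := a) (b := r.out)
      fun e => Finset.ne_of_mem_erase hr ((qo r).1 e)
  have S : ∀ F : ℂ → ℂ, ∑ b, F (em Ω χ.1 a b) = F (em Ω χ.1 a a) + ∑ r ∈ Finset.univ.erase q,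
      L r * (2 * L r + 1) * F (em Ω χ.1 a r.out) := fun F => by
    rw [sum_orbits (K := stabilizer G a) fun k x => by rw [← em_inv χ (k : G) a x, k.2]; rfl,
      ← Finset.add_sum_erase _ _ (Finset.mem_univ q), (qo q).2 rfl, q1, Nat.cast_one, one_mul]
    exact congrArg _ (Finset.sum_congr rfl fun r hr => by
      rw [← Int.cast_natCast, Ln r hr]; push_cast; rfl)
  have o : ∀ r, (2 * L r + 1 : ℂ) ≠ 0 := fun r => by exact_mod_cast (by omega : 2 * L r + 1 ≠ 0)
  have d := h.em_diag a
  obtain ⟨c, k, k0, h1, h2⟩ := two_of_sum L0 (by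
    have := (h.em_row a).symm.trans (S fun x => x)
    apply Int.cast_injective (α := ℂ)
    apply mul_left_cancel₀ g0
    push_cast
    rw [Finset.mul_sum, ← Finset.sum_congr rfl fun r hr => show 2 * p * (L r * (2 * L r + 1) *
      em Ω χ.1 a r.out) = _ by rw [← Le r hr]; ring, ← Finset.mul_sum]
    linear_combination -d - 2 * p * this) (by
    have := S (· ^ 2)
    apply Complex.ofReal_injective
    apply mul_left_cancel₀ (pow_ne_zero 2 g0)
    push_cast
    rw [Finset.mul_sum, ← Finset.sum_congr rfl fun r hr => show (2 * p) ^ 2 * (L r * (2 * L r + 1) *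
      (em Ω χ.1 a r.out) ^ 2) = _ by rw [← Le r hr]; field_simp [o r], ← Finset.mul_sum]
    linear_combination 2 * h.em_sq a - (2 * p) ^ 2 * this - (2 * p * em Ω χ.1 a a + Nat.card G) * d)
  refine ⟨?_, k, k0, ?_, fun b hb => ?_⟩
  · rw [Nat.card_eq_fintype_card, ← Finset.card_univ, ← Finset.card_erase_add_one (Finset.mem_univ q), c]
  · have := S fun _ => 1
    simp only [mul_one, Finset.sum_const, Finset.card_univ, h.cΩ, nsmul_eq_mul] at this
    have : (2 * p : ℤ) = 1 + ∑ r ∈ Finset.univ.erase q, L r * (2 * L r + 1) := by exact_mod_cast this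
    rw [h2] at this
    nlinarith
  have m : Quotient.mk'' b ∈ Finset.univ.erase q := by simpa [qa] using hb
  have := Ln _ m
  rw [orbit_eq_iff.2 (orbitRel_apply.1 (Quotient.exact' (Quotient.out_eq' _)))] at this
  exact (h1 _ m).imp (fun e => by rw [e] at this; exact_mod_cast this) fun e => by
    rw [e] at this; nlinarith

end H8
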