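import Mathlib
import Cfsg.Agent.H8.Feit3
import Cfsg.Agent.H8.Zas8
import Cfsg.Agent.H8.Sz4
import Cfsg.Agent.H8.Rk1

set_option autoImplicit false
set_option maxSynthPendingDepth 3

open Cfsg H7 H3 Subgroup MulAction
open scoped ComplexConjugate commutatorElement IsMulCommutative MatrixGroups Pointwise

namespace H8

variable {G Ω : Type*} [Group G] [MulAction G Ω]

namespace Zs
variable (h : Zs G Ω)

theorem const_ker_of_under [Fintype G] {a b : Ω} (hab : a ≠ b) [Fintype (stabilizer G a)]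
    (hodd : Odd (Nat.card (S2 G a b)))
    (hinv : ∀ s : G, Sw s a b → ∀ k ∈ S2 G a b, s * k * s⁻¹ = k⁻¹) {θ : G → ℂ}
    (hθ : IsIrrCharacter G θ) {μ : stabilizer G a → ℂ} (hμ : IsIrrCharacter _ μ)
    (hk : InKer (h.kk a) μ) (hi : classInner (fun g : stabilizer G a => θ g) μ ≠ 0) :
    ∃ c, ∀ z : stabilizer G a, z ∈ h.kk a → z ≠ 1 → θ z = c := by
  classical
  have hd : μ 1 = 1 := by
    obtain ⟨ψ, hψ, e⟩ := hμ.exists_quotient (h.kk a) hk
    rw [e, QuotientGroup.mk_one]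
    refine hψ.deg_eq_one_of_comm fun p q => ?_
    obtain ⟨s, hs⟩ := h.exists_sw hab
    have aux : ∀ p : stabilizer G a ⧸ h.kk a, ∃ k, ∃ hk : k ∈ S2 G a b,
        p = ((⟨k, hk.1⟩ : stabilizer G a) : stabilizer G a ⧸ h.kk a) := by
      intro p
      obtain ⟨g, rfl⟩ := QuotientGroup.mk_surjective p
      obtain ⟨u, hu, k, hk, hg⟩ := h.exists_decomp hab g.2
      refine ⟨k, hk, ?_⟩
      have h1 : g = ⟨u, Zs.ker_fix hu⟩ * ⟨k, hk.1⟩ := Subtype.ext hg
      rw [h1, QuotientGroup.mk_mul, (QuotientGroup.eq_one_iff _).2 (by exact hu), one_mul]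
    obtain ⟨k, hk, rfl⟩ := aux p
    obtain ⟨k', hk', rfl⟩ := aux q
    rw [← QuotientGroup.mk_mul, ← QuotientGroup.mk_mul]
    congr 1
    exact Subtype.ext (comm_of_inv (hinv s hs) hk hk')
  obtain ⟨l, rfl⟩ := hμ.isCharacter.exists_lin hd
  have hl : ∀ u : stabilizer G a, (u : G) ∈ h.ker a → l u = 1 := fun u hu => by
    have := hk u hu
    simpa using this
  have hv : ∀ z : stabilizer G a, z ∈ h.kk a → z ≠ 1 → indFun (stabilizer G a) (lf l) z = 1 :=
    fun z hz h1 => by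
      rw [h.ind_ker (u := z) (lf_irr l).isClassFunction hz fun e => h1 (Subtype.ext e), lf_apply,
        hl z hz]; rfl
  rw [← inner_indFun_right _ _ hθ.isClassFunction] at hi
  change classInner θ (indFun (stabilizer G a) (lf l)) ≠ 0 at hi
  by_cases hl1 : l = 1
  swap
  · exact ⟨1, by rw [hθ.eq_of_inner_ne_zero (h.ind_lin_irr hab hodd hinv l hl hl1) hi]; exact hv⟩
  subst hl1
  by_cases h1 : θ = fun _ => 1
  · exact ⟨1, fun _ _ _ => by rw [h1]⟩
  set π := indFun (stabilizer G a) (lf 1) with hπ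
  have hπc : IsCharacter G π := (lf_irr 1).isCharacter.ind
  have h2 : classInner π (fun _ => 1) = 1 := by
    rw [hπ, inner_indFun_left _ _ (isClassFunction_const 1), lf_one, inner_one_one]
  have h3 : classInner π π = 1 + 1 := by
    rw [hπ, h.inner_ind_lin hab hinv 1 hl, inv_one, (lf_irr 1).inner_self]
  have h4 : IsIrrCharacter G (π - fun _ => 1) := by
    refine (hπc.sub_of_inner_ne_zero isIrrCharacter_one (by rw [h2]; simp)).isIrr_of_inner_self ?_
    rw [H3.inner_sub_left, H3.inner_sub_right, H3.inner_sub_right, h3, h2, inner_one_one,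
      isCharacter_one.inner_comm hπc, h2]
    simp
  have h5 : classInner θ (π - fun _ => 1) ≠ 0 := by
    rw [H3.inner_sub_right, hθ.inner_of_ne isIrrCharacter_one h1, sub_zero]; exact hi
  refine ⟨0, fun z hz h1 => ?_⟩
  rw [hθ.eq_of_inner_ne_zero h4 h5, Pi.sub_apply, hv z hz h1, sub_self]

/-- Conjugation action of the two-point stabiliser on the kernel. -/
abbrev act (a b : Ω) : MulDistribMulAction (S2 G a b) (h.ker a) where
  smul k u := ⟨k * u * (k : G)⁻¹, Zs.conj_mem_ker' u.2 k.2.1⟩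
  one_smul u := Subtype.ext (by change ((1 : G) * u * (1 : G)⁻¹) = u; simp)
  mul_smul k l u := Subtype.ext (by
    change ((k : G) * l * u * ((k : G) * l)⁻¹) = k * (l * u * (l : G)⁻¹) * (k : G)⁻¹; group)
  smul_mul k u v := Subtype.ext (by
    change (k : G) * (u * v) * (k : G)⁻¹ = k * u * (k : G)⁻¹ * (k * v * (k : G)⁻¹); group)
  smul_one k := Subtype.ext (by change (k : G) * 1 * (k : G)⁻¹ = 1; simp)

theorem odd_Ω {a : Ω} (h2 : IsPGroup 2 (h.ker a)) : Odd (Nat.card Ω) := by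
  haveI := h.finG
  obtain ⟨n, hn⟩ := IsPGroup.iff_card.1 h2
  have := h.two_le_card_ker a
  rw [← h.card_ker a, hn]
  rw [hn] at this
  exact (even_two.pow_of_ne_zero (by rintro rfl; omega)).add_one

theorem sz {a b : Ω} (hab : a ≠ b) (hne : S2 G a b ≠ ⊥) (h2 : IsPGroup 2 (h.ker a)) :
    @Sz (S2 G a b) (h.ker a) _ _ (h.act a b) := by
  letI := h.act a b
  have hodd := h.odd_S2_of_odd hab (h.odd_Ω h2)
  have hinv : ∀ s : G, Sw s a b → ∀ k ∈ S2 G a b, s * k * s⁻¹ = k⁻¹ := fun s hs =>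
    h.inv_of_odd_deg hab (h.odd_Ω h2) hs
  obtain ⟨s, hs⟩ := h.exists_sw hab
  refine ⟨h2, fun x y => Subtype.ext (comm_of_inv (hinv s hs) x.2 y.2), fun k hk u hu => ?_,
    fun x y x1 x2 y1 y2 => ?_, (nontrivial_iff_ne_bot _).2 hne,
    (nontrivial_iff_ne_bot _).2 (h.ker_ne_bot a)⟩
  · exact Subtype.ext (h.fpf hab k.2 (fun e => hk (Subtype.ext e)) u.2
      (mul_inv_eq_iff_eq_mul.1 (congrArg Subtype.val hu)))
  · obtain ⟨k, hk, e⟩ := (h.invol_ker hab hne hodd hinv x.2 (congrArg Subtype.val x2)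
      fun e => x1 (Subtype.ext e)).2 y y.2 (congrArg Subtype.val y2) fun e => y1 (Subtype.ext e)
    exact ⟨⟨k, hk⟩, Subtype.ext e⟩

theorem not_cube {a b : Ω} (hab : a ≠ b) (hne : S2 G a b ≠ ⊥) (h2 : IsPGroup 2 (h.ker a))
    (hnc : ∃ u v : h.ker a, u * v ≠ v * u) :
    Nat.card (h.ker a) = (Nat.card (S2 G a b) + 1) ^ 2 := by
  classical
  haveI := h.finG
  haveI := Fintype.ofFinite G
  letI := h.act a b
  have hs := h.sz hab hne h2
  have hodd := h.odd_S2_of_odd hab (h.odd_Ω h2)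
  have hinv : ∀ s : G, Sw s a b → ∀ k ∈ S2 G a b, s * k * s⁻¹ = k⁻¹ := fun s hs =>
    h.inv_of_odd_deg hab (h.odd_Ω h2) hs
  refine (hs.card_eq hnc).resolve_right fun h3 => ?_
  obtain ⟨n, hn, -, hq, -⟩ := hs.exists_field
  let Y := (hs.Z.map (h.ker a).subtype).subgroupOf (stabilizer G a)
  have mY : ∀ {y : stabilizer G a}, y ∈ Y ↔ y ∈ h.kk a ∧ y * y = 1 := fun {y} =>
    ⟨by rintro ⟨z, hz, e⟩
        have e' : (z : G) = y := e
        exact ⟨show (y : G) ∈ h.ker a from e' ▸ z.2, Subtype.ext (by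
          change (y : G) * y = 1; rw [← e']; exact congrArg Subtype.val hz)⟩,
      fun hy => ⟨⟨y, hy.1⟩, Subtype.ext (show (y : G) * y = 1 from congrArg Subtype.val hy.2), rfl⟩⟩
  haveI : Y.Normal := ⟨fun y hy g => mY.2 ⟨(h.kk_normal a).conj_mem _ (mY.1 hy).1 g, by
    rw [conj_mul, (mY.1 hy).2]; simp⟩⟩
  have hYK : Y ≤ h.kk a := fun y hy => (mY.1 hy).1
  have hc := h.le_of_coherent hab hodd hne hinv ((h.ti_kk a).cube (h.frob_kk a) (Y := Y)
    (commutator_le.2 fun x hx y hy => ⟨_, hs.cm_mem_Z hnc ⟨x, hx⟩ ⟨y, hy⟩, rfl⟩) hYK hn hq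
    (by rw [h.index_kk hab]) (by
      have h1 := H1.card_mul_relIndex hYK
      rw [h.card_kk, h3, card_subgroupOf_of_le ((map_subtype_le _).trans (h.ker_le a)),
        card_map_of_injective (subtype_injective _), hs.card_Z, pow_succ'] at h1
      exact Nat.eq_of_mul_eq_mul_left (by omega) h1) (by rw [h.card_kk, h3]) (by
      haveI := h.isPretransitive
      rw [index_stabilizer_of_transitive, ← h.card_ker a, h3])
    fun θ hθ μ hμ hk hi => h.const_ker_of_under hab hodd hinv hθ hμ hk hi)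
  rw [h3] at hc
  have : 0 < Nat.card (S2 G a b) := Nat.card_pos
  have h4 : 3 * Nat.card (S2 G a b) + 1 ≤ (Nat.card (S2 G a b) + 1) ^ 3 := by
    nlinarith [Nat.zero_le (Nat.card (S2 G a b) ^ 3), Nat.zero_le (Nat.card (S2 G a b) ^ 2)]
  omega

theorem odd_exp {a b : Ω} (hab : a ≠ b) (hne : S2 G a b ≠ ⊥) (h2 : IsPGroup 2 (h.ker a))
    (hnc : ∃ u v : h.ker a, u * v ≠ v * u) {n : ℕ} (hn : Nat.card (S2 G a b) + 1 = 2 ^ n) :
    Odd n := by
  classical
  haveI := h.finG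
  haveI := h.finΩ
  letI := h.act a b
  have hs := h.sz hab hne h2
  have hc := h.not_cube hab hne h2 hnc
  have hodd := h.odd_S2_of_odd hab (h.odd_Ω h2)
  have hinv : ∀ s : G, Sw s a b → ∀ k ∈ S2 G a b, s * k * s⁻¹ = k⁻¹ := fun s hs =>
    h.inv_of_odd_deg hab (h.odd_Ω h2) hs
  obtain ⟨t, ht, tt⟩ := h.exists_sw_invol hab
  obtain rfl : t • a = b := ht.1
  have hS : IsRankOneSetup G Ω a t (h.ker a) := ⟨h.isMPT, tt, ht.ne_one hab, hab.symm, h.ker_le a,
    fun g hg x hx => Zs.conj_mem_ker' hx hg,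
    eq_bot_iff.2 fun u hu => Zs.ker_eq_one hu.1 hab.symm hu.2,
    le_antisymm (sup_le (h.ker_le a) inf_le_left) fun g hg => by
      obtain ⟨u, hu, k, hk, rfl⟩ := h.exists_decomp hab hg
      exact mul_mem (mem_sup_left hu) (mem_sup_right hk), by
      have := h.odd_Ω h2
      rwa [← h.card_ker a, Nat.odd_add_one, Nat.not_odd_iff_even] at this, hodd⟩
  obtain ⟨s, ⟨sa, s1, ss⟩, r, hr, e⟩ := R1.exists_dist hS
  have hsU := R1.invol_mem hS sa ss
  have ti : t⁻¹ = t := inv_eq_of_mul_eq_one_right tt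
  have si : s⁻¹ = s := inv_eq_of_mul_eq_one_right ss
  have rs : r * s = s * r := congrArg Subtype.val (hs.invol_cen (z := ⟨s, hsU⟩) (Subtype.ext ss) ⟨r, hr⟩)
  have r4 : r * r * (r * r) = 1 := congrArg Subtype.val (hs.sq_mem hnc ⟨r, hr⟩)
  have g1 : s * t ≠ 1 := fun e => hab.symm (by rw [eq_inv_of_mul_eq_one_right e, si]; exact sa)
  set g := s * t with hg
  have cj : ∀ m : ℕ, r⁻¹ * g ^ m * r = g ^ (2 * m) := fun m => by
    have : r⁻¹ * g * r⁻¹⁻¹ = g ^ 2 := by
      rw [inv_inv, hg, ← mul_assoc, show r⁻¹ * s = s * r⁻¹ from Commute.inv_left rs, mul_assoc s,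
        mul_assoc s, ← e, sq]
      simp only [mul_assoc]
    rw [pow_mul, ← this, conj_pow, inv_inv]
  have cj2 : ∀ m : ℕ, (r * r)⁻¹ * g ^ m * (r * r) = g ^ (4 * m) := fun m => by
    rw [show 4 * m = 2 * (2 * m) by ring, ← cj, ← cj]; group
  have d3 : 3 ≤ Nat.card (S2 G a (t • a)) := by
    have h1 : Nat.card (S2 G a (t • a)) ≠ 1 := fun e => hne (card_eq_one.1 e)
    obtain ⟨k, hk⟩ := hodd
    omega
  by_cases rr : r * r = 1
  · exfalso
    have g3 : t * s * t = s * t * s := by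
      have h1 := cj2 1
      rw [rr, inv_one, one_mul, mul_one, pow_one, mul_one, pow_succ, right_eq_mul, pow_three,
        hg] at h1
      calc t * s * t = s * (s * t * (s * t * (s * t))) * t * s := by
            simp only [mul_assoc]
            rw [← mul_assoc s s, ss, one_mul, ← mul_assoc t t, tt, one_mul, ss, mul_one]
        _ = s * t * s := by rw [h1, mul_one]
    let Δ : Set Ω := insert a ((fun z : h.ker a => (z : G) • t • a) '' hs.Z)
    let L := stabilizer G Δ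
    have mL : ∀ x : G, (∀ c ∈ Δ, x • c ∈ Δ) → x ∈ L := fun x hx =>
      (mem_stabilizer_set_iff_smul_set_subset (Set.toFinite _)).2 (by
        rintro _ ⟨c, hc, rfl⟩; exact hx c hc)
    have tL : t ∈ L := mL t (by
      rintro _ (rfl | ⟨z, hz, rfl⟩)
      · exact Or.inr ⟨1, one_mem _, by simp⟩
      by_cases z1 : z = 1
      · exact Or.inl (by simp only [z1, OneMemClass.coe_one, one_smul]; exact ht.2)
      obtain ⟨k, rfl⟩ := hs.tr ⟨s, hsU⟩ z (fun e => s1 (congrArg Subtype.val e)) (Subtype.ext ss) z1 hz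
      refine Or.inr ⟨k⁻¹ • ⟨s, hsU⟩, hs.iv_Z _ _ (Subtype.ext ss), ?_⟩
      change ((k : G)⁻¹ * s * (k : G)⁻¹⁻¹) • t • a = t • ((k : G) * s * (k : G)⁻¹) • t • a
      have h1 := hinv t ht k k.2
      rw [mul_inv_eq_iff_eq_mul] at h1
      rw [inv_inv, mul_smul, mul_smul, mul_smul, mul_smul, show (k : G) • t • a = t • a from k.2.2,
        inv_fix (show (k : G) • t • a = t • a from k.2.2), ← mul_smul t, h1, mul_smul,
        ← mul_smul t, ← mul_smul (t * s), g3, mul_smul, mul_smul, show s • a = a from sa])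
    have hO : orbit L a = Δ := by
      ext c
      refine ⟨?_, ?_⟩
      · rintro ⟨x, rfl⟩
        have : (x : G) • a ∈ (x : G) • Δ := Set.smul_mem_smul_set (Or.inl rfl)
        rwa [show (x : G) • Δ = Δ from x.2] at this
      · rintro (rfl | ⟨z, hz, rfl⟩)
        · exact mem_orbit_self _
        · exact ⟨⟨z, mL z (by
            rintro _ (rfl | ⟨y, hy, rfl⟩)
            · exact Or.inl (Zs.ker_fix z.2)
            · exact Or.inr ⟨z * y, mul_mem hz hy, mul_smul _ _ _⟩)⟩ * ⟨t, tL⟩, mul_smul _ _ _⟩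
    have h1 : Δ.ncard ∣ Nat.card G := by
      rw [← hO, ← index_stabilizer]
      exact (index_dvd_card _).trans (card_subgroup_dvd_card L)
    rw [Set.ncard_insert_of_notMem (by
        rintro ⟨z, -, e⟩
        exact smul_ne_of_fix (Zs.ker_fix z.2) hab.symm e),
      Set.ncard_image_of_injective _ fun x y e => Subtype.ext (Zs.ker_ext x.2 y.2 hab.symm e),
      ← Nat.card_coe_set_eq, show Nat.card (hs.Z : Set (h.ker a)) = _ from hs.card_Z,
      h.card_G hab, hc] at h1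
    set d := Nat.card (S2 G a (t • a))
    have h3 : d + 1 + 1 ∣ 4 := (Nat.dvd_add_right h1).1
      ⟨d ^ 4 + 2 * d ^ 3 + 3 * d ^ 2 + 2, by ring⟩
    have := Nat.le_of_dvd (by norm_num) h3
    omega
  have two : ∀ {c : Ω} {x : G} {m : ℕ}, x ∈ h.ker c → Odd m → x ^ m = 1 → x = 1 := by
    intro c x m hx hm e
    obtain ⟨j, hj⟩ := IsPGroup.iff_card.1 h2
    have h1 := orderOf_dvd_natCard _ hx
    rw [h.card_ker' c, ← h.card_ker' a, hj] at h1
    exact orderOf_eq_one_iff.1 (Nat.eq_one_of_dvd_coprimes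
      ((Nat.coprime_two_right.2 hm).pow_right j) (orderOf_dvd_of_pow_eq_one e) h1)
  have g15 : g ^ 15 = 1 := by
    have h1 : g ^ 16 = g := by
      rw [show 16 = 4 * (4 * 1) by rfl, ← cj2, ← cj2, pow_one]
      calc _ = (r * r * (r * r))⁻¹ * g * (r * r * (r * r)) := by group
        _ = g := by rw [r4]; simp
    rwa [pow_succ, mul_eq_right] at h1
  have g5 : g ^ 5 = 1 := by
    have h1 := cj2 5
    rw [show 4 * 5 = 15 + 5 by rfl, pow_add, g15, one_mul, mul_assoc, inv_mul_eq_iff_eq_mul] at h1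
    have hz := mul_mem hr hr
    have h3 := h.fix_of_conj_mem_ker hz rr (g := g ^ 5) (by rwa [h1, mul_inv_cancel_right])
    by_cases h4 : g ^ 5 ∈ h.ker a
    · exact two h4 (m := 3) (by decide) (by rw [← pow_mul, g15])
    obtain ⟨h5, c, hac, h6⟩ := h.exists_S2_of_not_mem h3 h4
    exact absurd (h.fpf hac h6 h5 hz h1) rr
  have hfix : fixedBy Ω g = ∅ := Set.eq_empty_of_forall_notMem fun c hc => by
    by_cases h4 : g ∈ h.ker c
    · exact g1 (two h4 (by decide) g5)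
    obtain ⟨-, d, hcd, h6⟩ := h.exists_S2_of_not_mem hc h4
    have h7 := cj 1
    rw [pow_one, mul_one] at h7
    obtain ⟨w, hw⟩ := h.exists_sw hcd
    rcases h.pres_of_conj_mem hcd h6 g1 (g := r⁻¹) (by rw [inv_inv, h7]; exact pow_mem h6 2)
      with h8 | h8
    · rw [comm_of_inv (h.inv_transport hab hinv hcd w hw) h8 h6, inv_mul_cancel_right, sq,
        left_eq_mul] at h7
      exact g1 h7
    · have h9 := h.inv_transport hab hinv hcd r⁻¹ h8 g h6
      rw [inv_inv, h7, eq_inv_iff_mul_eq_one, ← pow_succ] at h9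
      exact g1 (orderOf_eq_one_iff.1 (Nat.eq_one_of_dvd_coprimes (show Nat.Coprime 3 5 by decide)
        (orderOf_dvd_of_pow_eq_one h9) (orderOf_dvd_of_pow_eq_one g5)))
  haveI : Fact (Nat.Prime 5) := ⟨by norm_num⟩
  have h5 := h.fixed_modEq g5
  rw [hfix, Set.ncard_empty, ← h.card_ker a, hc, hn] at h5
  by_contra hev
  obtain ⟨m, rfl⟩ := Nat.not_odd_iff_even.1 hev
  rw [← pow_mul, show (m + m) * 2 = 4 * m by ring, pow_mul] at h5
  have h6 : (2 ^ 4) ^ m ≡ 1 ^ m [MOD 5] := Nat.ModEq.pow m (by decide)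
  rw [one_pow] at h6
  exact absurd ((h6.add_right 1).symm.trans h5) (by decide)

theorem suzuki {a b : Ω} (hab : a ≠ b) (hne : S2 G a b ≠ ⊥) (h2 : IsPGroup 2 (h.ker a))
    (hnc : ∃ u v : h.ker a, u * v ≠ v * u) :
    ∃ n : ℕ, Odd n ∧ 1 < n ∧ Nat.card (h.ker a) = (2 ^ n) ^ 2 ∧ Nat.card (S2 G a b) + 1 = 2 ^ n ∧
      ∃ (F : Type) (_ : Field F) (_ : Fintype F) (φ : F ≃+* F), Fintype.card F = 2 ^ n ∧
        Nonempty (h.ker a ≃* suzukiTypeA F (φ : F →+* F)) := by
  haveI := h.finG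
  letI := h.act a b
  have hs := h.sz hab hne h2
  have hc := h.not_cube hab hne h2 hnc
  obtain ⟨n, hn, _, hq, hF⟩ := hs.exists_field
  obtain ⟨φ, -, -, e⟩ := hs.typeA hnc hc hF
  exact ⟨n, h.odd_exp hab hne h2 hnc hq, hn, hq ▸ hc, hq, _, _, _, φ, hF.trans hq, e⟩

theorem isSuzuki [IsSimpleGroup G] {a b : Ω} (hab : a ≠ b) (hne : S2 G a b ≠ ⊥)
    (h2 : IsPGroup 2 (h.ker a)) (hnc : ∃ u v : h.ker a, u * v ≠ v * u) : IsSuzuki G := by
  obtain ⟨_, ⟨m, rfl⟩, h1, h3, h4, -⟩ := h.suzuki hab hne h2 hnc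
  refine ⟨inferInstance, m, by omega, ?_⟩
  rw [h.card_G hab, h3, ← h4, mul_comm (_ + 1)]; rfl

end Zs
end H8
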