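import Mathlib
import Cfsg.Prelude.Def_Perm
import Cfsg.Agent.H8.Zas8
import Cfsg.Agent.H1.BG3c

set_option autoImplicit false

open Cfsg Subgroup MulAction
open scoped IsMulCommutative MatrixGroups commutatorElement

namespace H8

variable {G Ω : Type*} [Group G] [MulAction G Ω]

/-- A regular elementary abelian normal subgroup. -/
structure RegN (D : Subgroup G) (Ω : Type*) [MulAction G Ω] (r : ℕ) : Prop where
  normal : D.Normal
  tr : ∀ a c : Ω, ∃ x ∈ D, x • a = c
  reg : ∀ x ∈ D, ∀ a : Ω, x • a = a → x = 1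
  comm : ∀ x ∈ D, ∀ y ∈ D, x * y = y * x
  prime : r.Prime
  pow : ∀ x ∈ D, x ^ r = 1
  card : ∃ j, 1 ≤ j ∧ Nat.card Ω = r ^ j

theorem RegN.ext {D : Subgroup G} {r : ℕ} (hD : RegN D Ω r) {x y : G} (hx : x ∈ D) (hy : y ∈ D)
    {a : Ω} (e : x • a = y • a) : x = y := by
  have := hD.reg (y⁻¹ * x) (mul_mem (inv_mem hy) hx) a (by rw [mul_smul, e, inv_smul_smul])
  rw [inv_mul_eq_one] at this
  exact this.symm

namespace Zs
variable (h : Zs G Ω)
include h

theorem exists_regN (N : Subgroup G) [N.Normal] (hNt : IsPretransitive N Ω)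
    (hN2 : ∀ x ∈ N, ∀ a b : Ω, a ≠ b → x • a = a → x • b = b → x = 1) :
    ∃ D r, RegN (G := G) D Ω r := by
  haveI := h.finΩ
  obtain ⟨r, j, hr, hj, hc, D, hDn, hD, -, h1, h2, h3⟩ :=
    frobenius_kernel_of_two_transitive h.isMPT (by have := h.big; omega) N hNt hN2
  refine ⟨D, r, hDn, fun a c => ?_, fun x hx a e => ?_, h1, hr, h2, j, hj, hc⟩
  · obtain ⟨x, hx⟩ := h3.exists_smul_eq a c
    exact ⟨x, x.2, hx⟩
  · exact ((hD x).1 hx).2.resolve_right fun h => h a e

theorem aff_two {D : Subgroup G} {r : ℕ} (hD : RegN D Ω r) {a b : Ω} (hab : a ≠ b)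
    {R : Subgroup G} (hR : R ≤ S2 G a b) (hne : R ≠ ⊥) :
    r = 2 ∧ (Odd (Nat.card R) → Nat.card Ω = 2 ^ Nat.card R) ∧
      (Even (Nat.card R) → Nat.card Ω = 4) := by
  haveI := h.finG
  haveI := hD.normal
  obtain ⟨x₀, hx₀, e₀⟩ := hD.tr a b
  have hx1 : x₀ ≠ 1 := by rintro rfl; exact hab (by simpa using e₀)
  have hc1 : ∀ k ∈ S2 G a b, k * x₀ = x₀ * k := fun k hk => by
    have := hD.ext (hD.normal.conj_mem _ hx₀ k) hx₀ (a := a)
      (by rw [mul_smul, mul_smul, inv_fix hk.1, e₀]; exact hk.2)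
    rwa [mul_inv_eq_iff_eq_mul] at this
  have hc2 : ∀ k ∈ S2 G a b, k ≠ 1 → ∀ x ∈ D, k * x = x * k → x = 1 ∨ x = x₀ := by
    intro k hk hk1 x hx e
    have h1 : k • x • a = x • a := by rw [← mul_smul, e, mul_smul, show k • a = a from hk.1]
    rcases h.fix_S2 hab hk hk1 h1 with h2 | h2
    · exact Or.inl (hD.reg x hx a h2)
    · exact Or.inr (hD.ext hx hx₀ (h2.trans e₀.symm))
  obtain ⟨k, hk, hk1⟩ := (bot_or_exists_ne_one R).resolve_left hne
  have hsq : x₀ * x₀ = 1 := by
    refine (hc2 k (hR hk) hk1 _ (mul_mem hx₀ hx₀) ?_).resolve_right (by simpa using hx1)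
    rw [← mul_assoc, hc1 k (hR hk), mul_assoc, hc1 k (hR hk), mul_assoc]
  have hr : r = 2 := by
    have h1 : orderOf x₀ = 2 := orderOf_eq_two_iff'.2 ⟨hsq, hx1⟩
    have h2 := orderOf_dvd_of_pow_eq_one (hD.pow x₀ hx₀)
    rw [h1] at h2
    exact ((Nat.prime_dvd_prime_iff_eq Nat.prime_two hD.prime).1 h2).symm
  subst hr
  have hcD := h.card_reg hD.tr hD.reg
  obtain ⟨j, hj, hΩ⟩ := hD.card
  have hcard : ∀ R' : Subgroup G, R' ≤ S2 G a b → R' ≠ ⊥ →
      Nat.card (D ⊓ centralizer (R' : Set G) : Subgroup G) = 2 := by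
    intro R' h1 h2
    obtain ⟨k, hk, hk1⟩ := (bot_or_exists_ne_one R').resolve_left h2
    rw [← orderOf_eq_two_iff'.2 ⟨hsq, hx1⟩, ← Nat.card_zpowers]
    congr 2
    refine le_antisymm (fun x hx => ?_) (zpowers_le.2 ⟨hx₀, fun y hy => hc1 y (h1 hy)⟩)
    rcases hc2 k (h1 hk) hk1 x hx.1 (hx.2 k hk) with rfl | rfl
    · exact one_mem _
    · exact mem_zpowers _
  haveI : IsMulCommutative D := ⟨⟨fun x y => Subtype.ext (hD.comm _ x.2 _ y.2)⟩⟩
  refine ⟨rfl, fun hodd => ?_, fun hev => ?_⟩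
  · have hko : Odd (Nat.card (h.ker a)) := by
      have := h.card_ker a
      rw [hΩ] at this
      obtain ⟨i, rfl⟩ : ∃ i, j = i + 1 := ⟨j - 1, by omega⟩
      rw [pow_succ] at this
      exact ⟨2 ^ i - 1, by have := Nat.one_le_two_pow (n := i); omega⟩
    rw [← hcD, ← hcard R hR hne]
    refine H1B.frob_card_pow (K := h.ker a) inferInstance le_normalizer_of_normal
      le_normalizer_of_normal (hR.trans (h.S2_le_normalizer a b))
      (fun x hx hx1 => h.fpf' hab x (hR hx) hx1) ?_ ?_ ?_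
    · rw [hcD, hΩ]; exact Nat.Coprime.pow_right _ (Nat.coprime_two_right.2 hko)
    · rw [hcD, hΩ]; exact Nat.Coprime.pow_right _ (Nat.coprime_two_right.2 hodd)
    · rw [eq_bot_iff_forall]
      intro x hx
      obtain ⟨u, hu, hu1⟩ := (bot_or_exists_ne_one _).resolve_left (h.ker_ne_bot a)
      refine hD.reg x hx.1 a ?_
      by_contra hxa
      refine hu1 (Zs.ker_eq_one hu hxa ?_)
      rw [← mul_smul, hx.2 u hu, mul_smul, Zs.ker_fix hu]
  · obtain ⟨t, ht, t2, t1⟩ := exists_invol_of_even hev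
    have hz : zpowers t ≤ S2 G a b := zpowers_le.2 (hR ht)
    have h2 := hcard _ hz (by simpa using t1)
    have hsq' : ∀ x ∈ D, x * x = 1 := fun x hx => by rw [← sq]; exact hD.pow x hx
    let f : D →* D := MonoidHom.mk' (fun x => ⟨x * (t * x * t⁻¹),
      mul_mem x.2 (hD.normal.conj_mem _ x.2 t)⟩) (fun x y => Subtype.ext (by
        simp only [coe_mul]
        have := hD.comm _ y.2 _ (hD.normal.conj_mem _ x.2 t)
        calc (x : G) * y * (t * (x * y) * t⁻¹) = x * (y * (t * x * t⁻¹)) * (t * y * t⁻¹) := by group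
          _ = _ := by rw [this]; group))
    have hti : t⁻¹ = t := inv_eq_of_mul_eq_one_right t2
    have hC : ∀ x : D, t * x = x * t →
        x ∈ (D ⊓ centralizer (zpowers t : Set G)).subgroupOf D := fun x e =>
      ⟨x.2, fun y hy => by
        obtain ⟨n, rfl⟩ := hy
        exact (Commute.zpow_left e n)⟩
    have h3 : f.ker ≤ (D ⊓ centralizer (zpowers t : Set G)).subgroupOf D := fun x hx => by
      refine hC x ?_
      have h4 : (x : G) * (t * x * t⁻¹) = 1 := congrArg Subtype.val hx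
      have h5 : t * x * t⁻¹ = x := mul_left_cancel (h4.trans (hsq' x x.2).symm)
      rwa [mul_inv_eq_iff_eq_mul] at h5
    have h4 : f.range ≤ (D ⊓ centralizer (zpowers t : Set G)).subgroupOf D := by
      rintro _ ⟨x, rfl⟩
      refine hC _ ?_
      change t * (x * (t * x * t⁻¹)) = x * (t * x * t⁻¹) * t
      rw [hD.comm _ x.2 _ (hD.normal.conj_mem _ x.2 t)]
      nth_rewrite 2 [← hD.comm _ x.2 _ (hD.normal.conj_mem _ x.2 t)]
      rw [hti]
      calc t * (t * x * t * x) = (t * t) * x * t * x * 1 := by group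
        _ = _ := by rw [t2]; nth_rewrite 2 [← t2]; group
    have h5 := card_le_of_le h3
    have h6 := card_le_of_le h4
    rw [H7.card_subgroupOf_of_le inf_le_left, h2] at h5 h6
    have h7 := f.ker.card_mul_index
    rw [index_ker, hcD] at h7
    have h8 : Nat.card Ω ≤ 4 := by
      rw [← h7]; exact Nat.mul_le_mul h5 h6
    have h9 := h.big
    rw [hΩ] at h8 h9 ⊢
    have : j ≤ 2 := (Nat.pow_le_pow_iff_right (by norm_num)).1 (show 2 ^ j ≤ 2 ^ 2 from h8)
    interval_cases j <;> simp_all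

/-- Coordinates in the affine case with abelian point-kernel. -/
theorem semiaffine {D : Subgroup G} {r : ℕ} (hD : RegN D Ω r) (a : Ω)
    [IsMulCommutative (h.ker a)] (K : Type*) [Field K] [Finite K] (hK : Nat.card K = Nat.card Ω) :
    ∃ e : Ω ≃ K, ∀ g : G, ∃ c : Kˣ, ∃ b : K, ∃ φ : K ≃+* K,
      ∀ x : K, e (g • e.symm x) = c * φ x + b := by
  classical
  haveI := h.finG
  haveI := hD.normal
  haveI : IsMulCommutative D := ⟨⟨fun x y => Subtype.ext (hD.comm _ x.2 _ y.2)⟩⟩
  have hcD := h.card_reg hD.tr hD.reg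
  have hD0 : D ≠ ⊥ := by
    rintro rfl
    have := h.big
    rw [card_bot] at hcD
    omega
  have htr : ∀ x ∈ D, x ≠ 1 → ∀ y ∈ D, y ≠ 1 → ∃ u ∈ h.ker a, u * x * u⁻¹ = y := by
    intro x hx hx1 y hy hy1
    obtain ⟨u, hu, e⟩ := h.exists_ker (a := a) (y := x • a) (z := y • a)
      (fun e => hx1 (hD.reg x hx a e)) (fun e => hy1 (hD.reg y hy a e))
    exact ⟨u, hu, hD.ext (hD.normal.conj_mem _ hx u) hy (a := a)
      (by rw [mul_smul, mul_smul, inv_fix (Zs.ker_fix hu), e])⟩
  obtain ⟨F, _, _, χ, hF, -, -, E0, hE⟩ := H1.exists_field_of_irreducible_abelian (V := D)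
    (A := h.ker a) le_normalizer_of_normal hD0 (fun U hU hUD => by
      refine or_iff_not_imp_left.2 fun hb => le_antisymm hUD fun y hy => ?_
      obtain ⟨x, hx, hx1⟩ := (bot_or_exists_ne_one U).resolve_left hb
      by_cases hy1 : y = 1
      · rw [hy1]; exact one_mem _
      obtain ⟨u, hu, rfl⟩ := htr x (hUD hx) hx1 y hy hy1
      exact (mem_normalizer_iff.1 (hU hu) x).1 hx) (by
      rw [commutator_le]
      intro x hx y hy
      have : x * y = y * x := congrArg Subtype.val (mul_comm (⟨x, hx⟩ : h.ker a) ⟨y, hy⟩)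
      rw [commutatorElement_eq_one_iff_mul_comm.2 this]; exact one_mem _)
  have := Fintype.ofFinite F
  have := Fintype.ofFinite K
  let ρ : F ≃+* K := FiniteField.ringEquivOfCardEq (by
    rw [← Nat.card_eq_fintype_card, ← Nat.card_eq_fintype_card, hF, hK, hcD])
  let E : Additive D ≃+ K := E0.trans ρ.toAddEquiv
  have hE' : ∀ (u : h.ker a) (v : D), E (Additive.ofMul (H1.cj D u v)) =
      ρ (χ u) * E (Additive.ofMul v) := fun u v => by
    have := congrArg ρ (hE u v)
    rwa [map_mul] at this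
  let f : K → Ω := fun t => ((E.symm t).toMul : G) • a
  have hf : Function.Bijective f := by
    constructor
    · intro x y e
      exact E.symm.injective (Additive.toMul.injective (Subtype.ext
        (hD.ext (E.symm _).toMul.2 (E.symm _).toMul.2 e)))
    · intro c
      obtain ⟨x, hx, e⟩ := hD.tr a c
      exact ⟨E (Additive.ofMul ⟨x, hx⟩), by simpa [f] using e⟩
  let e := (Equiv.ofBijective f hf).symm
  have he : ∀ x : D, e ((x : G) • a) = E (Additive.ofMul x) := fun x => by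
    rw [Equiv.symm_apply_eq]; simp [f]
  refine ⟨e, fun g => ?_⟩
  obtain ⟨x, hx, ex⟩ := hD.tr a (g • a)
  set l := x⁻¹ * g with hl
  have hla : l • a = a := by rw [hl, mul_smul, ← ex, inv_smul_smul]
  have hln : ∀ l : G, l ∈ normalizer (D : Set G) := fun l => le_normalizer_of_normal (mem_top l)
  let ψ : K →+ K := (E.toAddMonoidHom.comp (MonoidHom.toAdditive (H1.cj D l))).comp
    E.symm.toAddMonoidHom
  have hψ : ∀ v : D, ψ (E (Additive.ofMul v)) = E (Additive.ofMul (H1.cj D l v)) := fun v => by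
    simp [ψ]
  have hψi : Function.Injective ψ := by
    intro s t e
    obtain ⟨v, rfl⟩ := E.surjective s
    obtain ⟨w, rfl⟩ := E.surjective t
    have := (hψ v.toMul).symm.trans (e.trans (hψ w.toMul))
    exact congrArg E (congrArg Additive.ofMul (H1.cj_injective (hln l)
      (Additive.ofMul.injective (E.injective this))))
  have hc : ψ 1 ≠ 0 := fun e => one_ne_zero (hψi (e.trans (map_zero ψ).symm))
  have hmul : ∀ y z : K, ψ (y * z) * ψ 1 = ψ y * ψ z := by
    intro y z
    by_cases hy : y = 0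
    · simp [hy]
    obtain ⟨v, hv⟩ := E.surjective 1
    obtain ⟨w, hw⟩ := E.surjective y
    obtain ⟨u, hu, euv⟩ := htr v.toMul v.toMul.2 (fun e => by
        have : v = 0 := Subtype.ext e
        rw [this, map_zero] at hv; exact zero_ne_one hv) w.toMul w.toMul.2 (fun e => by
        have : w = 0 := Subtype.ext e
        rw [this, map_zero] at hw; exact hy hw.symm)
    have h1 : ρ (χ ⟨u, hu⟩) = y := by
      have := hE' ⟨u, hu⟩ v.toMul
      rw [show H1.cj D (⟨u, hu⟩ : h.ker a) v.toMul = w.toMul from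
        Subtype.ext ((H1.coe_cj (hln u) _).trans euv)] at this
      simpa [hv, hw] using this.symm
    have h2 : ∀ z : K, ψ (y * z) = ρ (χ ⟨l * u * l⁻¹, Zs.conj_mem_ker' hu hla⟩) * ψ z := by
      intro z
      obtain ⟨s, rfl⟩ := E.surjective z
      have h3 := hE' ⟨u, hu⟩ s.toMul
      rw [h1] at h3
      change _ = y * E s at h3
      rw [← h3, hψ]
      have h4 := hE' ⟨l * u * l⁻¹, Zs.conj_mem_ker' hu hla⟩ (H1.cj D l s.toMul)
      rw [← H1.cj_mul (hln _) (hln _)] at h4
      simp only [inv_mul_cancel_right] at h4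
      rw [← H1.cj_mul (hln _) (hln _), h4, ← hψ]
      rfl
    have h5 := h2 1
    rw [mul_one] at h5
    rw [h2 z, h5]; ring
  let φ0 : K →+* K :=
    { toFun := fun y => (ψ 1)⁻¹ * ψ y
      map_one' := inv_mul_cancel₀ hc
      map_mul' := fun y z => by
        have := hmul y z
        field_simp
        linear_combination this
      map_zero' := by simp
      map_add' := fun y z => by rw [map_add, mul_add] }
  let φ : K ≃+* K := RingEquiv.ofBijective φ0 (Finite.injective_iff_bijective.1 φ0.injective)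
  refine ⟨Units.mk0 _ hc, E (Additive.ofMul ⟨x, hx⟩), φ, fun t => ?_⟩
  obtain ⟨s, rfl⟩ := E.surjective t
  have h1 : e.symm (E s) = (s.toMul : G) • a := by
    rw [Equiv.symm_apply_eq, he]; rfl
  have h2 : g • (s.toMul : G) • a = ((⟨x, hx⟩ * H1.cj D l s.toMul : D) : G) • a := by
    rw [coe_mul, H1.coe_cj (hln l), mul_smul, mul_smul, mul_smul, inv_fix hla, hl, mul_smul,
      smul_inv_smul]
  rw [h1, h2, he, ofMul_mul, map_add, add_comm, ← hψ]
  congr 1
  change _ = ψ 1 * ((ψ 1)⁻¹ * ψ (E s))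
  rw [mul_inv_cancel_left₀ hc]
  rfl

end Zs
end H8
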